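import Mathlib
import Cfsg.Agent.Helper71.SQDefs
import Cfsg.Agent.Helper58.SOTools

/-!
# CALL S5867 (helper71), PIECE ZB2 (helper12, double): `levi_lift`.
-/

set_option autoImplicit false
set_option linter.unusedVariables false

namespace Cfsg.Agent.Helper12.SQZB2

open Matrix Cfsg.Agent.Helper71.T4 Cfsg.Agent.Helper71.SO Cfsg.Agent.Helper71.SQ
open Cfsg.Agent.Helper96.T5 Cfsg.Agent.Helper58.SOT
open scoped Kronecker

variable {F : Type*} [Field F] {m n : ℕ}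

/-- the form of an alternating matrix is antisymmetric -/
theorem bl_anti (J : Matrix (Fin m) (Fin m) F) (hJ : Jᵀ = -J) (x y : Fin m → F) :
    bl J x y = - bl J y x := by
  unfold bl
  rw [Matrix.dotProduct_mulVec, ← Matrix.mulVec_transpose, hJ, dotProduct_comm,
    Matrix.neg_mulVec, dotProduct_neg]

theorem bl_self (h2 : (2 : F) ≠ 0) (J : Matrix (Fin m) (Fin m) F) (hJ : Jᵀ = -J)
    (x : Fin m → F) : bl J x x = 0 := by
  have h := bl_anti J hJ x x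
  have h3 : (2 : F) * bl J x x = 0 := by linear_combination h
  rcases mul_eq_zero.mp h3 with h4 | h4
  · exact absurd h4 h2
  · exact h4

/-! ## Piece ZB2 -/
theorem levi_lift (hn : 0 < n) (h2 : (2 : F) ≠ 0) (J : Matrix (Fin m) (Fin m) F)
    (hJ : Jᵀ = -J) (hdetJ : J.det ≠ 0) (S : Matrix (Fin n) (Fin n) F) (hS : Sᵀ = S)
    (hdetS : S.det ≠ 0) (a a₁ : Fin m → F) (ha : a ≠ 0) (haa₁ : bl J a a₁ = 1)
    (k : Matrix (Fin m × Fin n) (Fin m × Fin n) F)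
    (B : Matrix (Fin n) (Fin n) F) (A₁ : Matrix (Fin m) (Fin m) F) (μ ν : F)
    (hνμ : ν * μ = 1) (hB : Bᵀ * S * B = μ • S)
    (hk0 : ∀ b : Fin n → F, k *ᵥ pt a b = pt a (B *ᵥ b))
    (hk1 : ∀ y : Fin m → F, bl J a y = 0 → bl J a (A₁ *ᵥ y) = 0)
    (hk2 : ∀ y y' : Fin m → F, bl J a y = 0 → bl J a y' = 0 →
      bl J (A₁ *ᵥ y) (A₁ *ᵥ y') = ν * bl J y y')
    (hk3 : ∀ (y : Fin m → F) (b : Fin n → F), bl J a y = 0 → ∃ d : Fin n → F,
      k *ᵥ pt y b = pt (A₁ *ᵥ y) (B *ᵥ b) + pt a d) :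
    ∃ (A : Matrix (Fin m) (Fin m) F) (ρ : Matrix (Fin m × Fin n) (Fin m × Fin n) F),
      Aᵀ * J * A = ν • J ∧ k = (A ⊗ₖ B) * ρ ∧
      (∀ b : Fin n → F, ρ *ᵥ pt a b = pt a b) ∧
      (∀ (y : Fin m → F) (b : Fin n → F), bl J a y = 0 → ∃ b' : Fin n → F,
        ρ *ᵥ pt y b = pt y b + pt a b') := by
  classical
  have hμ : μ ≠ 0 := by
    rintro rfl
    simp at hνμ
  have hν : ν ≠ 0 := by
    rintro rfl
    simp at hνμ
  have haa : bl J a a = 0 := bl_self h2 J hJ a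
  have ha₁a₁ : bl J a₁ a₁ = 0 := bl_self h2 J hJ a₁
  have ha₁a : bl J a₁ a = -1 := by rw [bl_anti J hJ, haa₁]
  -- the projection onto `a^⊥` along `a₁`
  obtain ⟨Y, hY⟩ : ∃ Y : Matrix (Fin m) (Fin m) F, ∀ x, Y *ᵥ x = x - bl J a x • a₁ := by
    refine ⟨1 + rk J a₁ a, fun x => ?_⟩
    rw [Matrix.add_mulVec, Matrix.one_mulVec, rk_mulVec]
    have : bf J x a = - bl J a x := bl_anti J hJ x a
    rw [this, neg_smul, sub_eq_add_neg]
  have haY : ∀ x, bl J a (Y *ᵥ x) = 0 := by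
    intro x
    rw [hY, bl_sub_right, bl_smul_right, haa₁]
    ring
  have hYperp : ∀ y, bl J a y = 0 → Y *ᵥ y = y := by
    intro y hy
    rw [hY, hy, zero_smul, sub_zero]
  -- the matrix `A`
  obtain ⟨A, hAx⟩ : ∃ A : Matrix (Fin m) (Fin m) F, ∀ x, A *ᵥ x =
      A₁ *ᵥ (Y *ᵥ x) + (bl J (Y *ᵥ x) a₁ - bl J (A₁ *ᵥ (Y *ᵥ x)) a₁) • a
        + (ν * bl J a x) • a₁ := by
    refine ⟨A₁ * Y + rk J a a₁ * Y - rk J a a₁ * (A₁ * Y) - ν • rk J a₁ a, fun x => ?_⟩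
    rw [Matrix.sub_mulVec, Matrix.sub_mulVec, Matrix.add_mulVec, Matrix.smul_mulVec,
      ← Matrix.mulVec_mulVec, ← Matrix.mulVec_mulVec, ← Matrix.mulVec_mulVec,
      ← Matrix.mulVec_mulVec, rk_mulVec, rk_mulVec, rk_mulVec]
    have e1 : bf J x a = - bl J a x := bl_anti J hJ x a
    have e2 : bf J (Y *ᵥ x) a₁ = bl J (Y *ᵥ x) a₁ := rfl
    have e3 : bf J (A₁ *ᵥ (Y *ᵥ x)) a₁ = bl J (A₁ *ᵥ (Y *ᵥ x)) a₁ := rfl
    rw [e1, e2, e3]
    ext i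
    simp only [Pi.add_apply, Pi.sub_apply, Pi.smul_apply, smul_eq_mul]
    ring
  have hAiso : ∀ x x', bl J (A *ᵥ x) (A *ᵥ x') = ν * bl J x x' := by
    intro x x'
    have h1 := hk2 _ _ (haY x) (haY x')
    have h2' : bl J a (A₁ *ᵥ (Y *ᵥ x')) = 0 := hk1 _ (haY x')
    have h2'' : bl J a (A₁ *ᵥ (Y *ᵥ x)) = 0 := hk1 _ (haY x)
    have h3 : bl J (A₁ *ᵥ (Y *ᵥ x)) a = 0 := by rw [bl_anti J hJ, h2'', neg_zero]
    have h4 : bl J a₁ (A₁ *ᵥ (Y *ᵥ x')) = - bl J (A₁ *ᵥ (Y *ᵥ x')) a₁ := bl_anti J hJ _ _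
    have h5 : bl J (Y *ᵥ x) (Y *ᵥ x') =
        bl J x x' - bl J a x' * bl J x a₁ + bl J a x * bl J x' a₁ := by
      rw [hY x, hY x']
      simp only [bl_sub_left, bl_sub_right, bl_smul_left, bl_smul_right, ha₁a₁]
      rw [bl_anti J hJ a₁ x']
      ring
    have h6 : bl J (Y *ᵥ x) a₁ = bl J x a₁ := by
      rw [hY x, bl_sub_left, bl_smul_left, ha₁a₁]; ring
    have h7 : bl J (Y *ᵥ x') a₁ = bl J x' a₁ := by
      rw [hY x', bl_sub_left, bl_smul_left, ha₁a₁]; ring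
    rw [hAx x, hAx x']
    simp only [bl_add_left, bl_add_right, bl_smul_left, bl_smul_right, h1, h2', h3, h4, h5, h6,
      h7, haa, ha₁a₁, haa₁, ha₁a]
    ring
  have hAJ : Aᵀ * J * A = ν • J := by
    apply mat_eq_of_bl
    intro x y
    have e : x ⬝ᵥ (Aᵀ * J * A) *ᵥ y = bl J (A *ᵥ x) (A *ᵥ y) := by
      unfold bl
      rw [Matrix.mul_assoc, ← Matrix.mulVec_mulVec, Matrix.dotProduct_mulVec,
        Matrix.vecMul_transpose, ← Matrix.mulVec_mulVec]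
    rw [e, hAiso, Matrix.smul_mulVec, dotProduct_smul]
    rfl
  have hAdet : A.det ≠ 0 := by
    intro h0
    have h3 := congrArg Matrix.det hAJ
    rw [Matrix.det_mul, Matrix.det_mul, h0, mul_zero, Matrix.det_smul] at h3
    exact mul_ne_zero (pow_ne_zero _ hν) hdetJ h3.symm
  have hBdet : B.det ≠ 0 := by
    intro h0
    have h3 := congrArg Matrix.det hB
    rw [Matrix.det_mul, Matrix.det_mul, h0, mul_zero, Matrix.det_smul] at h3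
    exact mul_ne_zero (pow_ne_zero _ hμ) hdetS h3.symm
  have hBB : B⁻¹ * B = 1 := Matrix.nonsing_inv_mul _ (isUnit_iff_ne_zero.mpr hBdet)
  have hBB' : B * B⁻¹ = 1 := Matrix.mul_nonsing_inv _ (isUnit_iff_ne_zero.mpr hBdet)
  have hAA : A⁻¹ * A = 1 := Matrix.nonsing_inv_mul _ (isUnit_iff_ne_zero.mpr hAdet)
  have hAA' : A * A⁻¹ = 1 := Matrix.mul_nonsing_inv _ (isUnit_iff_ne_zero.mpr hAdet)
  -- `A₁ a ∈ F a`
  obtain ⟨κ, hκ⟩ : ∃ κ : F, A₁ *ᵥ a = κ • a := by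
    let l₀ : Fin n := ⟨0, hn⟩
    obtain ⟨d, hd⟩ := hk3 a (B⁻¹ *ᵥ Pi.single l₀ 1) haa
    have hBe : B *ᵥ (B⁻¹ *ᵥ Pi.single l₀ 1) = Pi.single l₀ (1 : F) := by
      rw [Matrix.mulVec_mulVec, hBB', Matrix.one_mulVec]
    rw [hk0, hBe] at hd
    refine ⟨1 - d l₀, ?_⟩
    ext i
    have h3 := congrFun hd (i, l₀)
    simp only [pt, Pi.add_apply, Pi.single_eq_same, mul_one] at h3
    simp only [Pi.smul_apply, smul_eq_mul]
    linear_combination -h3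
  have hAa : A *ᵥ a = a := by
    rw [hAx a, hYperp a haa, hκ, bl_smul_left, haa₁, haa]
    ext i
    simp only [Pi.add_apply, Pi.smul_apply, smul_eq_mul]
    ring
  have hAia : A⁻¹ *ᵥ a = a := by
    have h3 : A⁻¹ *ᵥ (A *ᵥ a) = a := by rw [Matrix.mulVec_mulVec, hAA, Matrix.one_mulVec]
    rwa [hAa] at h3
  refine ⟨A, (A⁻¹ ⊗ₖ B⁻¹) * k, hAJ, ?_, ?_, ?_⟩
  · rw [← Matrix.mul_assoc, ← Matrix.mul_kronecker_mul, hAA', hBB', Matrix.one_kronecker_one,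
      one_mul]
  · intro b
    rw [← Matrix.mulVec_mulVec, hk0, kron_mulVec_pt, hAia, Matrix.mulVec_mulVec, hBB,
      Matrix.one_mulVec]
  · intro y b hy
    obtain ⟨d, hd⟩ := hk3 y b hy
    obtain ⟨c, hc⟩ : ∃ c : F, A *ᵥ y = A₁ *ᵥ y + c • a := by
      refine ⟨bl J y a₁ - bl J (A₁ *ᵥ y) a₁, ?_⟩
      rw [hAx y, hYperp y hy, hy, mul_zero, zero_smul, add_zero]
    have hAiy : A⁻¹ *ᵥ (A₁ *ᵥ y) = y - c • a := by
      have h3 : A⁻¹ *ᵥ (A *ᵥ y) = y := by rw [Matrix.mulVec_mulVec, hAA, Matrix.one_mulVec]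
      rw [hc, Matrix.mulVec_add, Matrix.mulVec_smul, hAia] at h3
      exact eq_sub_of_add_eq h3
    refine ⟨-(c • b) + B⁻¹ *ᵥ d, ?_⟩
    rw [← Matrix.mulVec_mulVec, hd, Matrix.mulVec_add, kron_mulVec_pt, kron_mulVec_pt,
      Matrix.mulVec_mulVec b B⁻¹ B, hBB, Matrix.one_mulVec, hAiy, hAia, pt_add_right,
      sub_eq_add_neg,
      pt_add_left, ← neg_smul, pt_smul_left, ← neg_smul, pt_smul_right]
    abel

end Cfsg.Agent.Helper12.SQZB2
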