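import Mathlib
import Cfsg.Agent.Helper15.B42Defs
import Cfsg.Agent.Helper77.D1Final
import Cfsg.Agent.Helper29.D1IL
import Cfsg.Agent.Helper79.S4441Setup
import Cfsg.Agent.Helper79.Basic
import Cfsg.Agent.Helper81.CharBasic
import Cfsg.Agent.Helper3.Induced
import Cfsg.Agent.Helper3.Frobenius

/-!
CALL S4503 piece PV (helper12): the values of a character of the principal block (the block of
the trivial character of `K`) on the `p`-singular elements `x ^ b * k`.
-/

universe u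
set_option autoImplicit false
open Cfsg Cfsg.Agent.Helper77 Cfsg.Agent.Helper15
open scoped ComplexConjugate

namespace Cfsg.Agent.Helper12

variable {G : Type u} [Group G] [Finite G]

/-- PV -/
theorem b42_principal_values (p : ℕ) [Fact p.Prime] (x : G) (K : Subgroup G) (h : D1Hyp p x K)
    (θ₀ : Cfsg.IrrCharacter K) (hθ₀ : ∀ k : K, (θ₀ : K → ℂ) k = 1) (ζ : Cfsg.IrrCharacter G)
    (hζ : ζ ∈ blkTheta K x (θ₀ : K → ℂ)) (b : ℕ) (hb : ¬ p ∣ b) (k : G) (hk : k ∈ K) :
    (ζ : G → ℂ) (x ^ b * k) = dco K (θ₀ : K → ℂ) (ζ : G → ℂ) (x ^ b) := by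
  classical
  have hp : p.Prime := Fact.out
  haveI : Fintype K := Fintype.ofFinite K
  haveI : Fintype (Cfsg.IrrCharacter K) := Fintype.ofFinite _
  have hKx : ∀ k' : K, (k' : G) * x = x * (k' : G) := fun k' =>
    (h.hC (k' : G)).mpr ⟨0, (k' : G), k'.2, by simp⟩
  have hζcl : Cfsg.IsClassFunction G (ζ : G → ℂ) := Cfsg.Agent.Helper81.irr_isClassFunction ζ
  -- the class function `k' ↦ ζ (x ^ b * k')` on `K`
  have hf : Cfsg.IsClassFunction K (fun k' : K => (ζ : G → ℂ) (x ^ b * (k' : G))) := by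
    intro g c
    show (ζ : G → ℂ) (x ^ b * ((c * g * c⁻¹ : K) : G)) = (ζ : G → ℂ) (x ^ b * (g : G))
    have h1 : x ^ b * ((c * g * c⁻¹ : K) : G) = (c : G) * (x ^ b * (g : G)) * (c : G)⁻¹ := by
      have h2 : (c : G) * x ^ b = x ^ b * (c : G) :=
        (Commute.pow_right (show Commute (c : G) x from hKx c) b)
      push_cast
      calc x ^ b * ((c : G) * (g : G) * (c : G)⁻¹)
          = (x ^ b * (c : G)) * (g : G) * (c : G)⁻¹ := by group
        _ = ((c : G) * x ^ b) * (g : G) * (c : G)⁻¹ := by rw [h2]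
        _ = (c : G) * (x ^ b * (g : G)) * (c : G)⁻¹ := by group
    rw [h1, hζcl]
  have hexp := Cfsg.Agent.Helper3.classFunction_eq_sum
    (fun k' : K => (ζ : G → ℂ) (x ^ b * (k' : G))) hf
  have hco : ∀ θ' : Cfsg.IrrCharacter K,
      Cfsg.classInner (fun k' : K => (ζ : G → ℂ) (x ^ b * (k' : G))) (θ' : K → ℂ)
        = dco K (θ' : K → ℂ) (ζ : G → ℂ) (x ^ b) := by
    intro θ'
    unfold Cfsg.classInner dco
    rw [finsum_eq_sum_of_fintype]
  -- vanishing of the other coefficients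
  have hvan : ∀ θ' : Cfsg.IrrCharacter K, θ' ≠ θ₀ →
      dco K (θ' : K → ℂ) (ζ : G → ℂ) (x ^ b) = 0 := by
    intro θ' hne
    by_contra hnz
    have hpG : p ∣ Nat.card G := by rw [← h.hx]; exact orderOf_dvd_natCard x
    obtain ⟨M₀, hM₀⟩ := hpG
    have hM₀p : ¬ p ∣ M₀ := by
      rintro ⟨t, rfl⟩
      apply h.hsq
      rw [hM₀]
      exact ⟨t, by ring⟩
    obtain ⟨hA, hB, -⟩ := Cfsg.Agent.Helper65.d1_inertial p x K h M₀ hM₀p (by rw [hM₀])
    have hcop : Nat.Coprime b p := (Nat.Coprime.symm ((Nat.Prime.coprime_iff_not_dvd hp).mpr hb))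
    obtain ⟨τ, hτ1, -, hτ3⟩ := hB (ZMod.unitOfCoprime b hcop)⁻¹
    have hθfix := (hA τ hτ1).1
    have hgal := Cfsg.Agent.Helper29.d1_dco_gal K τ θ' θ' (fun k' => (hθfix θ' k').symm) ζ
      (Cfsg.Agent.Helper79.galIrr τ ζ) (fun g => rfl) (x ^ b)
    have hpow : x ^ (b * (((ZMod.unitOfCoprime b hcop)⁻¹ : (ZMod p)ˣ) : ZMod p).val) = x := by
      have h1 : ((b * (((ZMod.unitOfCoprime b hcop)⁻¹ : (ZMod p)ˣ) : ZMod p).val : ℕ) : ZMod p)
          = ((1 : ℕ) : ZMod p) := by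
        push_cast
        rw [ZMod.natCast_zmod_val]
        have h2 : ((ZMod.unitOfCoprime b hcop : (ZMod p)ˣ) : ZMod p) = (b : ZMod p) :=
          ZMod.coe_unitOfCoprime b hcop
        rw [← h2]
        exact mul_inv_cancel₀ (Units.ne_zero _)
      have h3 := (ZMod.natCast_eq_natCast_iff _ _ _).mp h1
      have h4 : x ^ (b * (((ZMod.unitOfCoprime b hcop)⁻¹ : (ZMod p)ˣ) : ZMod p).val) = x ^ 1 := by
        rw [pow_eq_pow_iff_modEq, h.hx]
        exact h3
      rw [h4, pow_one]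
    have hdx : dco K (θ' : K → ℂ) ((Cfsg.Agent.Helper79.galIrr τ ζ : Cfsg.IrrCharacter G) : G → ℂ)
        (x ^ b) = dco K (θ' : K → ℂ) (ζ : G → ℂ) x := by
      unfold dco
      congr 1
      apply finsum_congr
      intro k'
      rw [Cfsg.Agent.Helper79.galIrr_apply, hτ3 ζ b k', hpow]
    have hblk : ζ ∈ blkTheta K x (θ' : K → ℂ) := by
      show dco K (θ' : K → ℂ) (ζ : G → ℂ) x ≠ 0
      rw [← hdx, hgal]
      intro h0
      exact hnz ((map_eq_zero τ).mp h0)
    -- the two block memberships force `θ'` to be conjugate to `θ₀`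
    obtain ⟨M, hM⟩ := Cfsg.Agent.Helper78.exists_isPModular p hp
    obtain ⟨n, hn, hθ⟩ := Cfsg.Agent.Helper74.d1_inj p M x K hM h θ₀ θ' (by
      intro g
      have a := Cfsg.Agent.Helper75.d1_cc p M x K hM h θ₀ ζ hζ g
      have b' := Cfsg.Agent.Helper75.d1_cc p M x K hM h θ' ζ hblk g
      have c := Cfsg.Agent.Helper16.memLocalIdeal_sub hM.2.1 b' a
      have e : Cfsg.centralChar (ζ : G → ℂ) g - omTheta p x K (θ' : K → ℂ) g
          - (Cfsg.centralChar (ζ : G → ℂ) g - omTheta p x K (θ₀ : K → ℂ) g)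
          = omTheta p x K (θ₀ : K → ℂ) g - omTheta p x K (θ' : K → ℂ) g := by ring
      rw [e] at c
      exact c)
    have hn' : n ∈ Subgroup.normalizer ((Subgroup.zpowers x : Subgroup G) : Set G) := by
      apply Subgroup.mem_normalizer_fintype
      intro g hg
      obtain ⟨z, rfl⟩ := Subgroup.mem_zpowers_iff.mp hg
      have h1 : n * x ^ z * n⁻¹ = (n * x * n⁻¹) ^ z := (conj_zpow).symm
      rw [h1]
      exact Subgroup.zpow_mem _ hn z
    apply hne
    apply Subtype.ext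
    funext k'
    have h1 := Cfsg.Agent.Helper75.lat_K_normal p x h.hx K h.hK h.hC n⁻¹ (inv_mem hn') k' k'.2
    rw [inv_inv] at h1
    have h2 := hθ ⟨n⁻¹ * (k' : G) * n, h1⟩ k' (by simp [mul_assoc])
    rw [h2, hθ₀, hθ₀]
  have hval := congrFun hexp ⟨k, hk⟩
  rw [Finset.sum_apply] at hval
  rw [Finset.sum_eq_single θ₀] at hval
  · simp only [Pi.smul_apply, smul_eq_mul] at hval
    rw [hval, hco, hθ₀, mul_one]
  · intro θ' _ hne
    simp only [Pi.smul_apply, smul_eq_mul]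
    rw [hco, hvan θ' hne, zero_mul]
  · intro hnot
    exact absurd (Finset.mem_univ _) hnot

end Cfsg.Agent.Helper12
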