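import Mathlib
import Cfsg.Prelude.Def_OddOrderLocal

/-!
# CALL S1356 (BG56), piece CSUP (helper12): `[ES, ES] ≤ [E, E] S` when `E` normalizes `S`.
-/

set_option autoImplicit false

namespace Cfsg.Agent.Helper12

open Cfsg Subgroup

universe u

variable {G : Type u} [Group G] [Finite G]

open scoped commutatorElement in
/-- CSUP [S-M, PURE]. `[ES, ES] ≤ [E, E] S` when `E` normalizes `S`. -/
theorem bg56_comm_le_sup {E S : Subgroup G} (hn : E ≤ normalizer (S : Set G)) :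
    ⁅E ⊔ S, E ⊔ S⁆ ≤ ⁅E, E⁆ ⊔ S := by
  have hmem : ∀ g ∈ E ⊔ S, ∃ e ∈ E, ∃ s ∈ S, g = e * s := by
    intro g hg
    have h1 : g ∈ ((E ⊔ S : Subgroup G) : Set G) := hg
    rw [coe_mul_of_left_le_normalizer_right E S hn] at h1
    obtain ⟨e, he, s, hs, rfl⟩ := Set.mem_mul.mp h1
    exact ⟨e, he, s, hs, rfl⟩
  have hconj : ∀ e ∈ E, ∀ s ∈ S, e * s * e⁻¹ ∈ S := by
    intro e he s hs
    exact (mem_normalizer_iff.mp (hn he) s).mp hs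
  have hconj' : ∀ e ∈ E, ∀ s ∈ S, e⁻¹ * s * e ∈ S := by
    intro e he s hs
    have := hconj e⁻¹ (E.inv_mem he) s hs
    rwa [inv_inv] at this
  rw [commutator_le]
  intro g₁ hg₁ g₂ hg₂
  obtain ⟨e₁, he₁, s₁, hs₁, rfl⟩ := hmem g₁ hg₁
  obtain ⟨e₂, he₂, s₂, hs₂, rfl⟩ := hmem g₂ hg₂
  have hid : ⁅e₁ * s₁, e₂ * s₂⁆ = ⁅e₁, e₂⁆ *
      (e₂ * ((e₁ * ((e₂⁻¹ * s₁ * e₂) * s₂ * s₁⁻¹) * e₁⁻¹) * s₂⁻¹) * e₂⁻¹) := by
    rw [commutatorElement_def, commutatorElement_def]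
    group
  rw [hid]
  refine (⁅E, E⁆ ⊔ S).mul_mem (le_sup_left (b := S) (commutator_mem_commutator he₁ he₂))
    (le_sup_right (a := ⁅E, E⁆) ?_)
  apply hconj e₂ he₂
  apply S.mul_mem _ (S.inv_mem hs₂)
  apply hconj e₁ he₁
  exact S.mul_mem (S.mul_mem (hconj' e₂ he₂ s₁ hs₁) hs₂) (S.inv_mem hs₁)

end Cfsg.Agent.Helper12
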