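import Mathlib
import Cfsg.Prelude.Def_OddOrderLocal
import Cfsg.Agent.Helper12.BG56CSUP

/-!
# CALL S1356 (BG56), piece DER2 (helper12): `(ES)'' ≤ S` when `E` normalizes `S` and `E'` is
commutative.
-/

set_option autoImplicit false

namespace Cfsg.Agent.Helper12

open Cfsg Subgroup

universe u

variable {G : Type u} [Group G] [Finite G]

/-- DER2 [M, PURE]. `(ES)'' ≤ S` when `E` normalizes `S` and `E'` is commutative. -/
theorem bg56_der2_le {E S : Subgroup G} (hn : E ≤ normalizer (S : Set G))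
    (hab : IsMulCommutative ↥⁅E, E⁆) :
    ⁅⁅E ⊔ S, E ⊔ S⁆, ⁅E ⊔ S, E ⊔ S⁆⁆ ≤ S := by
  have h1 : ⁅E ⊔ S, E ⊔ S⁆ ≤ ⁅E, E⁆ ⊔ S := bg56_comm_le_sup hn
  have hn' : (⁅E, E⁆ : Subgroup G) ≤ normalizer (S : Set G) := (commutator_le_self E).trans hn
  have h2 : ⁅⁅E, E⁆ ⊔ S, ⁅E, E⁆ ⊔ S⁆ ≤ ⁅⁅E, E⁆, ⁅E, E⁆⁆ ⊔ S := bg56_comm_le_sup hn'
  have h3 : ⁅⁅E, E⁆, ⁅E, E⁆⁆ = ⊥ := by
    rw [commutator_eq_bot_iff_le_centralizer, le_centralizer_iff_isMulCommutative]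
    exact hab
  rw [h3, bot_sup_eq] at h2
  exact (commutator_mono h1 h1).trans h2

end Cfsg.Agent.Helper12
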