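import Mathlib
import Cfsg.Prelude.Def_OddOrderLocal
import Cfsg.Agent.Helper51.Replace

/-!
# CALL S1356 (BG56), piece RDVD (helper12): if `M = K N` with `N` normal in `M`, then `|M : N|`
divides `|K|`.
-/

set_option autoImplicit false

namespace Cfsg.Agent.Helper12

open Cfsg Subgroup

universe u

variable {G : Type u} [Group G] [Finite G]

/-- RDVD [S-M, PURE]. If `M = K N` (elementwise) with `N` normal in `M`, then `|M : N|` divides
`|K|`. -/
theorem bg56_relIndex_dvd {M N K : Subgroup G} (hNM : N ≤ M) (hn : M ≤ normalizer (N : Set G))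
    (hKM : K ≤ M) (hfac : ∀ m ∈ M, ∃ k ∈ K, ∃ n ∈ N, m = k * n) : N.relIndex M ∣ Nat.card K := by
  have hsup : K ⊔ N = M := by
    apply le_antisymm (sup_le hKM hNM)
    intro m hm
    obtain ⟨k, hk, n, hn', rfl⟩ := hfac m hm
    exact (K ⊔ N).mul_mem (le_sup_left (b := N) hk) (le_sup_right (a := K) hn')
  have h1 := Cfsg.Agent.Helper51.card_sup_mul_card_inf_of_le_normalizer K N (hKM.trans hn)
  rw [hsup] at h1
  have h2 : Nat.card N * N.relIndex M = Nat.card M := by
    have := relIndex_mul_relIndex ⊥ N M bot_le hNM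
    rwa [relIndex_bot_left, relIndex_bot_left] at this
  have hNpos : 0 < Nat.card N := Nat.card_pos
  refine ⟨Nat.card ↥(K ⊓ N), ?_⟩
  apply Nat.eq_of_mul_eq_mul_left hNpos
  rw [← mul_assoc, h2, h1, mul_comm]

end Cfsg.Agent.Helper12
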