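import Mathlib

set_option autoImplicit false

namespace Cfsg.Agent.Helper12

/-- Concrete transitivity of a set of permutations. -/
def SetTrans {α : Type*} (S : Set (Equiv.Perm α)) : Prop :=
  ∀ a b : α, ∃ m ∈ S, m a = b

theorem setTrans_of_isPretransitive {α : Type*} (G : Subgroup (Equiv.Perm α))
    [h : MulAction.IsPretransitive G α] : SetTrans (G : Set (Equiv.Perm α)) := by
  intro a b
  obtain ⟨g, hg⟩ := h.exists_smul_eq a b
  exact ⟨g.1, g.2, hg⟩

theorem isPretransitive_of_setTrans {α : Type*} (G : Subgroup (Equiv.Perm α))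
    (h : SetTrans (G : Set (Equiv.Perm α))) : MulAction.IsPretransitive G α := by
  refine ⟨fun a b => ?_⟩
  obtain ⟨m, hm, hmab⟩ := h a b
  exact ⟨⟨m, hm⟩, hmab⟩

/-- The centraliser of a transitive set of permutations is semiregular. -/
theorem cent_semiregular {α : Type*} {S : Set (Equiv.Perm α)} (hS : SetTrans S)
    {c : Equiv.Perm α} (hc : c ∈ Subgroup.centralizer S) {a : α} (h : c a = a) : c = 1 := by
  ext b
  obtain ⟨m, hm, rfl⟩ := hS a b
  rw [Subgroup.mem_centralizer_iff] at hc
  have h1 := congrArg (fun σ : Equiv.Perm α => σ a) (hc m hm)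
  simp only [Equiv.Perm.coe_mul, Function.comp_apply] at h1
  rw [Equiv.Perm.coe_one, id_eq, ← h1, h]

/-- Two elements of the centraliser of a transitive set which agree at a point are equal. -/
theorem cent_eq_of_apply_eq {α : Type*} {S : Set (Equiv.Perm α)} (hS : SetTrans S)
    {c d : Equiv.Perm α} (hc : c ∈ Subgroup.centralizer S) (hd : d ∈ Subgroup.centralizer S)
    {a : α} (h : c a = d a) : c = d := by
  have h1 : d⁻¹ * c = 1 := by
    apply cent_semiregular hS (Subgroup.mul_mem _ (Subgroup.inv_mem _ hd) hc) (a := a)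
    rw [Equiv.Perm.coe_mul, Function.comp_apply, h]; simp
  rw [inv_mul_eq_one] at h1
  exact h1.symm

/-- If `S` is transitive, then a subgroup `N` of the centraliser of `S` which is transitive is
the whole centraliser. -/
theorem cent_eq_of_le_of_setTrans {α : Type*} {S : Set (Equiv.Perm α)} (hS : SetTrans S)
    (N : Subgroup (Equiv.Perm α)) (hN : N ≤ Subgroup.centralizer S)
    (hNt : SetTrans (N : Set (Equiv.Perm α))) [Nonempty α] :
    Subgroup.centralizer S = N := by
  refine le_antisymm ?_ hN
  intro c hc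
  obtain ⟨a⟩ := ‹Nonempty α›
  obtain ⟨n, hn, hna⟩ := hNt a (c a)
  have : c = n := cent_eq_of_apply_eq hS hc (hN hn) hna.symm
  rw [this]; exact hn

end Cfsg.Agent.Helper12
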