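import Mathlib

set_option autoImplicit false

namespace Cfsg.Agent.Helper12

/-- A subgroup all of whose point stabilisers are trivial acts freely. -/
theorem free_of_reg {G X : Type*} [Group G] [MulAction G X] (N : Subgroup G)
    (hreg : ∀ x : X, MulAction.stabilizer N x = ⊥) {n m : G} (hn : n ∈ N) (hm : m ∈ N) {x : X}
    (h : n • x = m • x) : n = m := by
  have h1 : ((⟨m, hm⟩ : N)⁻¹ * (⟨n, hn⟩ : N)) ∈ MulAction.stabilizer N x := by
    rw [MulAction.mem_stabilizer_iff, mul_smul]
    change (⟨m, hm⟩ : N)⁻¹ • (n • x) = x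
    rw [h]
    exact inv_smul_smul (⟨m, hm⟩ : N) x
  rw [hreg, Subgroup.mem_bot] at h1
  have h2 : m⁻¹ * n = 1 := congrArg Subtype.val h1
  exact (inv_mul_eq_one.mp h2).symm

/-- An element of the stabiliser of `a` moves `m • a` to `(g m g⁻¹) • a`. -/
theorem stab_smul_smul {G X : Type*} [Group G] [MulAction G X] {a : X} {g : G}
    (hg : g ∈ MulAction.stabilizer G a) (m : G) : g • (m • a) = (g * m * g⁻¹) • a := by
  rw [MulAction.mem_stabilizer_iff] at hg
  rw [mul_smul, mul_smul, inv_smul_eq_iff.mpr hg.symm]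

/-- A regular subgroup is in bijection with the set acted on. -/
theorem bijective_smul_of_reg {G X : Type*} [Group G] [MulAction G X] (N : Subgroup G)
    (htrans : MulAction.IsPretransitive N X) (hreg : ∀ x : X, MulAction.stabilizer N x = ⊥)
    (a : X) : Function.Bijective (fun n : N => n • a) :=
  ⟨fun n m h => Subtype.ext (free_of_reg N hreg n.2 m.2 h), fun x => htrans.exists_smul_eq a x⟩

end Cfsg.Agent.Helper12
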