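import Mathlib
import Cfsg.Agent.Helper12.Sharp2
import Cfsg.Agent.S0695
import Cfsg.Agent.S0696

set_option autoImplicit false

namespace Cfsg.Agent.Helper12

open MulAction

section JordanNormal

universe u v

variable {G : Type u} [Group G] {X : Type v} [MulAction G X]

/-- Transfer of multiple transitivity from `N ∩ G_a` on the complement of `a` to `N`. -/
theorem multTrans_of_subgroupOf_stab (N : Subgroup G) (a : X) [IsPretransitive N X] (j : ℕ)
    (h : IsMultiplyPretransitive (N.subgroupOf (stabilizer G a))
      (SubMulAction.ofStabilizer G a) j) :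
    IsMultiplyPretransitive N X (j + 1) := by
  rw [SubMulAction.ofStabilizer.isMultiplyPretransitive (a := a)]
  let σ : (N.subgroupOf (stabilizer G a)) → stabilizer N a := fun k => ⟨⟨k.1.1, k.2⟩, k.1.2⟩
  let f : (SubMulAction.ofStabilizer G a) →ₑ[σ] (SubMulAction.ofStabilizer N a) :=
    { toFun := fun x => ⟨x.1, x.2⟩
      map_smul' := fun k x => rfl }
  have hσ : Function.Surjective σ := by
    rintro ⟨⟨g, hg⟩, hga⟩
    exact ⟨⟨⟨g, hga⟩, hg⟩, rfl⟩
  have hf : Function.Bijective f := by
    constructor
    · intro x y hxy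
      apply Subtype.ext
      exact congrArg Subtype.val hxy
    · rintro ⟨x, hx⟩
      exact ⟨⟨x, hx⟩, rfl⟩
  exact (IsPretransitive.of_embedding_congr hσ hf).mp h

/-- A nontrivial normal subgroup of a faithful primitive group is transitive. -/
theorem isPretransitive_of_normal_ne_bot [FaithfulSMul G X] [IsPreprimitive G X]
    (N : Subgroup G) [N.Normal] (hN : N ≠ ⊥) : IsPretransitive N X := by
  apply IsQuasiPreprimitive.isPretransitive_of_normal (G := G)
  intro htop
  apply hN
  rw [eq_bot_iff]
  intro n hn
  rw [Subgroup.mem_bot]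
  apply FaithfulSMul.eq_of_smul_eq_smul (α := X)
  intro x
  rw [one_smul]
  have : x ∈ fixedPoints N X := by rw [htop]; trivial
  exact this ⟨n, hn⟩

/-- The stabilizer of a point of a faithful action acts faithfully on the other points. -/
theorem faithful_ofStabilizer [FaithfulSMul G X] (a : X) :
    FaithfulSMul (stabilizer G a) (SubMulAction.ofStabilizer G a) := by
  constructor
  intro g h hgh
  apply Subtype.ext
  apply FaithfulSMul.eq_of_smul_eq_smul (α := X)
  intro x
  by_cases hx : x = a
  · subst hx
    rw [g.2, h.2]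
  · have := hgh ⟨x, hx⟩
    exact congrArg Subtype.val this

/-- If `N ∩ G_a` is trivial and `N` is transitive then `N` is semiregular. -/
theorem stab_eq_bot_of_subgroupOf_eq_bot (N : Subgroup G) (a : X) [IsPretransitive N X]
    (h : N.subgroupOf (stabilizer G a) = ⊥) : ∀ x : X, stabilizer N x = ⊥ := by
  intro x
  obtain ⟨m, rfl⟩ := exists_smul_eq N a x
  rw [eq_bot_iff]
  intro n hn
  rw [Subgroup.mem_bot]
  rw [mem_stabilizer_iff] at hn
  have h1 : (m⁻¹ * n * m) • a = a := by
    rw [mul_smul, mul_smul, hn, inv_smul_smul]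
  have h2 : (⟨(m⁻¹ * n * m : N).1, h1⟩ : stabilizer G a) ∈ N.subgroupOf (stabilizer G a) := by
    rw [Subgroup.mem_subgroupOf]; exact (m⁻¹ * n * m).2
  rw [h, Subgroup.mem_bot] at h2
  have h3 : m⁻¹ * n * m = 1 := by
    have h2' := congrArg Subtype.val h2
    exact Subtype.ext h2'
  have h4 : n = m * (m⁻¹ * n * m) * m⁻¹ := by group
  rw [h4, h3]; group

/-- A transitive group whose point stabilizer is regular on the remaining points and of
exponent two has degree at most three. -/
theorem sharp2_exp2_false {N : Type*} [Group N] [Finite N] {X : Type*} [Fintype X]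
    [MulAction N X] (htr : IsPretransitive N X) (a : X)
    (hfree : ∀ g : N, g • a = a → ∀ x, x ≠ a → g • x = x → g = 1)
    (htr' : ∀ x y, x ≠ a → y ≠ a → ∃ g : N, g • a = a ∧ g • x = y)
    (hexp : ∀ g : N, g • a = a → g ^ 2 = 1) (h4 : 4 ≤ Fintype.card X) : False := by
  classical
  have hsharp : ∀ (g : N) (x y : X), x ≠ y → g • x = x → g • y = y → g = 1 := by
    intro g x y hxy hx hy
    obtain ⟨h, hh⟩ := exists_smul_eq N x a
    have h1 : (h * g * h⁻¹) • a = a := by
      rw [mul_smul, mul_smul, ← hh, inv_smul_smul, hx]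
    have h2 : (h * g * h⁻¹) • (h • y) = h • y := by
      rw [mul_smul, mul_smul, inv_smul_smul, hy]
    have h3 : h • y ≠ a := by
      rw [← hh]; intro h'; exact hxy (smul_left_cancel h h').symm
    have h5 := hfree _ h1 _ h3 h2
    have h6 : g = h⁻¹ * (h * g * h⁻¹) * h := by group
    rw [h6, h5]; group
  have hexp' : ∀ (g : N) (c : X), g • c = c → g ^ 2 = 1 := by
    intro g c hc
    obtain ⟨h, hh⟩ := exists_smul_eq N c a
    have h1 : (h * g * h⁻¹) • a = a := by
      rw [mul_smul, mul_smul, ← hh, inv_smul_smul, hc]
    have h2 := hexp _ h1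
    rw [conj_pow] at h2
    have h6 : g ^ 2 = h⁻¹ * (h * g ^ 2 * h⁻¹) * h := by group
    rw [h6, h2]; group
  obtain ⟨b, c, d, hba, hca, hda, hbc, hbd, hcd⟩ :
      ∃ b c d : X, b ≠ a ∧ c ≠ a ∧ d ≠ a ∧ b ≠ c ∧ b ≠ d ∧ c ≠ d := by
    have hc3 : 2 < ((Finset.univ : Finset X).erase a).card := by
      rw [Finset.card_erase_of_mem (Finset.mem_univ a), Finset.card_univ]; omega
    obtain ⟨b, hb, c, hc, d, hd, hbc, hbd, hcd⟩ := Finset.two_lt_card.mp hc3
    exact ⟨b, c, d, (Finset.mem_erase.mp hb).1, (Finset.mem_erase.mp hc).1,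
      (Finset.mem_erase.mp hd).1, hbc, hbd, hcd⟩
  have hcard : Nat.card N = Fintype.card X * (Fintype.card X - 1) := by
    have h1 := (stabilizer N a).card_mul_index
    rw [index_stabilizer_of_transitive N a] at h1
    have h2 : Nat.card (stabilizer N a) = Nat.card (SubMulAction.ofStabilizer N a) := by
      apply Nat.card_eq_of_bijective
        (fun g : stabilizer N a => (g • (⟨b, hba⟩ : SubMulAction.ofStabilizer N a)))
      constructor
      · intro g g' hgg'
        have e : g.1 • b = g'.1 • b := congrArg Subtype.val hgg'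
        have h3 : g.1⁻¹ * g'.1 = 1 := by
          apply hfree _ ?_ b hba ?_
          · rw [mul_smul, g'.2, inv_smul_eq_iff, g.2]
          · rw [mul_smul, ← e, inv_smul_smul]
        apply Subtype.ext
        exact (inv_mul_eq_one.mp h3)
      · rintro ⟨y, hy⟩
        obtain ⟨g, hga, hgb⟩ := htr' b y hba hy
        exact ⟨⟨g, hga⟩, Subtype.ext hgb⟩
    rw [h2, SubMulAction.nat_card_ofStabilizer_eq, Nat.card_eq_fintype_card] at h1
    rw [← h1, mul_comm]
  obtain ⟨p, j, M, -, -, -, hMn, -, -, -, -, hMiff, -, -⟩ :=
    sharp2_main htr hsharp (by omega) hcard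
  obtain ⟨u, hua, hub⟩ := htr' b c hba hca
  obtain ⟨u', hu'a, hu'b⟩ := htr' b d hba hda
  obtain ⟨h, hh⟩ := exists_smul_eq N a b
  obtain ⟨v, hv⟩ : ∃ v : N, v = h * u * h⁻¹ := ⟨_, rfl⟩
  have hvb : v • b = b := by rw [hv, mul_smul, mul_smul, ← hh, inv_smul_smul, hua]
  have hu1 : u ≠ 1 := by rintro rfl; rw [one_smul] at hub; exact hbc hub
  have hu'1 : u' ≠ 1 := by rintro rfl; rw [one_smul] at hu'b; exact hbd hu'b
  have hv1 : v ≠ 1 := by
    intro h1; apply hu1
    have h6 : u = h⁻¹ * v * h := by rw [hv]; group
    rw [h6, h1]; group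
  have hu2 := hexp u hua
  have hu'2 := hexp u' hu'a
  have hv2 := hexp' v b hvb
  have key : ∀ w : N, w • a = a → w ≠ 1 → w ^ 2 = 1 → w * v ∈ fpf N X := by
    intro w hwa hw1 hw2 x hx
    have h2 := hexp' (w * v) x hx
    have hcomm : w * v = v * w := by
      have e1 : w * v * (w * v) = 1 := by rw [← pow_two]; exact h2
      have e2 : w * w = 1 := by rw [← pow_two]; exact hw2
      have e3 : v * v = 1 := by rw [← pow_two]; exact hv2
      have i1 : w * v = (w * v)⁻¹ := eq_inv_of_mul_eq_one_left e1
      have i2 : w = w⁻¹ := eq_inv_of_mul_eq_one_left e2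
      have i3 : v = v⁻¹ := eq_inv_of_mul_eq_one_left e3
      rw [i1, mul_inv_rev, ← i2, ← i3]
    have hfix : w • (v • a) = v • a := by rw [← mul_smul, hcomm, mul_smul, hwa]
    by_cases hva : v • a = a
    · exact hv1 (hsharp v a b (Ne.symm hba) hva hvb)
    · exact hw1 (hsharp w a (v • a) (Ne.symm hva) hwa hfix)
  have m1 : u * v ∈ M := (hMiff _).mpr (Or.inr (key u hua hu1 hu2))
  have m2 : u' * v ∈ M := (hMiff _).mpr (Or.inr (key u' hu'a hu'1 hu'2))
  have m3 : u⁻¹ * u' ∈ M := by
    have h7 := M.mul_mem (M.inv_mem m1) m2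
    have h8 := hMn.conj_mem _ h7 v
    have h9 : v * ((u * v)⁻¹ * (u' * v)) * v⁻¹ = u⁻¹ * u' := by group
    rw [h9] at h8
    exact h8
  rcases (hMiff _).mp m3 with h1 | h1
  · have h6 : u = u' := by rw [inv_mul_eq_one] at h1; exact h1
    apply hcd; rw [← hub, ← hu'b, h6]
  · apply h1 a; rw [mul_smul, hu'a, inv_smul_eq_iff, hua]

/-- A group acting faithfully on a finite type is finite. -/
theorem finite_of_faithful [FaithfulSMul G X] [Finite X] : Finite G :=
  Finite.of_injective (MulAction.toPerm : G → Equiv.Perm X) MulAction.toPerm_injective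

/-- Jordan's theorem on normal subgroups of multiply transitive groups, for a faithful action. -/
theorem jordan_normal_aux (k : ℕ) : ∀ (G : Type u) [Group G] (X : Type v) [Finite X]
    [MulAction G X] [FaithfulSMul G X],
    2 ≤ k → k < Nat.card X → IsMultiplyPretransitive G X k →
    ∀ (N : Subgroup G) [N.Normal], N ≠ ⊥ →
    IsMultiplyPretransitive N X (k - 1) ∨
      (k = 3 ∧ IsMulCommutative N ∧ (∀ n ∈ N, n ^ 2 = 1) ∧ ∀ x : X, stabilizer N x = ⊥) := by
  induction k with
  | zero => intro G _ X _ _ _ h; omega
  | succ k ih =>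
    intro G _ X _ _ _ hk hcard hG N _ hN
    have h2t : IsMultiplyPretransitive G X 2 :=
      isMultiplyPretransitive_of_le (n := k + 1) hk hcard.le
    have hprim : IsPreprimitive G X := isPreprimitive_of_is_two_pretransitive h2t
    have hNt : IsPretransitive N X := isPretransitive_of_normal_ne_bot N hN
    rcases Nat.lt_or_ge k 2 with hk2 | hk2
    · have hk1 : k = 1 := by omega
      subst hk1
      left
      exact is_one_pretransitive_iff.mpr hNt
    · have hGt : IsPretransitive G X := hprim.toIsPretransitive
      have hne : Nonempty X := by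
        rw [← Finite.card_pos_iff]; omega
      obtain ⟨a⟩ := hne
      have hGa : IsMultiplyPretransitive (stabilizer G a) (SubMulAction.ofStabilizer G a) k :=
        SubMulAction.ofStabilizer.isMultiplyPretransitive.mp hG
      have hfa := faithful_ofStabilizer (G := G) a
      have hcard' : k < Nat.card (SubMulAction.ofStabilizer G a) := by
        rw [SubMulAction.nat_card_ofStabilizer_eq]; omega
      have hfin := Fintype.ofFinite X
      have hcardF : Nat.card X = Fintype.card X := Nat.card_eq_fintype_card
      have hcardE : ∀ j : ℕ, j ≤ k + 1 → ((j : ℕ) : ENat) ≤ ENat.card X := by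
        intro j hj
        rw [ENat.card_eq_coe_fintype_card]
        have : j ≤ Fintype.card X := by omega
        exact_mod_cast this
      by_cases hN' : N.subgroupOf (stabilizer G a) = ⊥
      · have hreg := stab_eq_bot_of_subgroupOf_eq_bot N a hN'
        have h3t : IsMultiplyPretransitive G X 3 :=
          isMultiplyPretransitive_of_le (n := k + 1) (by omega) hcard.le
        have h2p : IsMultiplyPreprimitive G X 2 :=
          isMultiplyPreprimitive_of_isMultiplyPretransitive_succ G X (n := 2) (hcardE 3 (by omega))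
        rcases Cfsg.Agent.S0695.result (by omega) h2p N hNt hreg with h3 | ⟨hcomm, hsq, -⟩
        · exfalso; omega
        · rcases Nat.lt_or_ge k 3 with hk3 | hk3
          · right; exact ⟨by omega, hcomm, hsq, hreg⟩
          · exfalso
            have h4t : IsMultiplyPretransitive G X 4 :=
              isMultiplyPretransitive_of_le (n := k + 1) (by omega) hcard.le
            have h3p : IsMultiplyPreprimitive G X 3 :=
              isMultiplyPreprimitive_of_isMultiplyPretransitive_succ G X (n := 3)
                (hcardE 4 (by omega))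
            rcases Cfsg.Agent.S0696.result (by omega) h3p N hNt hreg with h | h <;> omega
      · rcases ih (stabilizer G a) (SubMulAction.ofStabilizer G a) hk2 hcard' hGa
          (N.subgroupOf (stabilizer G a)) hN' with h | ⟨hk3, hcomm, hsq, hreg⟩
        · left
          have h5 := multTrans_of_subgroupOf_stab N a (k - 1) h
          have h6 : k - 1 + 1 = k + 1 - 1 := by omega
          rw [h6] at h5
          exact h5
        · exfalso
          have hfinG : Finite G := finite_of_faithful (X := X)
          have h2t' : IsMultiplyPretransitive (stabilizer G a) (SubMulAction.ofStabilizer G a) 2 :=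
            isMultiplyPretransitive_of_le (n := k) hk2 hcard'.le
          have hprim' : IsPreprimitive (stabilizer G a) (SubMulAction.ofStabilizer G a) :=
            isPreprimitive_of_is_two_pretransitive h2t'
          have hNt' : IsPretransitive (N.subgroupOf (stabilizer G a))
              (SubMulAction.ofStabilizer G a) :=
            isPretransitive_of_normal_ne_bot _ hN'
          apply sharp2_exp2_false (N := N) (X := X) hNt a
          · intro g hga x hx hgx
            have hmem : (⟨⟨g.1, hga⟩, g.2⟩ : N.subgroupOf (stabilizer G a)) ∈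
                stabilizer (N.subgroupOf (stabilizer G a))
                  (⟨x, hx⟩ : SubMulAction.ofStabilizer G a) := by
              rw [mem_stabilizer_iff]
              exact Subtype.ext hgx
            rw [hreg, Subgroup.mem_bot] at hmem
            have h7 := congrArg (fun t : N.subgroupOf (stabilizer G a) => t.1.1) hmem
            exact Subtype.ext h7
          · intro x y hx hy
            obtain ⟨g, hg⟩ := hNt'.exists_smul_eq (⟨x, hx⟩ : SubMulAction.ofStabilizer G a)
              (⟨y, hy⟩ : SubMulAction.ofStabilizer G a)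
            exact ⟨⟨g.1.1, g.2⟩, g.1.2, congrArg Subtype.val hg⟩
          · intro g hga
            have h7 := hsq (⟨g.1, hga⟩ : stabilizer G a) g.2
            have h8 := congrArg Subtype.val h7
            exact Subtype.ext h8
          · omega

end JordanNormal

end Cfsg.Agent.Helper12
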