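import Mathlib
import Cfsg.Agent.Helper12.JordanNormal

set_option autoImplicit false

namespace Cfsg.Agent.Helper12

open MulAction

section KPrimNormal

universe u v

variable {G : Type u} [Group G] {X : Type v} [MulAction G X]

/-- Variant of `sharp2_exp2_false` for a subgroup `N` and the action of `N ∩ G_a`. -/
theorem sharp2_exp2_false' [FaithfulSMul G X] [Finite X] (N : Subgroup G) (a : X)
    (hNt : IsPretransitive N X)
    (hNt' : IsPretransitive (N.subgroupOf (stabilizer G a)) (SubMulAction.ofStabilizer G a))
    (hreg : ∀ x : SubMulAction.ofStabilizer G a,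
      stabilizer (N.subgroupOf (stabilizer G a)) x = ⊥)
    (hsq : ∀ n ∈ N.subgroupOf (stabilizer G a), n ^ 2 = 1) (h4 : 4 ≤ Nat.card X) : False := by
  have hfinG : Finite G := finite_of_faithful (X := X)
  have hfin := Fintype.ofFinite X
  apply sharp2_exp2_false (N := N) (X := X) hNt a
  · intro g hga x hx hgx
    have hmem : (⟨⟨g.1, hga⟩, g.2⟩ : N.subgroupOf (stabilizer G a)) ∈
        stabilizer (N.subgroupOf (stabilizer G a))
          (⟨x, hx⟩ : SubMulAction.ofStabilizer G a) := by
      rw [mem_stabilizer_iff]
      exact Subtype.ext hgx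
    rw [hreg, Subgroup.mem_bot] at hmem
    have h7 := congrArg (fun t : N.subgroupOf (stabilizer G a) => t.1.1) hmem
    exact Subtype.ext h7
  · intro x y hx hy
    obtain ⟨g, hg⟩ := hNt'.exists_smul_eq (⟨x, hx⟩ : SubMulAction.ofStabilizer G a)
      (⟨y, hy⟩ : SubMulAction.ofStabilizer G a)
    exact ⟨⟨g.1.1, g.2⟩, g.1.2, congrArg Subtype.val hg⟩
  · intro g hga
    have h7 := hsq (⟨g.1, hga⟩ : stabilizer G a) g.2
    have h8 := congrArg Subtype.val h7
    exact Subtype.ext h8
  · rw [← Nat.card_eq_fintype_card]; exact h4

/-- A group which is `(n-1)`-transitive of degree `n` has order at least `n!`. -/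
theorem factorial_le_card_of_multTrans [Finite G] [Finite X] (j : ℕ)
    (hj : IsMultiplyPretransitive G X j) (hjn : j ≤ Nat.card X) (hnj : Nat.card X ≤ j + 1) :
    (Nat.card X).factorial ≤ Nat.card G := by
  obtain ⟨t, -, ht⟩ := Set.exists_subset_card_eq (s := (Set.univ : Set X)) (n := j)
    (by rw [Set.ncard_univ]; exact hjn)
  have h1 := hj.index_of_fixingSubgroup_mul ht
  have h2 : (Nat.card X - j).factorial = 1 := by
    rcases Nat.lt_or_ge (Nat.card X - j) 1 with h | h
    · have : Nat.card X - j = 0 := by omega
      rw [this]; rfl
    · have : Nat.card X - j = 1 := by omega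
      rw [this]; rfl
  rw [h2, mul_one] at h1
  rw [← h1]
  exact Nat.le_of_dvd Nat.card_pos (Subgroup.index_dvd_card _)

/-- In a `k`-primitive faithful group which is not the full symmetric group, a nontrivial
non-regular normal subgroup is `k`-transitive. -/
theorem kprim_normal_aux (k : ℕ) : ∀ (G : Type u) [Group G] (X : Type v) [Finite X]
    [MulAction G X] [FaithfulSMul G X],
    1 ≤ k → k ≤ Nat.card X → IsMultiplyPreprimitive G X k →
    Nat.card G < (Nat.card X).factorial →
    ∀ (N : Subgroup G) [N.Normal], N ≠ ⊥ → (k = 1 ∨ ∃ a : X, stabilizer N a ≠ ⊥) →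
    IsMultiplyPretransitive N X k := by
  induction k with
  | zero => intro G _ X _ _ _ h; omega
  | succ k ih =>
    intro G _ X _ _ _ hk hcard hG hlt N _ hN hnr
    have hcardE : ∀ (Y : Type v) [Finite Y] (j : ℕ), j ≤ Nat.card Y →
        ((j : ℕ) : ENat) ≤ ENat.card Y := by
      intro Y _ j hj
      have := Fintype.ofFinite Y
      rw [ENat.card_eq_coe_fintype_card]
      rw [Nat.card_eq_fintype_card] at hj
      exact_mod_cast hj
    have h1p : IsMultiplyPreprimitive G X 1 :=
      isMultiplyPreprimitive_of_le G X hG (by omega) (hcardE X _ hcard)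
    have hprim : IsPreprimitive G X := (is_one_preprimitive_iff G X).mp h1p
    have hNt : IsPretransitive N X := isPretransitive_of_normal_ne_bot N hN
    rcases Nat.eq_zero_or_pos k with hk0 | hk0
    · subst hk0; exact is_one_pretransitive_iff.mpr hNt
    · have hGt : IsPretransitive G X := hprim.toIsPretransitive
      have hfinG : Finite G := finite_of_faithful (X := X)
      obtain ⟨a, ha⟩ : ∃ a : X, stabilizer N a ≠ ⊥ := by
        rcases hnr with h | h
        · omega
        · exact h
      have hGa : IsMultiplyPreprimitive (stabilizer G a) (SubMulAction.ofStabilizer G a) k :=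
        isMultiplyPreprimitive_ofStabilizer G X (n := k) (a := a)
      have hfa := faithful_ofStabilizer (G := G) a
      have hcX' := SubMulAction.nat_card_ofStabilizer_eq G a
      have hcard' : k ≤ Nat.card (SubMulAction.ofStabilizer G a) := by
        rw [hcX']; omega
      have hlt' : Nat.card (stabilizer G a) <
          (Nat.card (SubMulAction.ofStabilizer G a)).factorial := by
        rw [hcX']
        have h1 := (stabilizer G a).card_mul_index
        rw [index_stabilizer_of_transitive G a] at h1
        have h2 : Nat.card X * (Nat.card X - 1).factorial = (Nat.card X).factorial :=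
          Nat.mul_factorial_pred (by omega)
        rw [← h1, ← h2, mul_comm] at hlt
        exact lt_of_mul_lt_mul_left hlt (Nat.zero_le _)
      have hN' : N.subgroupOf (stabilizer G a) ≠ ⊥ := by
        intro h
        exact ha (stab_eq_bot_of_subgroupOf_eq_bot N a h a)
      by_cases hreg : k = 1 ∨ ∃ x : SubMulAction.ofStabilizer G a,
          stabilizer (N.subgroupOf (stabilizer G a)) x ≠ ⊥
      · have h5 := ih (stabilizer G a) (SubMulAction.ofStabilizer G a) hk0 hcard' hGa hlt'
          (N.subgroupOf (stabilizer G a)) hN' hreg
        exact multTrans_of_subgroupOf_stab N a k h5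
      · exfalso
        push Not at hreg
        obtain ⟨hk1, hreg⟩ := hreg
        have h1p' : IsMultiplyPreprimitive (stabilizer G a) (SubMulAction.ofStabilizer G a) 1 :=
          isMultiplyPreprimitive_of_le _ _ hGa (by omega) (hcardE _ _ hcard')
        have hprim' : IsPreprimitive (stabilizer G a) (SubMulAction.ofStabilizer G a) :=
          (is_one_preprimitive_iff _ _).mp h1p'
        have hNt' : IsPretransitive (N.subgroupOf (stabilizer G a))
            (SubMulAction.ofStabilizer G a) :=
          isPretransitive_of_normal_ne_bot _ hN'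
        have h2p' : IsMultiplyPreprimitive (stabilizer G a) (SubMulAction.ofStabilizer G a) 2 :=
          isMultiplyPreprimitive_of_le _ _ hGa (by omega) (hcardE _ _ hcard')
        have hfinX' := Fintype.ofFinite (SubMulAction.ofStabilizer G a)
        have hcF : Nat.card (SubMulAction.ofStabilizer G a) =
            Fintype.card (SubMulAction.ofStabilizer G a) := Nat.card_eq_fintype_card
        have hbound : ∀ j, j ≤ k + 1 → Nat.card X ≤ j + 1 → False := by
          intro j hj hj'
          have hkt : IsMultiplyPretransitive G X (k + 1) :=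
            IsMultiplyPreprimitive.isMultiplyPretransitive G X (k + 1)
          have hjt : IsMultiplyPretransitive G X j :=
            isMultiplyPretransitive_of_le (n := k + 1) hj hcard
          have h9 := factorial_le_card_of_multTrans (G := G) (X := X) j hjt (by omega) hj'
          omega
        rcases Cfsg.Agent.S0695.result (by omega) h2p' (N.subgroupOf (stabilizer G a)) hNt' hreg
          with h3 | ⟨hcomm, hsq, -⟩
        · exact hbound 3 (by omega) (by omega)
        · by_cases h4 : 4 ≤ Nat.card X
          · exact sharp2_exp2_false' N a hNt hNt' hreg hsq h4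
          · exact hbound 3 (by omega) (by omega)

end KPrimNormal

end Cfsg.Agent.Helper12
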