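import Mathlib
import Cfsg.Agent.Lead.LWDefs

/-!
# PIECE G2 of CALL S0747 (helper12)
-/

set_option autoImplicit false

namespace Cfsg.Agent.Helper12.LWG2

open Cfsg.Agent.Lead.LW

variable {α : Type*} [Fintype α] [DecidableEq α]

theorem ktrans_realize (G : Subgroup (Equiv.Perm α)) (k : ℕ) (hG : KTrans G k)
    (S : Finset α) (hS : S.card = k) (f : α → α) (hf : Set.InjOn f (S : Set α)) :
    ∃ g ∈ G, ∀ a ∈ S, g a = f a := by
  have e : Fin k ≃ ↥S := (S.equivFinOfCardEq hS).symm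
  let x : Fin k ↪ α := ⟨fun i => (e i : α), fun i j h => e.injective (Subtype.ext h)⟩
  let y : Fin k ↪ α := ⟨fun i => f (e i : α), fun i j h => by
    have h' : (e i : α) = (e j : α) := hf (e i).2 (e j).2 h
    exact e.injective (Subtype.ext h')⟩
  obtain ⟨g, hg, hgx⟩ := hG x y
  refine ⟨g, hg, fun a ha => ?_⟩
  have h1 := hgx (e.symm ⟨a, ha⟩)
  have h2 : x (e.symm ⟨a, ha⟩) = a := by
    show ((e (e.symm ⟨a, ha⟩) : ↥S) : α) = a
    rw [Equiv.apply_symm_apply]
  have h3 : y (e.symm ⟨a, ha⟩) = f a := by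
    show f ((e (e.symm ⟨a, ha⟩) : ↥S) : α) = f a
    rw [Equiv.apply_symm_apply]
  rw [h2, h3] at h1
  exact h1

end Cfsg.Agent.Helper12.LWG2
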