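import Mathlib
import Cfsg.Agent.Lead.LWDefs
import Cfsg.Agent.Helper12.LWG2

/-!
# PIECE G2b of CALL S0747 (helper12)
-/

set_option autoImplicit false

namespace Cfsg.Agent.Helper12.LWG2b

open Cfsg.Agent.Lead.LW
open Cfsg.Agent.Helper12.LWG2

variable {α : Type*} [Fintype α] [DecidableEq α]

theorem ktrans_sets (G : Subgroup (Equiv.Perm α)) (k : ℕ) (hG : KTrans G k)
    (S T : Finset α) (hS : S.card = k) (hT : T.card = k) :
    ∃ g ∈ G, ∀ a, g a ∈ T ↔ a ∈ S := by
  have φ : ↥S ≃ ↥T := (S.equivFinOfCardEq hS).trans (T.equivFinOfCardEq hT).symm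
  let f : α → α := fun a => if h : a ∈ S then (φ ⟨a, h⟩ : α) else a
  have hfS : ∀ a (h : a ∈ S), f a = (φ ⟨a, h⟩ : α) := fun a h => dif_pos h
  have hf : Set.InjOn f (S : Set α) := by
    intro a ha b hb hab
    have ha' : a ∈ S := ha
    have hb' : b ∈ S := hb
    rw [hfS a ha', hfS b hb'] at hab
    have := φ.injective (Subtype.ext hab)
    exact congrArg Subtype.val this
  obtain ⟨g, hg, hgS⟩ := ktrans_realize G k hG S hS f hf
  refine ⟨g, hg, ?_⟩
  have himg : S.image g = T := by
    apply Finset.eq_of_subset_of_card_le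
    · intro b hb
      rw [Finset.mem_image] at hb
      obtain ⟨a, ha, rfl⟩ := hb
      rw [hgS a ha, hfS a ha]
      exact (φ ⟨a, ha⟩).2
    · rw [Finset.card_image_of_injective _ g.injective, hS, hT]
  intro a
  constructor
  · intro h
    rw [← himg, Finset.mem_image] at h
    obtain ⟨b, hb, hba⟩ := h
    rw [← g.injective hba]
    exact hb
  · intro h
    rw [← himg]
    exact Finset.mem_image_of_mem g h

end Cfsg.Agent.Helper12.LWG2b
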