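import Mathlib
import Cfsg.Agent.Lead.LWDefs
import Cfsg.Agent.Helper12.LWG2b

/-!
# PIECE G3b of CALL S0747 (helper12)
-/

set_option autoImplicit false

namespace Cfsg.Agent.Helper12.LWG3b

open Cfsg.Agent.Lead.LW
open Cfsg.Agent.Helper12.LWG2b

variable {α : Type*} [Fintype α] [DecidableEq α]

/-- local copy of piece G3 (conjugation of pointwise stabilisers), one direction -/
theorem pstab_conj_mp (G : Subgroup (Equiv.Perm α)) (S T : Finset α) (g : Equiv.Perm α) (hg : g ∈ G)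
    (hST : ∀ a, g a ∈ T ↔ a ∈ S) (h : Equiv.Perm α) (hh : h ∈ pstab G S) :
    g * h * g⁻¹ ∈ pstab G T := by
  rw [mem_pstab] at hh ⊢
  refine ⟨G.mul_mem (G.mul_mem hg hh.1) (G.inv_mem hg), fun b hb => ?_⟩
  have hb' : g⁻¹ b ∈ S := by
    rw [← hST]
    simpa using hb
  rw [Equiv.Perm.mul_apply, Equiv.Perm.mul_apply, hh.2 _ hb']
  simp

theorem pstab_conj_mpr (G : Subgroup (Equiv.Perm α)) (S T : Finset α) (g : Equiv.Perm α) (hg : g ∈ G)
    (hST : ∀ a, g a ∈ T ↔ a ∈ S) (h : Equiv.Perm α) (hh : g * h * g⁻¹ ∈ pstab G T) :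
    h ∈ pstab G S := by
  have hST' : ∀ a, g⁻¹ a ∈ S ↔ a ∈ T := by
    intro a
    rw [← hST]
    simp
  have := pstab_conj_mp G T S g⁻¹ (G.inv_mem hg) hST' (g * h * g⁻¹) hh
  simpa [mul_assoc] using this

theorem card_pstab_eq (G : Subgroup (Equiv.Perm α)) (k : ℕ) (hG : KTrans G k)
    (S T : Finset α) (hS : S.card = k) (hT : T.card = k) :
    Nat.card (pstab G S) = Nat.card (pstab G T) := by
  obtain ⟨g, hg, hST⟩ := ktrans_sets G k hG S T hS hT
  apply Nat.card_congr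
  refine ⟨fun h => ⟨g * h.1 * g⁻¹, pstab_conj_mp G S T g hg hST h.1 h.2⟩,
    fun h => ⟨g⁻¹ * h.1 * g, ?_⟩, ?_, ?_⟩
  · apply pstab_conj_mpr G S T g hg hST
    have : g * (g⁻¹ * h.1 * g) * g⁻¹ = h.1 := by group
    rw [this]
    exact h.2
  · intro h
    apply Subtype.ext
    show g⁻¹ * (g * h.1 * g⁻¹) * g = h.1
    group
  · intro h
    apply Subtype.ext
    show g * (g⁻¹ * h.1 * g) * g⁻¹ = h.1
    group

end Cfsg.Agent.Helper12.LWG3b
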