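import Mathlib
import Cfsg.Agent.Lead.LWDefs
import Cfsg.Agent.Helper12.LWG3b

/-!
# PIECE C1 of CALL S0747 (helper12): if a Sylow 2-subgroup of one `k`-point stabiliser moves all
outside points, so does every Sylow 2-subgroup of every `k`-point stabiliser
-/

set_option autoImplicit false

namespace Cfsg.Agent.Helper12.LWC1

open Cfsg.Agent.Lead.LW
open Cfsg.Agent.Helper12.LWG2b
open Cfsg.Agent.Helper12.LWG3b

/-- Sylow conjugacy by cardinality (local copy of piece G5) -/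
theorem syl_conj_aux {M : Type*} [Group M] [Finite M] (L P P' : Subgroup M)
    (hP : P ≤ L) (hP' : P' ≤ L) (hc : Nat.card P = 2 ^ (Nat.card L).factorization 2)
    (hc' : Nat.card P' = 2 ^ (Nat.card L).factorization 2) :
    ∃ h ∈ L, ∀ g, g ∈ P ↔ h⁻¹ * g * h ∈ P' := by
  haveI : Fact (Nat.Prime 2) := ⟨Nat.prime_two⟩
  have h1 : Nat.card (P.subgroupOf L) = 2 ^ (Nat.card L).factorization 2 := by
    rw [Nat.card_congr (Subgroup.subgroupOfEquivOfLe hP).toEquiv, hc]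
  have h2 : Nat.card (P'.subgroupOf L) = 2 ^ (Nat.card L).factorization 2 := by
    rw [Nat.card_congr (Subgroup.subgroupOfEquivOfLe hP').toEquiv, hc']
  let Q₁ : Sylow 2 ↥L := Sylow.ofCard (P.subgroupOf L) h1
  let Q₂ : Sylow 2 ↥L := Sylow.ofCard (P'.subgroupOf L) h2
  obtain ⟨l, hl⟩ := MulAction.exists_smul_eq ↥L Q₂ Q₁
  refine ⟨(l : M), l.2, fun g => ?_⟩
  have key : ∀ x : ↥L, x ∈ P.subgroupOf L ↔ l⁻¹ * x * l ∈ P'.subgroupOf L := by
    intro x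
    have e1 : x ∈ P.subgroupOf L ↔ x ∈ (Q₁ : Subgroup ↥L) := Iff.rfl
    rw [e1, ← hl, Sylow.coe_subgroup_smul, Subgroup.mem_pointwise_smul_iff_inv_smul_mem]
    have e2 : (MulAut.conj l)⁻¹ • x = l⁻¹ * x * l := by
      rw [MulAut.smul_def, MulAut.conj_inv_apply]
    rw [e2]
    rfl
  constructor
  · intro hg
    have hgL : g ∈ L := hP hg
    have := (key ⟨g, hgL⟩).mp (by rw [Subgroup.mem_subgroupOf]; exact hg)
    rw [Subgroup.mem_subgroupOf] at this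
    exact this
  · intro hg
    have hgL : g ∈ L := by
      have h3 : (l : M)⁻¹ * g * l ∈ L := hP' hg
      have h4 := L.mul_mem (L.mul_mem l.2 h3) (L.inv_mem l.2)
      have h5 : (l : M) * ((l : M)⁻¹ * g * l) * (l : M)⁻¹ = g := by group
      rw [h5] at h4
      exact h4
    have := (key ⟨g, hgL⟩).mpr (by rw [Subgroup.mem_subgroupOf]; exact hg)
    rw [Subgroup.mem_subgroupOf] at this
    exact this

variable {α : Type*} [Fintype α] [DecidableEq α]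

theorem syl_moves (G : Subgroup (Equiv.Perm α)) (k : ℕ) (hG : KTrans G k) (Γ : Finset α)
    (hΓ : Γ.card = k) (P : Subgroup (Equiv.Perm α)) (hP : P ≤ pstab G Γ)
    (hcard : Nat.card P = 2 ^ (Nat.card (pstab G Γ)).factorization 2)
    (hnofix : ∀ δ, δ ∉ Γ → ∃ g ∈ P, g δ ≠ δ)
    (Γ' : Finset α) (hΓ' : Γ'.card = k) (S : Subgroup (Equiv.Perm α)) (hS : S ≤ pstab G Γ')
    (hScard : Nat.card S = 2 ^ (Nat.card (pstab G Γ')).factorization 2) :
    ∀ δ, δ ∉ Γ' → ∃ g ∈ S, g δ ≠ δ := by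
  intro δ hδ
  obtain ⟨g₀, hg₀, hST⟩ := ktrans_sets G k hG Γ Γ' hΓ hΓ'
  -- the conjugate of `P`
  let P' : Subgroup (Equiv.Perm α) := P.map (MulAut.conj g₀).toMonoidHom
  have hP'mem : ∀ x, x ∈ P' ↔ ∃ p ∈ P, g₀ * p * g₀⁻¹ = x := by
    intro x
    show x ∈ P.map (MulAut.conj g₀).toMonoidHom ↔ _
    rw [Subgroup.mem_map]
    rfl
  have hP'le : P' ≤ pstab G Γ' := by
    intro x hx
    obtain ⟨p, hp, rfl⟩ := (hP'mem x).mp hx
    exact pstab_conj_mp G Γ Γ' g₀ hg₀ hST p (hP hp)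
  have hP'card : Nat.card P' = 2 ^ (Nat.card (pstab G Γ')).factorization 2 := by
    have h1 : Nat.card P' = Nat.card P :=
      Subgroup.card_map_of_injective (MulAut.conj g₀).injective
    rw [h1, hcard, card_pstab_eq G k hG Γ Γ' hΓ hΓ']
  obtain ⟨h, hh, hconj⟩ := syl_conj_aux (pstab G Γ') S P' hS hP'le hScard hP'card
  -- `w = h * g₀` maps `Γ` onto `Γ'`
  have hhΓ' : ∀ b, h b ∈ Γ' ↔ b ∈ Γ' := by
    intro b
    constructor
    · intro hb
      have h1 : h (h b) = h b := hh.2 _ hb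
      have h2 : h b = b := h.injective h1
      rw [← h2]; exact hb
    · intro hb
      rw [hh.2 b hb]; exact hb
  have hw : ∀ a, (h * g₀) a ∈ Γ' ↔ a ∈ Γ := by
    intro a
    rw [Equiv.Perm.mul_apply, hhΓ', hST]
  have hδ' : (h * g₀)⁻¹ δ ∉ Γ := by
    intro hcon
    apply hδ
    have := (hw ((h * g₀)⁻¹ δ)).mpr hcon
    simpa using this
  obtain ⟨p, hp, hpm⟩ := hnofix _ hδ'
  refine ⟨(h * g₀) * p * (h * g₀)⁻¹, ?_, ?_⟩
  · rw [hconj, hP'mem]
    refine ⟨p, hp, ?_⟩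
    group
  · intro hcon
    apply hpm
    have e3 : (h * g₀)⁻¹ * ((h * g₀) * p * (h * g₀)⁻¹) = p * (h * g₀)⁻¹ := by group
    calc p ((h * g₀)⁻¹ δ) = (p * (h * g₀)⁻¹) δ := rfl
      _ = ((h * g₀)⁻¹ * ((h * g₀) * p * (h * g₀)⁻¹)) δ := by rw [e3]
      _ = (h * g₀)⁻¹ (((h * g₀) * p * (h * g₀)⁻¹) δ) := rfl
      _ = (h * g₀)⁻¹ δ := by rw [hcon]

end Cfsg.Agent.Helper12.LWC1
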