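import Cfsg.Agent.Helper12.MROK7Data

set_option autoImplicit false
set_option maxRecDepth 1000000

namespace Cfsg.Agent.Helper12.MROK7

open Cfsg Cfsg.Lie Cfsg.Agent.Helper36 Cfsg.Agent.Helper17 Cfsg.Agent.Helper64.UC
  Cfsg.Agent.Helper64.MR Cfsg.Agent.Helper12.MROKF

theorem rw_63 : rowsOK (okRow chevE7 ngE chainPackE7 tabT 56) 63 9 = true := by decide +kernel
theorem rw_72 : rowsOK (okRow chevE7 ngE chainPackE7 tabT 56) 72 9 = true := by decide +kernel
theorem rw_81 : rowsOK (okRow chevE7 ngE chainPackE7 tabT 56) 81 9 = true := by decide +kernel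
theorem rw_90 : rowsOK (okRow chevE7 ngE chainPackE7 tabT 56) 90 9 = true := by decide +kernel
theorem rw_99 : rowsOK (okRow chevE7 ngE chainPackE7 tabT 56) 99 9 = true := by decide +kernel
theorem rw_108 : rowsOK (okRow chevE7 ngE chainPackE7 tabT 56) 108 9 = true := by decide +kernel
theorem rw_117 : rowsOK (okRow chevE7 ngE chainPackE7 tabT 56) 117 9 = true := by decide +kernel

end Cfsg.Agent.Helper12.MROK7
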