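import Cfsg.Agent.Helper12.MROK7C0
import Cfsg.Agent.Helper12.MROK7C1

/-!
# CALL MR (helper64), piece OK7: `repE7.Ok chevE7` (helper12)
-/

set_option autoImplicit false

namespace Cfsg.Agent.Helper12.MROK7

open Cfsg Cfsg.Lie Cfsg.Agent.Helper36 Cfsg.Agent.Helper17 Cfsg.Agent.Helper64.UC
  Cfsg.Agent.Helper64.MR Cfsg.Agent.Helper12.MROKF

theorem rows_ok : ∀ r < chevE7.nroots, okRow chevE7 ngE chainPackE7 tabT repE7.N r = true := by
  intro r hr
  rw [nroots_eq] at hr
  rw [repN]
  by_cases h0 : r < 9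
  · exact rowsOK_spec rw_0 r (by omega) (by omega)
  by_cases h9 : r < 18
  · exact rowsOK_spec rw_9 r (by omega) (by omega)
  by_cases h18 : r < 27
  · exact rowsOK_spec rw_18 r (by omega) (by omega)
  by_cases h27 : r < 36
  · exact rowsOK_spec rw_27 r (by omega) (by omega)
  by_cases h36 : r < 45
  · exact rowsOK_spec rw_36 r (by omega) (by omega)
  by_cases h45 : r < 54
  · exact rowsOK_spec rw_45 r (by omega) (by omega)
  by_cases h54 : r < 63
  · exact rowsOK_spec rw_54 r (by omega) (by omega)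
  by_cases h63 : r < 72
  · exact rowsOK_spec rw_63 r (by omega) (by omega)
  by_cases h72 : r < 81
  · exact rowsOK_spec rw_72 r (by omega) (by omega)
  by_cases h81 : r < 90
  · exact rowsOK_spec rw_81 r (by omega) (by omega)
  by_cases h90 : r < 99
  · exact rowsOK_spec rw_90 r (by omega) (by omega)
  by_cases h99 : r < 108
  · exact rowsOK_spec rw_99 r (by omega) (by omega)
  by_cases h108 : r < 117
  · exact rowsOK_spec rw_108 r (by omega) (by omega)
  exact rowsOK_spec rw_117 r (by omega) (by omega)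

/-- PIECE OK7. -/
theorem ok_E7 : repE7.Ok chevE7 :=
  ok_of_fast chainPackOK_E7 negOK (tabOK_of_tabB (by rw [nroots_eq]; exact tab_ok)) rows_ok

end Cfsg.Agent.Helper12.MROK7
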