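import Cfsg.Agent.Helper12.MROK7Data

set_option autoImplicit false
set_option maxRecDepth 1000000

namespace Cfsg.Agent.Helper12.MROK7

open Cfsg Cfsg.Lie Cfsg.Agent.Helper36 Cfsg.Agent.Helper17 Cfsg.Agent.Helper64.UC
  Cfsg.Agent.Helper64.MR Cfsg.Agent.Helper12.MROKF

theorem rw_0 : rowsOK (okRow chevE7 ngE chainPackE7 tabT 56) 0 9 = true := by decide +kernel
theorem rw_9 : rowsOK (okRow chevE7 ngE chainPackE7 tabT 56) 9 9 = true := by decide +kernel
theorem rw_18 : rowsOK (okRow chevE7 ngE chainPackE7 tabT 56) 18 9 = true := by decide +kernel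
theorem rw_27 : rowsOK (okRow chevE7 ngE chainPackE7 tabT 56) 27 9 = true := by decide +kernel
theorem rw_36 : rowsOK (okRow chevE7 ngE chainPackE7 tabT 56) 36 9 = true := by decide +kernel
theorem rw_45 : rowsOK (okRow chevE7 ngE chainPackE7 tabT 56) 45 9 = true := by decide +kernel
theorem rw_54 : rowsOK (okRow chevE7 ngE chainPackE7 tabT 56) 54 9 = true := by decide +kernel

end Cfsg.Agent.Helper12.MROK7
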