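import Cfsg.Agent.Helper36.UC2Fast
import Cfsg.Agent.Helper64.MRDefs

/-!
# CALL MR (helper64), pieces OK6 / OK7: a fast checker for `SRep.Ok` (helper12)

The sparse rows of the operators `e_r` are packed into ONE natural number `T` (one byte per row:
`0` for an empty row, `2 * (μ + 1) + s` for the row `(μ, (-1) ^ s)`); the commutator data are read
off helper17's packed chain table; all row checks are computations with natural numbers.
-/

set_option autoImplicit false

namespace Cfsg.Agent.Helper12.MROKF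

open Cfsg Cfsg.Lie Cfsg.Agent.Helper36 Cfsg.Agent.Helper17 Cfsg.Agent.Helper64.UC
  Cfsg.Agent.Helper64.MR

/-- The packed code of row `ν` of `e_r`. -/
def tP (T N r ν : ℕ) : ℕ := (T >>> (8 * (N * r + ν))) % 256

/-- The row encoded by a code. -/
def dec (b : ℕ) : Option (ℕ × ℤ) :=
  if b < 2 then none else some (b / 2 - 1, if b % 2 = 0 then 1 else -1)

theorem dec_lt {b : ℕ} (h : b < 2) : dec b = none := by
  unfold dec
  rw [if_pos h]

theorem dec_ge {b : ℕ} (h : ¬ b < 2) :
    dec b = some (b / 2 - 1, if b % 2 = 0 then 1 else -1) := by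
  unfold dec
  rw [if_neg h]

/-- The code of the composition of two nonempty rows. -/
def mulC (b b' : ℕ) : ℕ := 2 * (b' / 2) + (b' + b) % 2

/-- The packed code of row `ν` of `e_r ∘ e_s`. -/
def t2P (T N r s ν : ℕ) : ℕ :=
  bif Nat.blt (tP T N r ν) 2 then 0 else
    bif Nat.blt (tP T N s (tP T N r ν / 2 - 1)) 2 then 0 else
      mulC (tP T N r ν) (tP T N s (tP T N r ν / 2 - 1))

/-- The packed table `T` encodes the rows of `R`. -/
def TabOK (R : SRep) (n T : ℕ) : Prop :=
  ∀ r < n, ∀ ν < R.N, R.term1 r ν = dec (tP T R.N r ν)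

theorem term1_some_lt (R : SRep) {r ν : ℕ} {p : ℕ × ℤ} (h : R.term1 r ν = some p) :
    p.1 < R.N := by
  unfold SRep.term1 at h
  split_ifs at h with hc
  cases h
  exact hc.2

theorem blt_true {a b : ℕ} (h : a < b) : Nat.blt a b = true := by
  rw [Nat.blt_eq]
  exact h

theorem blt_false {a b : ℕ} (h : ¬ a < b) : Nat.blt a b = false := by
  rw [Bool.eq_false_iff, ne_eq, Nat.blt_eq]
  exact h

theorem lt_of_blt {a b : ℕ} (h : Nat.blt a b = true) : a < b := by
  rw [Nat.blt_eq] at h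
  exact h

theorem dec_mulC {b b' : ℕ} (hb' : ¬ b' < 2) :
    dec (mulC b b') = some (b' / 2 - 1,
      (if b % 2 = 0 then (1 : ℤ) else -1) * (if b' % 2 = 0 then 1 else -1)) := by
  have hm : ¬ mulC b b' < 2 := by
    unfold mulC
    omega
  have e1 : mulC b b' / 2 = b' / 2 := by
    unfold mulC
    omega
  rw [dec_ge hm, e1]
  rcases Nat.mod_two_eq_zero_or_one b with h1 | h1 <;>
    rcases Nat.mod_two_eq_zero_or_one b' with h2 | h2
  · have e2 : mulC b b' % 2 = 0 := by
      unfold mulC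
      omega
    simp [h1, h2, e2]
  · have e2 : mulC b b' % 2 = 1 := by
      unfold mulC
      omega
    simp [h1, h2, e2]
  · have e2 : mulC b b' % 2 = 1 := by
      unfold mulC
      omega
    simp [h1, h2, e2]
  · have e2 : mulC b b' % 2 = 0 := by
      unfold mulC
      omega
    simp [h1, h2, e2]

theorem term2_eq (R : SRep) {n T : ℕ} (hT : TabOK R n T) {r s ν : ℕ} (hr : r < n) (hs : s < n)
    (hν : ν < R.N) : R.term2 r s ν = dec (t2P T R.N r s ν) := by
  have h1 := hT r hr ν hν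
  unfold SRep.term2 t2P
  by_cases hb : tP T R.N r ν < 2
  · rw [blt_true hb, cond_true, h1, dec_lt hb, dec_lt (by norm_num)]
    rfl
  · rw [blt_false hb, cond_false]
    rw [dec_ge hb] at h1
    have hμ : tP T R.N r ν / 2 - 1 < R.N := term1_some_lt R h1
    have h2 := hT s hs _ hμ
    rw [h1, Option.bind_some, h2]
    by_cases hb' : tP T R.N s (tP T R.N r ν / 2 - 1) < 2
    · rw [blt_true hb', cond_true, dec_lt hb', dec_lt (by norm_num)]
      rfl
    · rw [blt_false hb', cond_false, dec_ge hb', dec_mulC hb', Option.map_some]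

/-- The check of `[e_r, e_s] = C e_k`, `e_r e_k = 0`, `e_s e_k = 0` on row `ν`
(`cb = 0` for `C = 1`, `cb = 1` for `C = -1`). -/
def c1B (T N r s k cb ν : ℕ) : Bool :=
  ((Nat.blt (t2P T N r s ν) 2 && Nat.blt (t2P T N s r ν) 2 && Nat.blt (tP T N k ν) 2) ||
    (Nat.blt (t2P T N s r ν) 2 && Nat.ble 2 (tP T N k ν) &&
      Nat.beq (t2P T N r s ν) (2 * (tP T N k ν / 2) + (tP T N k ν + cb) % 2)) ||
    (Nat.blt (t2P T N r s ν) 2 && Nat.ble 2 (tP T N k ν) &&
      Nat.beq (t2P T N s r ν) (2 * (tP T N k ν / 2) + (tP T N k ν + cb + 1) % 2))) &&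
  Nat.blt (t2P T N r k ν) 2 && Nat.blt (t2P T N s k ν) 2

theorem brk_of_codes {x y z cb : ℕ} {C : ℤ} (hC : (C = 1 ∧ cb = 0) ∨ (C = -1 ∧ cb = 1))
    (h : (x < 2 ∧ y < 2 ∧ z < 2) ∨ (y < 2 ∧ 2 ≤ z ∧ x = 2 * (z / 2) + (z + cb) % 2) ∨
      (x < 2 ∧ 2 ≤ z ∧ y = 2 * (z / 2) + (z + cb + 1) % 2)) :
    brk (dec x) (dec y) (dec z) C := by
  rcases h with ⟨hx, hy, hz⟩ | ⟨hy, hz, hx⟩ | ⟨hx, hz, hy⟩
  · exact Or.inl ⟨dec_lt hx, dec_lt hy, dec_lt hz⟩
  · refine Or.inr (Or.inl ⟨z / 2 - 1, if x % 2 = 0 then 1 else -1, if z % 2 = 0 then 1 else -1,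
      ?_, dec_lt hy, dec_ge (by omega), ?_⟩)
    · rw [dec_ge (by omega)]
      have : x / 2 = z / 2 := by omega
      rw [this]
    · rcases hC with ⟨rfl, rfl⟩ | ⟨rfl, rfl⟩ <;>
        rcases Nat.mod_two_eq_zero_or_one z with h2 | h2
      · have e2 : x % 2 = 0 := by omega
        simp [h2, e2]
      · have e2 : x % 2 = 1 := by omega
        simp [h2, e2]
      · have e2 : x % 2 = 1 := by omega
        simp [h2, e2]
      · have e2 : x % 2 = 0 := by omega
        simp [h2, e2]
  · refine Or.inr (Or.inr ⟨z / 2 - 1, if y % 2 = 0 then 1 else -1, if z % 2 = 0 then 1 else -1,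
      dec_lt hx, ?_, dec_ge (by omega), ?_⟩)
    · rw [dec_ge (by omega)]
      have : y / 2 = z / 2 := by omega
      rw [this]
    · rcases hC with ⟨rfl, rfl⟩ | ⟨rfl, rfl⟩ <;>
        rcases Nat.mod_two_eq_zero_or_one z with h2 | h2
      · have e2 : y % 2 = 1 := by omega
        simp [h2, e2]
      · have e2 : y % 2 = 0 := by omega
        simp [h2, e2]
      · have e2 : y % 2 = 0 := by omega
        simp [h2, e2]
      · have e2 : y % 2 = 1 := by omega
        simp [h2, e2]

theorem c1B_spec {R : SRep} {n T : ℕ} (hT : TabOK R n T) {r s k ν cb : ℕ} {C : ℤ}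
    (hr : r < n) (hs : s < n) (hk : k < n) (hν : ν < R.N)
    (hC : (C = 1 ∧ cb = 0) ∨ (C = -1 ∧ cb = 1)) (h : c1B T R.N r s k cb ν = true) :
    brk (R.term2 r s ν) (R.term2 s r ν) (R.term1 k ν) C ∧ R.term2 r k ν = none ∧
      R.term2 s k ν = none := by
  rw [term2_eq R hT hr hs hν, term2_eq R hT hs hr hν, hT k hk ν hν, term2_eq R hT hr hk hν,
    term2_eq R hT hs hk hν]
  unfold c1B at h
  simp only [Bool.and_eq_true, Bool.or_eq_true, Nat.blt_eq, Nat.ble_eq, Nat.beq_eq_true_eq] at h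
  obtain ⟨⟨h1, h2⟩, h3⟩ := h
  refine ⟨brk_of_codes hC ?_, dec_lt h2, dec_lt h3⟩
  rcases h1 with (⟨⟨hx, hy⟩, hz⟩ | ⟨⟨hy, hz⟩, hx⟩) | ⟨⟨hx, hz⟩, hy⟩
  · exact Or.inl ⟨hx, hy, hz⟩
  · exact Or.inr (Or.inl ⟨hy, hz, Nat.eq_of_beq_eq_true hx⟩)
  · exact Or.inr (Or.inr ⟨hx, hz, Nat.eq_of_beq_eq_true hy⟩)

/-- The check of the pair `(r, s)` on all rows. -/
def okPair (packs : List ℕ) (T N n r s : ℕ) : Bool :=
  match ceP packs r s, ceP packs s r with
  | [], [] => allBelow N fun ν => Nat.beq (t2P T N r s ν) (t2P T N s r ν)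
  | [(k, C)], [_] =>
    Nat.blt k n && ((C == 1 && allBelow N fun ν => c1B T N r s k 0 ν) ||
      (C == -1 && allBelow N fun ν => c1B T N r s k 1 ν))
  | _, _ => false

/-- The check of row `r`: `e_r² = 0` and all pairs `(r, s)`, `s ≠ ± r`. -/
def okRow (D : ChevalleyDatum) (ng : ℕ → ℕ) (packs : List ℕ) (T N r : ℕ) : Bool :=
  (allBelow N fun ν => Nat.blt (t2P T N r r ν) 2) &&
    (List.range D.nroots).all fun s => s == r || s == ng r || okPair packs T N D.nroots r s

theorem okPair_of_row {D : ChevalleyDatum} {ng : ℕ → ℕ} {packs : List ℕ} {T N r s : ℕ}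
    (hng : ∀ r < D.nroots, D.neg r = ng r) (hr : r < D.nroots) (hs : s < D.nroots) (hsr : s ≠ r)
    (hsn : s ≠ D.neg r) (h : okRow D ng packs T N r = true) :
    okPair packs T N D.nroots r s = true := by
  unfold okRow at h
  rw [Bool.and_eq_true, List.all_eq_true] at h
  have h3 := h.2 s (List.mem_range.mpr hs)
  simp only [Bool.or_eq_true, beq_iff_eq] at h3
  rcases h3 with (h3 | h3) | h3
  · exact absurd h3 hsr
  · rw [← hng r hr] at h3
    exact absurd h3 hsn
  · exact h3

/-- `R.Ok D` from the fast row checks. -/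
theorem ok_of_fast {R : SRep} {D : ChevalleyDatum} {ng : ℕ → ℕ} {packs : List ℕ} {T : ℕ}
    (hp : chainPackOK D packs = true) (hng : ∀ r < D.nroots, D.neg r = ng r)
    (hT : TabOK R D.nroots T) (h1 : ∀ r < D.nroots, okRow D ng packs T R.N r = true) :
    R.Ok D where
  sq := by
    intro r hr ν hν
    have h := h1 r hr
    unfold okRow at h
    rw [Bool.and_eq_true] at h
    have h2 := (allBelow_iff _ _).mp h.1 ν hν
    rw [term2_eq R hT hr hr hν]
    exact dec_lt (lt_of_blt h2)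
  c0 := by
    intro r hr s hs hsr hsn h0 ν hν
    have hpair := okPair_of_row hng hr hs hsr hsn (h1 r hr)
    unfold okPair at hpair
    unfold ceP at hpair
    rw [← chainEntry_of_packOK hp hr hs, ← chainEntry_of_packOK hp hs hr] at hpair
    split at hpair
    · have h2 := (allBelow_iff _ _).mp hpair ν hν
      rw [term2_eq R hT hr hs hν, term2_eq R hT hs hr hν, Nat.eq_of_beq_eq_true h2]
    · next k C f e1 e2 =>
      rw [commTerms_one_of_entries e1 e2] at h0
      exact absurd h0 (by simp)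
    · exact absurd hpair (by simp)
  c1 := by
    intro r hr s hs hsr hsn k C hkC ν hν
    have hpair := okPair_of_row hng hr hs hsr hsn (h1 r hr)
    unfold okPair at hpair
    unfold ceP at hpair
    rw [← chainEntry_of_packOK hp hr hs, ← chainEntry_of_packOK hp hs hr] at hpair
    split at hpair
    · next e1 e2 =>
      rw [commTerms_nil_of_entries e1 e2] at hkC
      exact absurd hkC (by simp)
    · next k' C' f e1 e2 =>
      rw [commTerms_one_of_entries e1 e2] at hkC
      simp only [List.cons.injEq, Prod.mk.injEq, and_true] at hkC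
      obtain ⟨rfl, rfl⟩ := hkC
      simp only [Bool.and_eq_true, Bool.or_eq_true, beq_iff_eq] at hpair
      obtain ⟨hk, hcases⟩ := hpair
      have hk' : k' < D.nroots := lt_of_blt hk
      rcases hcases with ⟨hC, hall⟩ | ⟨hC, hall⟩
      · exact c1B_spec hT hr hs hk' hν (Or.inl ⟨hC, rfl⟩) ((allBelow_iff _ _).mp hall ν hν)
      · exact c1B_spec hT hr hs hk' hν (Or.inr ⟨hC, rfl⟩) ((allBelow_iff _ _).mp hall ν hν)
    · exact absurd hpair (by simp)

/-- Bool form of the table check. -/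
def tabB (R : SRep) (n T : ℕ) : Bool :=
  allBelow n fun r => allBelow R.N fun ν => decide (R.term1 r ν = dec (tP T R.N r ν))

theorem tabOK_of_tabB {R : SRep} {n T : ℕ} (h : tabB R n T = true) : TabOK R n T := by
  intro r hr ν hν
  have h2 := (allBelow_iff _ _).mp ((allBelow_iff _ _).mp h r hr) ν hν
  exact of_decide_eq_true h2

end Cfsg.Agent.Helper12.MROKF
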