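import Mathlib

set_option autoImplicit false

namespace Cfsg.Agent.Helper12

/-- Quadruples of natural numbers, standing for `2 × 2` matrices over `ZMod p`. -/
abbrev Q4 := ℕ × ℕ × ℕ × ℕ

def qmul (p : ℕ) (x y : Q4) : Q4 :=
  ((x.1 * y.1 + x.2.1 * y.2.2.1) % p, (x.1 * y.2.1 + x.2.1 * y.2.2.2) % p,
   (x.2.2.1 * y.1 + x.2.2.2 * y.2.2.1) % p, (x.2.2.1 * y.2.1 + x.2.2.2 * y.2.2.2) % p)

def idq : Q4 := (1, 0, 0, 1)

def toMat (p : ℕ) (x : Q4) : Matrix (Fin 2) (Fin 2) (ZMod p) :=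
  !![(x.1 : ZMod p), (x.2.1 : ZMod p); (x.2.2.1 : ZMod p), (x.2.2.2 : ZMod p)]

theorem toMat_qmul (p : ℕ) (x y : Q4) : toMat p (qmul p x y) = toMat p x * toMat p y := by
  obtain ⟨a, b, c, d⟩ := x
  obtain ⟨a', b', c', d'⟩ := y
  simp only [toMat, qmul, Matrix.mul_fin_two, ZMod.natCast_mod, Nat.cast_add, Nat.cast_mul]

theorem toMat_idq (p : ℕ) : toMat p idq = 1 := by
  simp [toMat, idq, Matrix.one_fin_two]

theorem natCast_inj_of_lt {p a b : ℕ} (ha : a < p) (hb : b < p)
    (h : (a : ZMod p) = (b : ZMod p)) : a = b := by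
  rw [ZMod.natCast_eq_natCast_iff'] at h
  rwa [Nat.mod_eq_of_lt ha, Nat.mod_eq_of_lt hb] at h

def qred (p : ℕ) (x : Q4) : Prop := x.1 < p ∧ x.2.1 < p ∧ x.2.2.1 < p ∧ x.2.2.2 < p

theorem toMat_inj {p : ℕ} {x y : Q4} (hx : qred p x) (hy : qred p y)
    (h : toMat p x = toMat p y) : x = y := by
  obtain ⟨a, b, c, d⟩ := x
  obtain ⟨a', b', c', d'⟩ := y
  obtain ⟨h1, h2, h3, h4⟩ := hx
  obtain ⟨h1', h2', h3', h4'⟩ := hy
  have e00 := congrFun (congrFun h 0) 0
  have e01 := congrFun (congrFun h 0) 1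
  have e10 := congrFun (congrFun h 1) 0
  have e11 := congrFun (congrFun h 1) 1
  simp only [toMat, Matrix.of_apply, Matrix.cons_val_zero, Matrix.cons_val_one,
    Matrix.cons_val', Matrix.cons_val_fin_one] at e00 e01 e10 e11
  simp only at h1 h2 h3 h4 h1' h2' h3' h4'
  rw [natCast_inj_of_lt h1 h1' e00, natCast_inj_of_lt h2 h2' e01, natCast_inj_of_lt h3 h3' e10,
    natCast_inj_of_lt h4 h4' e11]

/-! ### Boolean checks -/

def qeq (x y : Q4) : Bool :=
  Nat.beq x.1 y.1 && Nat.beq x.2.1 y.2.1 && Nat.beq x.2.2.1 y.2.2.1 && Nat.beq x.2.2.2 y.2.2.2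

theorem qeq_iff (x y : Q4) : qeq x y = true ↔ x = y := by
  obtain ⟨a, b, c, d⟩ := x
  obtain ⟨a', b', c', d'⟩ := y
  simp only [qeq, Bool.and_eq_true, Nat.beq_eq, Prod.mk.injEq]
  tauto

def qmem (x : Q4) : List Q4 → Bool
  | [] => false
  | y :: l => qeq x y || qmem x l

theorem qmem_iff (x : Q4) (L : List Q4) : qmem x L = true ↔ x ∈ L := by
  induction L with
  | nil => simp [qmem]
  | cons y l ih => simp [qmem, qeq_iff, ih]

def closedUnder (p : ℕ) (g : Q4) (L : List Q4) : Bool := L.all (fun x => qmem (qmul p g x) L)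

theorem closedUnder_sound {p : ℕ} {g : Q4} {L : List Q4} (h : closedUnder p g L = true) :
    ∀ x ∈ L, qmul p g x ∈ L := by
  intro x hx
  rw [closedUnder, List.all_eq_true] at h
  exact (qmem_iff _ _).mp (h x hx)

def genOK (p : ℕ) (gs : List Q4) : List Q4 → Bool
  | [] => true
  | x :: rest =>
    (qeq x idq || gs.any (fun g => rest.any (fun y => qeq (qmul p g y) x))) && genOK p gs rest

theorem genOK_sound {p : ℕ} {gs : List Q4} (P : Q4 → Prop) (h1 : P idq)
    (hstep : ∀ g ∈ gs, ∀ y, P y → P (qmul p g y)) :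
    ∀ L : List Q4, genOK p gs L = true → ∀ x ∈ L, P x := by
  intro L
  induction L with
  | nil => intro _ x hx; simp at hx
  | cons x rest ih =>
    intro h y hy
    rw [genOK, Bool.and_eq_true, Bool.or_eq_true] at h
    obtain ⟨h1', h2⟩ := h
    have ih' := ih h2
    rcases List.mem_cons.mp hy with rfl | hy'
    · rcases h1' with h | h
      · rw [(qeq_iff _ _).mp h]; exact h1
      · rw [List.any_eq_true] at h
        obtain ⟨g, hg, h⟩ := h
        rw [List.any_eq_true] at h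
        obtain ⟨z, hz, h⟩ := h
        rw [← (qeq_iff _ _).mp h]
        exact hstep g hg z (ih' z hz)
    · exact ih' y hy'

def nodupB : List Q4 → Bool
  | [] => true
  | x :: l => !(qmem x l) && nodupB l

theorem nodupB_sound : ∀ L : List Q4, nodupB L = true → L.Nodup := by
  intro L
  induction L with
  | nil => intro _; exact List.nodup_nil
  | cons x l ih =>
    intro h
    rw [nodupB, Bool.and_eq_true, Bool.not_eq_true'] at h
    rw [List.nodup_cons]
    refine ⟨fun hx => ?_, ih h.2⟩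
    have := (qmem_iff x l).mpr hx
    rw [h.1] at this
    exact Bool.false_ne_true this

def redB (p : ℕ) (L : List Q4) : Bool :=
  L.all (fun x => Nat.blt x.1 p && Nat.blt x.2.1 p && Nat.blt x.2.2.1 p && Nat.blt x.2.2.2 p)

theorem redB_sound {p : ℕ} {L : List Q4} (h : redB p L = true) : ∀ x ∈ L, qred p x := by
  intro x hx
  rw [redB, List.all_eq_true] at h
  have := h x hx
  simp only [Bool.and_eq_true, Nat.blt_eq] at this
  exact ⟨this.1.1.1, this.1.1.2, this.1.2, this.2⟩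

/-- `det (c • x - 1)` as a natural number modulo `p`. -/
def qdet1 (p c : ℕ) (x : Q4) : ℕ :=
  ((c * x.1 + (p - 1)) * (c * x.2.2.2 + (p - 1)) + (p - 1) * ((c * x.2.1) * (c * x.2.2.1))) % p

def freeB (p m z : ℕ) (L : List Q4) : Bool :=
  (List.range m).all (fun i => L.all (fun x =>
    (Nat.beq i 0 && qeq x idq) || !(Nat.beq (qdet1 p (z ^ i % p) x) 0)))

def scalB (p m z : ℕ) (L : List Q4) : Bool :=
  (List.range m).all (fun i => Nat.beq i 0 || !(qmem (z ^ i % p, 0, 0, z ^ i % p) L))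

theorem qdet1_cast (p : ℕ) [Fact p.Prime] (c : ℕ) (x : Q4) :
    ((qdet1 p c x : ℕ) : ZMod p) = ((c : ZMod p) • toMat p x - 1).det := by
  obtain ⟨a, b, c', d⟩ := x
  have hp1 : ((p - 1 : ℕ) : ZMod p) = -1 := by
    rw [Nat.cast_sub (Fact.out : p.Prime).one_le, ZMod.natCast_self, Nat.cast_one, zero_sub]
  simp only [qdet1, ZMod.natCast_mod, Nat.cast_add, Nat.cast_mul, hp1, toMat, Matrix.det_fin_two,
    Matrix.sub_apply, Matrix.smul_apply, Matrix.of_apply, Matrix.cons_val_zero,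
    Matrix.cons_val_one, Matrix.cons_val', Matrix.cons_val_fin_one, Matrix.one_apply_eq,
    smul_eq_mul]
  simp
  ring

theorem qdet1_ne_zero {p : ℕ} [Fact p.Prime] {c : ℕ} {x : Q4} (h : qdet1 p c x ≠ 0) :
    ((c : ZMod p) • toMat p x - 1).det ≠ 0 := by
  rw [← qdet1_cast]
  intro h0
  rw [ZMod.natCast_eq_zero_iff] at h0
  have hlt : qdet1 p c x < p := Nat.mod_lt _ (Fact.out : p.Prime).pos
  exact h (Nat.eq_zero_of_dvd_of_lt h0 hlt)

theorem eq_zero_of_mulVec_eq_self {p : ℕ} [Fact p.Prime] (M : Matrix (Fin 2) (Fin 2) (ZMod p))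
    (hdet : (M - 1).det ≠ 0) (v : Fin 2 → ZMod p) (hv : M.mulVec v = v) : v = 0 := by
  apply Matrix.eq_zero_of_mulVec_eq_zero hdet
  rw [Matrix.sub_mulVec, Matrix.one_mulVec, hv, sub_self]

/-- Adjoining a central element of finite order to a generating set. -/
theorem closure_insert_central_iff {G : Type*} [Group G] (S : Set G) (c : G)
    (hc : ∀ g : G, c * g = g * c) (m : ℕ) (hm : 0 < m) (hcm : c ^ m = 1) (h : G) :
    h ∈ Subgroup.closure (insert c S) ↔ ∃ i < m, ∃ k ∈ Subgroup.closure S, h = c ^ i * k := by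
  have hci : ∀ (i : ℕ) (g : G), c ^ i * g = g * c ^ i := by
    intro i g
    induction i with
    | zero => simp
    | succ n ih => rw [pow_succ, mul_assoc, hc, ← mul_assoc, ih, mul_assoc]
  constructor
  · intro hh
    induction hh using Subgroup.closure_induction_left with
    | one => exact ⟨0, hm, 1, Subgroup.one_mem _, by simp⟩
    | mul_left s hs y _ ih =>
      obtain ⟨i, _, k, hk, rfl⟩ := ih
      rcases hs with rfl | hs
      · refine ⟨(i + 1) % m, Nat.mod_lt _ hm, k, hk, ?_⟩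
        rw [← pow_eq_pow_mod _ hcm, pow_succ, ← mul_assoc, hci]
      · refine ⟨i, ‹_›, s * k, Subgroup.mul_mem _ (Subgroup.subset_closure hs) hk, ?_⟩
        rw [← mul_assoc, ← hci, mul_assoc]
    | inv_mul_cancel s hs y _ ih =>
      obtain ⟨i, _, k, hk, rfl⟩ := ih
      rcases hs with rfl | hs
      · refine ⟨(m - 1 + i) % m, Nat.mod_lt _ hm, k, hk, ?_⟩
        rw [← pow_eq_pow_mod _ hcm, pow_add, ← mul_assoc]
        congr 1
        congr 1
        rw [inv_eq_iff_eq_inv, ← mul_eq_one_iff_eq_inv, ← pow_succ']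
        rw [show m - 1 + 1 = m by omega, hcm]
      · refine ⟨i, ‹_›, s⁻¹ * k, Subgroup.mul_mem _
          (Subgroup.inv_mem _ (Subgroup.subset_closure hs)) hk, ?_⟩
        rw [← mul_assoc, ← hci, mul_assoc]
  · rintro ⟨i, _, k, hk, rfl⟩
    apply Subgroup.mul_mem
    · exact Subgroup.pow_mem _ (Subgroup.subset_closure (Set.mem_insert _ _)) _
    · exact Subgroup.closure_mono (Set.subset_insert _ _) hk

/-- Order of the group generated by a subgroup and a central element. -/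
theorem card_closure_insert_central {G : Type*} [Group G] [Finite G] (S : Set G) (c : G)
    (hc : ∀ g : G, c * g = g * c) (m : ℕ) (hm : 0 < m) (hcm : c ^ m = 1)
    (hnot : ∀ i, 0 < i → i < m → c ^ i ∉ Subgroup.closure S) :
    Nat.card (Subgroup.closure (insert c S)) = m * Nat.card (Subgroup.closure S) := by
  have hiff := closure_insert_central_iff S c hc m hm hcm
  let f : Fin m × Subgroup.closure S → Subgroup.closure (insert c S) :=
    fun q => ⟨c ^ (q.1 : ℕ) * (q.2 : G), (hiff _).mpr ⟨q.1, q.1.2, q.2, q.2.2, rfl⟩⟩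
  have key : ∀ (i j : ℕ) (k k' : G), i ≤ j → j < m → k ∈ Subgroup.closure S →
      k' ∈ Subgroup.closure S → c ^ i * k = c ^ j * k' → i = j := by
    intro i j k k' hij hj hk hk' heq
    by_contra hne
    have hlt : i < j := lt_of_le_of_ne hij hne
    apply hnot (j - i) (by omega) (by omega)
    have h1 : c ^ (j - i) = k * k'⁻¹ := by
      have h2 : c ^ j = c ^ i * c ^ (j - i) := by rw [← pow_add]; congr 1; omega
      rw [h2, mul_assoc] at heq
      have h3 := mul_left_cancel heq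
      rw [h3, mul_inv_cancel_right]
    rw [h1]
    exact Subgroup.mul_mem _ hk (Subgroup.inv_mem _ hk')
  have hinj : Function.Injective f := by
    rintro ⟨i, k⟩ ⟨j, k'⟩ hh
    have heq : c ^ (i : ℕ) * (k : G) = c ^ (j : ℕ) * (k' : G) := congrArg Subtype.val hh
    have hij : (i : ℕ) = j := by
      rcases le_total (i : ℕ) j with h | h
      · exact key i j k k' h j.2 k.2 k'.2 heq
      · exact (key j i k' k h i.2 k'.2 k.2 heq.symm).symm
    have hij' : i = j := Fin.ext hij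
    subst hij'
    have := mul_left_cancel heq
    rw [Prod.mk.injEq]
    exact ⟨rfl, Subtype.ext this⟩
  have hsurj : Function.Surjective f := by
    rintro ⟨h, hh⟩
    obtain ⟨i, hi, k, hk, rfl⟩ := (hiff h).mp hh
    exact ⟨(⟨i, hi⟩, ⟨k, hk⟩), rfl⟩
  rw [← Nat.card_congr (Equiv.ofBijective f ⟨hinj, hsurj⟩), Nat.card_prod, Nat.card_fin]

/-! ### Subgroups of `GL(2, p)` given by explicit lists -/

section GLsec

variable {p : ℕ}

local notation "GLp" => Matrix.GeneralLinearGroup (Fin 2) (ZMod p)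

/-- Stage 1: the closure of a set of generators with a certified list of elements. -/
theorem closure_matrix_iff (S : Set GLp) (gs gis L : List Q4)
    (hS : ∀ s ∈ S, ∃ q ∈ gs, ∃ qi ∈ gis,
      (s : Matrix (Fin 2) (Fin 2) (ZMod p)) = toMat p q ∧ qmul p q qi = idq)
    (hgs : ∀ q ∈ gs, ∃ s ∈ S, (s : Matrix (Fin 2) (Fin 2) (ZMod p)) = toMat p q)
    (hcl : (gs ++ gis).all (fun g => closedUnder p g L) = true)
    (hid : qmem idq L = true) (hgen : genOK p gs L = true) (h : GLp) :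
    h ∈ Subgroup.closure S ↔
      ∃ x ∈ L, (h : Matrix (Fin 2) (Fin 2) (ZMod p)) = toMat p x := by
  have hcl' : ∀ g, g ∈ gs ∨ g ∈ gis → ∀ x ∈ L, qmul p g x ∈ L := by
    intro g hg
    rw [List.all_eq_true] at hcl
    exact closedUnder_sound (hcl g (List.mem_append.mpr hg))
  constructor
  · intro hh
    induction hh using Subgroup.closure_induction_left with
    | one => exact ⟨idq, (qmem_iff _ _).mp hid, by rw [toMat_idq]; rfl⟩
    | mul_left s hs y _ ih =>
      obtain ⟨x, hx, hyx⟩ := ih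
      obtain ⟨q, hq, qi, hqi, hsq, _⟩ := hS s hs
      exact ⟨qmul p q x, hcl' q (Or.inl hq) x hx, by rw [Units.val_mul, hsq, hyx, toMat_qmul]⟩
    | inv_mul_cancel s hs y _ ih =>
      obtain ⟨x, hx, hyx⟩ := ih
      obtain ⟨q, hq, qi, hqi, hsq, hinv⟩ := hS s hs
      have h1 : (s : Matrix (Fin 2) (Fin 2) (ZMod p)) * toMat p qi = 1 := by
        rw [hsq, ← toMat_qmul, hinv, toMat_idq]
      have h2 : ((s⁻¹ : GLp) : Matrix (Fin 2) (Fin 2) (ZMod p)) = toMat p qi := by
        calc ((s⁻¹ : GLp) : Matrix (Fin 2) (Fin 2) (ZMod p))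
            = ((s⁻¹ : GLp) : Matrix (Fin 2) (Fin 2) (ZMod p)) *
                ((s : Matrix (Fin 2) (Fin 2) (ZMod p)) * toMat p qi) := by rw [h1, mul_one]
          _ = toMat p qi := by rw [← mul_assoc, Units.inv_mul, one_mul]
      exact ⟨qmul p qi x, hcl' qi (Or.inr hqi) x hx, by rw [Units.val_mul, h2, hyx, toMat_qmul]⟩
  · rintro ⟨x, hx, hhx⟩
    have key : ∀ x ∈ L, ∃ k ∈ Subgroup.closure S,
        (k : Matrix (Fin 2) (Fin 2) (ZMod p)) = toMat p x := by
      apply genOK_sound (p := p) (gs := gs)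
        (fun x => ∃ k ∈ Subgroup.closure S, (k : Matrix (Fin 2) (Fin 2) (ZMod p)) = toMat p x)
        ⟨1, Subgroup.one_mem _, by rw [toMat_idq]; rfl⟩ _ L hgen
      intro g hg y ⟨k, hk, hky⟩
      obtain ⟨s, hs, hsg⟩ := hgs g hg
      exact ⟨s * k, Subgroup.mul_mem _ (Subgroup.subset_closure hs) hk,
        by rw [Units.val_mul, hsg, hky, toMat_qmul]⟩
    obtain ⟨k, hk, hkx⟩ := key x hx
    have : h = k := Units.ext (hhx.trans hkx.symm)
    rw [this]; exact hk

/-- Every listed quadruple is the matrix of an element of the closure. -/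
theorem closure_matrix_exists (S : Set GLp) (gs L : List Q4)
    (hgs : ∀ q ∈ gs, ∃ s ∈ S, (s : Matrix (Fin 2) (Fin 2) (ZMod p)) = toMat p q)
    (hgen : genOK p gs L = true) :
    ∀ x ∈ L, ∃ k ∈ Subgroup.closure S,
        (k : Matrix (Fin 2) (Fin 2) (ZMod p)) = toMat p x := by
  apply genOK_sound (p := p) (gs := gs)
    (fun x => ∃ k ∈ Subgroup.closure S, (k : Matrix (Fin 2) (Fin 2) (ZMod p)) = toMat p x)
    ⟨1, Subgroup.one_mem _, by rw [toMat_idq]; rfl⟩ _ L hgen
  intro g hg y ⟨k, hk, hky⟩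
  obtain ⟨s, hs, hsg⟩ := hgs g hg
  exact ⟨s * k, Subgroup.mul_mem _ (Subgroup.subset_closure hs) hk,
    by rw [Units.val_mul, hsg, hky, toMat_qmul]⟩

/-- Cardinality of a subgroup described by a duplicate-free list of reduced quadruples. -/
theorem card_of_matrix_iff (K : Subgroup GLp) (L : List Q4)
    (hK : ∀ h : GLp, h ∈ K → ∃ x ∈ L, (h : Matrix (Fin 2) (Fin 2) (ZMod p)) = toMat p x)
    (hK' : ∀ x ∈ L, ∃ k ∈ K, (k : Matrix (Fin 2) (Fin 2) (ZMod p)) = toMat p x)
    (hnd : nodupB L = true) (hred : redB p L = true) : Nat.card K = L.length := by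
  classical
  have hred' := redB_sound hred
  have hex : ∀ x : {x // x ∈ L}, ∃ k : K,
      ((k : GLp) : Matrix (Fin 2) (Fin 2) (ZMod p)) = toMat p x.1 := by
    intro x
    obtain ⟨k, hk, hkx⟩ := hK' x.1 x.2
    exact ⟨⟨k, hk⟩, hkx⟩
  choose f hf using hex
  have hinj : Function.Injective f := by
    intro x y hxy
    apply Subtype.ext
    apply toMat_inj (hred' x.1 x.2) (hred' y.1 y.2)
    rw [← hf x, ← hf y, hxy]
  have hsurj : Function.Surjective f := by
    intro k
    obtain ⟨x, hx, hkx⟩ := hK k.1 k.2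
    refine ⟨⟨x, hx⟩, ?_⟩
    apply Subtype.ext
    apply Units.ext
    rw [hf, hkx]
  rw [← Nat.card_congr (Equiv.ofBijective f ⟨hinj, hsurj⟩), Nat.card_eq_fintype_card,
    Fintype.card_of_subtype L.toFinset (fun x => List.mem_toFinset),
    List.toFinset_card_of_nodup (nodupB_sound L hnd)]

/-- Regularity on non-zero vectors from freeness and the order. -/
theorem regular_of_free_of_card [Fact p.Prime] (K : Subgroup GLp)
    (hfree : ∀ h ∈ K, h ≠ 1 → ∀ v : Fin 2 → ZMod p, v ≠ 0 →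
      Matrix.mulVec (h : Matrix (Fin 2) (Fin 2) (ZMod p)) v ≠ v)
    (hcard : Nat.card K = p ^ 2 - 1) (v w : Fin 2 → ZMod p) (hv : v ≠ 0) (hw : w ≠ 0) :
    ∃! h : K, Matrix.mulVec ((h : GLp) : Matrix (Fin 2) (Fin 2) (ZMod p)) v = w := by
  have hne : ∀ h : K, Matrix.mulVec ((h : GLp) : Matrix (Fin 2) (Fin 2) (ZMod p)) v ≠ 0 := by
    intro h h0
    apply hv
    have := congrArg (Matrix.mulVec (((h : GLp)⁻¹ : GLp) : Matrix (Fin 2) (Fin 2) (ZMod p))) h0
    rwa [Matrix.mulVec_mulVec, Units.inv_mul, Matrix.one_mulVec, Matrix.mulVec_zero] at this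
  let f : K → {w : Fin 2 → ZMod p // w ≠ 0} := fun h => ⟨_, hne h⟩
  have hinj : Function.Injective f := by
    intro h h' hh
    have h1 : Matrix.mulVec ((h : GLp) : Matrix (Fin 2) (Fin 2) (ZMod p)) v
        = Matrix.mulVec ((h' : GLp) : Matrix (Fin 2) (Fin 2) (ZMod p)) v := congrArg Subtype.val hh
    by_contra hne'
    have h2 : ((h' : GLp)⁻¹ * (h : GLp)) ≠ 1 := by
      intro h3
      rw [inv_mul_eq_one] at h3
      exact hne' (Subtype.ext h3.symm)
    apply hfree _ (K.mul_mem (K.inv_mem h'.2) h.2) h2 v hv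
    rw [Units.val_mul, ← Matrix.mulVec_mulVec, h1, Matrix.mulVec_mulVec, Units.inv_mul,
      Matrix.one_mulVec]
  have hcardW : Nat.card {w : Fin 2 → ZMod p // w ≠ 0} = p ^ 2 - 1 := by
    have h1 : Nat.card {w : Fin 2 → ZMod p // w ≠ 0} = Set.ncard ({0}ᶜ : Set (Fin 2 → ZMod p)) := by
      rw [← Nat.card_coe_set_eq]
      rfl
    rw [h1, Set.ncard_compl, Set.ncard_singleton, Nat.card_fun, Nat.card_zmod, Nat.card_fin]
  have hbij := hinj.bijective_of_nat_card_le (by rw [hcardW, hcard])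
  obtain ⟨h, hh⟩ := hbij.2 ⟨w, hw⟩
  refine ⟨h, congrArg Subtype.val hh, fun h' hh' => ?_⟩
  apply hinj
  rw [hh]
  exact Subtype.ext hh'

theorem freeB_sound {m z : ℕ} [Fact p.Prime] {L : List Q4} (h : freeB p m z L = true)
    (i : ℕ) (hi : i < m) (x : Q4) (hx : x ∈ L) (hne : ¬ (i = 0 ∧ x = idq))
    (v : Fin 2 → ZMod p) (hv : (((z : ZMod p) ^ i) • toMat p x).mulVec v = v) : v = 0 := by
  rw [freeB, List.all_eq_true] at h
  have h1 := h i (List.mem_range.mpr hi)
  rw [List.all_eq_true] at h1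
  have h2 := h1 x hx
  rw [Bool.or_eq_true, Bool.and_eq_true, Nat.beq_eq, qeq_iff, Bool.not_eq_true', ← Bool.not_eq_true,
    Nat.beq_eq] at h2
  rcases h2 with h2 | h2
  · exact absurd h2 hne
  · have h3 := qdet1_ne_zero (p := p) h2
    rw [ZMod.natCast_mod, Nat.cast_pow] at h3
    exact eq_zero_of_mulVec_eq_self _ h3 v hv

theorem scalB_sound {m z : ℕ} {L : List Q4} (h : scalB p m z L = true)
    (i : ℕ) (hi0 : 0 < i) (hi : i < m) : (z ^ i % p, 0, 0, z ^ i % p) ∉ L := by
  rw [scalB, List.all_eq_true] at h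
  have h1 := h i (List.mem_range.mpr hi)
  rw [Bool.or_eq_true, Nat.beq_eq, Bool.not_eq_true', ← Bool.not_eq_true] at h1
  rcases h1 with h1 | h1
  · omega
  · exact fun hmem => h1 ((qmem_iff _ _).mpr hmem)

theorem toMat_scalar (c : ℕ) :
    toMat p (c % p, 0, 0, c % p) = (c : ZMod p) • (1 : Matrix (Fin 2) (Fin 2) (ZMod p)) := by
  ext i j
  fin_cases i <;> fin_cases j <;> simp [toMat]

/-- Main theorem, no scalar generator. -/
theorem main_simple [Fact p.Prime] (S : Set GLp) (gs gis L : List Q4)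
    (hS : ∀ s ∈ S, ∃ q ∈ gs, ∃ qi ∈ gis,
      (s : Matrix (Fin 2) (Fin 2) (ZMod p)) = toMat p q ∧ qmul p q qi = idq)
    (hgs : ∀ q ∈ gs, ∃ s ∈ S, (s : Matrix (Fin 2) (Fin 2) (ZMod p)) = toMat p q)
    (hcl : (gs ++ gis).all (fun g => closedUnder p g L) = true)
    (hid : qmem idq L = true) (hgen : genOK p gs L = true)
    (hnd : nodupB L = true) (hred : redB p L = true)
    (hfree : freeB p 1 1 L = true) (hlen : L.length = p ^ 2 - 1) :
    Nat.card (Subgroup.closure S) = p ^ 2 - 1 ∧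
    ∀ v w : Fin 2 → ZMod p, v ≠ 0 → w ≠ 0 → ∃! h : Subgroup.closure S,
      Matrix.mulVec ((h : GLp) : Matrix (Fin 2) (Fin 2) (ZMod p)) v = w := by
  have hiff := closure_matrix_iff S gs gis L hS hgs hcl hid hgen
  have hcard : Nat.card (Subgroup.closure S) = p ^ 2 - 1 := by
    rw [card_of_matrix_iff (Subgroup.closure S) L (fun h hh => (hiff h).mp hh)
      (closure_matrix_exists S gs L hgs hgen) hnd hred, hlen]
  refine ⟨hcard, regular_of_free_of_card _ ?_ hcard⟩
  intro h hh h1 v hv hfix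
  obtain ⟨x, hx, hhx⟩ := (hiff h).mp hh
  apply hv
  apply freeB_sound hfree 0 Nat.one_pos x hx _ v
  · rw [pow_zero, one_smul, ← hhx]
    exact hfix
  · rintro ⟨-, rfl⟩
    apply h1
    apply Units.ext
    rw [hhx, toMat_idq]
    rfl

/-- Main theorem, with one additional scalar generator of order `m`. -/
theorem main_central [Fact p.Prime] (S : Set GLp) (C : GLp) (z m : ℕ)
    (hC : (C : Matrix (Fin 2) (Fin 2) (ZMod p)) = (z : ZMod p) • 1)
    (hm : 0 < m) (hzm : z ^ m % p = 1) (gs gis L : List Q4)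
    (hS : ∀ s ∈ S, ∃ q ∈ gs, ∃ qi ∈ gis,
      (s : Matrix (Fin 2) (Fin 2) (ZMod p)) = toMat p q ∧ qmul p q qi = idq)
    (hgs : ∀ q ∈ gs, ∃ s ∈ S, (s : Matrix (Fin 2) (Fin 2) (ZMod p)) = toMat p q)
    (hcl : (gs ++ gis).all (fun g => closedUnder p g L) = true)
    (hid : qmem idq L = true) (hgen : genOK p gs L = true)
    (hnd : nodupB L = true) (hred : redB p L = true)
    (hfree : freeB p m z L = true) (hscal : scalB p m z L = true)
    (hlen : m * L.length = p ^ 2 - 1) :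
    Nat.card (Subgroup.closure (insert C S)) = p ^ 2 - 1 ∧
    ∀ v w : Fin 2 → ZMod p, v ≠ 0 → w ≠ 0 → ∃! h : Subgroup.closure (insert C S),
      Matrix.mulVec ((h : GLp) : Matrix (Fin 2) (Fin 2) (ZMod p)) v = w := by
  have hp1 : 1 < p := (Fact.out : p.Prime).one_lt
  have hiff := closure_matrix_iff S gs gis L hS hgs hcl hid hgen
  have hcard0 : Nat.card (Subgroup.closure S) = L.length :=
    card_of_matrix_iff (Subgroup.closure S) L (fun h hh => (hiff h).mp hh)
      (closure_matrix_exists S gs L hgs hgen) hnd hred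
  have hc : ∀ g : GLp, C * g = g * C := by
    intro g
    apply Units.ext
    rw [Units.val_mul, Units.val_mul, hC, Matrix.smul_mul, Matrix.mul_smul, one_mul, mul_one]
  have hCpow : ∀ i : ℕ, ((C ^ i : GLp) : Matrix (Fin 2) (Fin 2) (ZMod p))
      = ((z : ZMod p) ^ i) • 1 := by
    intro i
    rw [Units.val_pow_eq_pow_val, hC, smul_pow, one_pow]
  have hzm' : (z : ZMod p) ^ m = 1 := by
    have := congrArg (fun n : ℕ => (n : ZMod p)) hzm
    simpa using this
  have hcm : C ^ m = 1 := by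
    apply Units.ext
    rw [hCpow, hzm', one_smul]
    rfl
  have hfin : Finite GLp := inferInstance
  have hnot : ∀ i, 0 < i → i < m → C ^ i ∉ Subgroup.closure S := by
    intro i hi0 hi hmem
    obtain ⟨x, hx, hCx⟩ := (hiff _).mp hmem
    rw [hCpow, ← Nat.cast_pow, ← toMat_scalar] at hCx
    have hxeq : (z ^ i % p, 0, 0, z ^ i % p) = x :=
      toMat_inj ⟨Nat.mod_lt _ (by omega), (by show (0 : ℕ) < p; omega), (by show (0 : ℕ) < p; omega),
        Nat.mod_lt _ (by omega)⟩
        (redB_sound hred x hx) hCx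
    exact scalB_sound hscal i hi0 hi (hxeq ▸ hx)
  have hcard : Nat.card (Subgroup.closure (insert C S)) = p ^ 2 - 1 := by
    rw [card_closure_insert_central S C hc m hm hcm hnot, hcard0, hlen]
  refine ⟨hcard, regular_of_free_of_card _ ?_ hcard⟩
  intro h hh h1 v hv hfix
  obtain ⟨i, hi, k, hk, rfl⟩ := (closure_insert_central_iff S C hc m hm hcm h).mp hh
  obtain ⟨x, hx, hkx⟩ := (hiff k).mp hk
  apply hv
  apply freeB_sound hfree i hi x hx _ v
  · rw [← hfix]
    congr 1
    rw [Units.val_mul, hCpow, hkx, Matrix.smul_mul, one_mul]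
  · rintro ⟨rfl, rfl⟩
    apply h1
    have : k = 1 := by
      apply Units.ext
      rw [hkx, toMat_idq]
      rfl
    rw [this, pow_zero, one_mul]

end GLsec

end Cfsg.Agent.Helper12
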