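import Cfsg.Agent.Helper12.Cent

set_option autoImplicit false

namespace Cfsg.Agent.Helper12

theorem inf_eq_bot_of_minimal {G : Type*} [Group G] (M N : Subgroup G) [M.Normal] [N.Normal]
    (hM : M ≠ ⊥) (hMmin : ∀ L : Subgroup G, L.Normal → L ≤ M → L = ⊥ ∨ L = M)
    (hNmin : ∀ L : Subgroup G, L.Normal → L ≤ N → L = ⊥ ∨ L = N) (hMN : M ≠ N) :
    M ⊓ N = ⊥ := by
  rcases hMmin (M ⊓ N) inferInstance inf_le_left with h | h
  · exact h
  · have hle : M ≤ N := by rw [← h]; exact inf_le_right
    rcases hNmin M inferInstance hle with h' | h'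
    · exact absurd h' hM
    · exact absurd h' hMN

theorem map_le_centralizer_map {α : Type*} (G : Subgroup (Equiv.Perm α)) (M N : Subgroup G)
    [M.Normal] [N.Normal] (h : M ⊓ N = ⊥) :
    N.map G.subtype ≤ Subgroup.centralizer
      ((M.map G.subtype : Subgroup (Equiv.Perm α)) : Set (Equiv.Perm α)) := by
  rintro _ ⟨n, hn, rfl⟩
  rw [Subgroup.mem_centralizer_iff]
  rintro _ ⟨m, hm, rfl⟩
  have := Subgroup.commute_of_normal_of_disjoint M N inferInstance inferInstance
    (disjoint_iff.mpr h) m n hm hn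
  rw [← map_mul, ← map_mul, this.eq]

theorem setTrans_map {α : Type*} (G : Subgroup (Equiv.Perm α)) (M : Subgroup G)
    (h : MulAction.IsPretransitive M α) :
    SetTrans ((M.map G.subtype : Subgroup (Equiv.Perm α)) : Set (Equiv.Perm α)) := by
  intro a b
  obtain ⟨m, hm⟩ := h.exists_smul_eq a b
  exact ⟨G.subtype m.1, ⟨m.1, m.2, rfl⟩, hm⟩

theorem le_of_map_subtype_le {α : Type*} (G : Subgroup (Equiv.Perm α)) (L N : Subgroup G)
    (h : L.map G.subtype ≤ N.map G.subtype) : L ≤ N :=
  (Subgroup.map_le_map_iff_of_injective G.subtype_injective).mp h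

theorem stabilizer_eq_bot_of_map_le_cent {α : Type*} (G : Subgroup (Equiv.Perm α))
    (M : Subgroup G) (S : Set (Equiv.Perm α)) (hS : SetTrans S)
    (hM : M.map G.subtype ≤ Subgroup.centralizer S) (a : α) :
    MulAction.stabilizer M a = ⊥ := by
  rw [eq_bot_iff]
  intro m hm
  rw [MulAction.mem_stabilizer_iff] at hm
  rw [Subgroup.mem_bot]
  have h1 : ((m : G) : Equiv.Perm α) = 1 :=
    cent_semiregular hS (hM ⟨m.1, m.2, rfl⟩) hm
  apply Subtype.ext; apply Subtype.ext; exact h1

/-- A regular action gives a bijection with the group. -/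
theorem bijective_smul_of_regular {K : Type*} [Group K] {α : Type*} [MulAction K α]
    (htr : MulAction.IsPretransitive K α) (hreg : ∀ a : α, MulAction.stabilizer K a = ⊥)
    (a : α) : Function.Bijective (fun k : K => k • a) := by
  refine ⟨?_, fun y => MulAction.exists_smul_eq K a y⟩
  intro g h hgh
  have : g⁻¹ * h ∈ MulAction.stabilizer K a := by
    rw [MulAction.mem_stabilizer_iff, mul_smul]
    simp only at hgh
    rw [← hgh, inv_smul_smul]
  rw [hreg a, Subgroup.mem_bot, inv_mul_eq_one] at this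
  exact this

/-- Two commuting regular permutation groups are isomorphic. -/
theorem nonempty_mulEquiv_of_regular_commuting {α : Type*} [Nonempty α]
    (G : Subgroup (Equiv.Perm α)) (M N : Subgroup G)
    (hMt : MulAction.IsPretransitive M α) (hNt : MulAction.IsPretransitive N α)
    (hMr : ∀ a : α, MulAction.stabilizer M a = ⊥) (hNr : ∀ a : α, MulAction.stabilizer N a = ⊥)
    (hcomm : ∀ m ∈ M, ∀ n ∈ N, m * n = n * m) : Nonempty (M ≃* N) := by
  obtain ⟨a⟩ := ‹Nonempty α›
  let eM : M ≃ α := Equiv.ofBijective _ (bijective_smul_of_regular hMt hMr a)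
  let eN : N ≃ α := Equiv.ofBijective _ (bijective_smul_of_regular hNt hNr a)
  have heM : ∀ m : M, eM m = m • a := fun m => rfl
  have heN : ∀ n : N, eN n = n • a := fun n => rfl
  let ψ : M ≃ N := eM.trans eN.symm
  have hψ : ∀ m : M, (ψ m) • a = m • a := by
    intro m
    rw [← heN, ← heM]
    simp [ψ]
  have hsc : ∀ (m : M) (n : N) (x : α), m • (n • x) = n • (m • x) := by
    intro m n x
    have h1 : (((m : G) * (n : G) : G) : Equiv.Perm α) x = (((n : G) * (m : G) : G) : Equiv.Perm α) x := by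
      rw [hcomm m m.2 n n.2]
    exact h1
  let φ : M →* N := MonoidHom.mk' (fun m => ψ m⁻¹) (by
    intro m m'
    apply eN.injective
    rw [heN, heN, mul_smul, hψ, hψ, ← hsc, hψ, mul_inv_rev, mul_smul])
  have hφ : Function.Bijective φ := by
    have : (φ : M → N) = ψ ∘ (fun m => m⁻¹) := rfl
    rw [this]
    exact ψ.bijective.comp inv_involutive.bijective
  exact ⟨MulEquiv.ofBijective φ hφ⟩

end Cfsg.Agent.Helper12
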