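import Mathlib

set_option autoImplicit false

namespace Cfsg.Agent.Helper12

open MulAction SubMulAction

/-- If `G` is `m`-transitive and the pointwise stabiliser of some `m`-set is `k`-transitive on the
complement, then `G` is `(m + k)`-transitive. -/
theorem isMultiplyPretransitive_add_of_fixingSubgroup :
    ∀ (m : ℕ) {G α : Type*} [Group G] [MulAction G α] (k : ℕ) (s : Set α), s.Finite →
      s.ncard = m → IsMultiplyPretransitive G α m →
      IsMultiplyPretransitive (fixingSubgroup G s) (ofFixingSubgroup G s) k →
      IsMultiplyPretransitive G α (m + k) := by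
  intro m
  induction m with
  | zero =>
    intro G α _ _ k s hs hsm _ hk
    have hs0 : s = ∅ := by
      rwa [Set.ncard_eq_zero hs] at hsm
    subst hs0
    rw [zero_add]
    exact (IsPretransitive.of_embedding_congr of_fixingSubgroupEmpty_mapScalars_surjective
      ofFixingSubgroupEmpty_equivariantMap_bijective).mp hk
  | succ n ih =>
    intro G α _ _ k s hs hsm hG hk
    have hne : s.Nonempty := by
      rw [← Set.ncard_pos hs, hsm]; exact Nat.succ_pos n
    obtain ⟨a, ha⟩ := hne
    set t : Set (ofStabilizer G a) := Subtype.val ⁻¹' s with ht
    have hst : s = insert a (Subtype.val '' t) := by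
      ext x
      by_cases hx : x = a <;> simp [hx, mem_ofStabilizer_iff, ha, ht]
    have ha' : a ∉ Subtype.val '' t := by
      intro h; rw [Set.mem_image] at h; obtain ⟨x, hx⟩ := h
      apply x.prop; rw [hx.right]; exact Set.mem_singleton a
    have htfin : t.Finite := hs.preimage (Subtype.val_injective.injOn)
    have htn : t.ncard = n := by
      rw [← Set.ncard_image_of_injective t Subtype.val_injective]
      apply Nat.add_right_cancel
      rw [← Set.ncard_insert_of_notMem ha' (htfin.image _), ← hst, hsm]
    have hcard : ((n + 1 : ℕ) : ENat) ≤ ENat.card α := by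
      rw [← hsm, hs.cast_ncard_eq]
      exact Set.encard_le_card
    have hG1 : IsPretransitive G α := by
      have : IsMultiplyPretransitive G α 1 :=
        isMultiplyPretransitive_of_le' (n := n + 1) (Nat.succ_le_succ (Nat.zero_le n)) hcard
      exact is_one_pretransitive_iff.mp this
    have hGa : IsMultiplyPretransitive (stabilizer G a) (ofStabilizer G a) n :=
      (ofStabilizer.isMultiplyPretransitive (a := a)).mp hG
    have hk1 : IsMultiplyPretransitive (fixingSubgroup G (insert a (Subtype.val '' t)))
        (ofFixingSubgroup G (insert a (Subtype.val '' t))) k :=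
      (IsPretransitive.of_embedding_congr (MulEquiv.surjective _)
        (ofFixingSubgroup_of_eq_bijective (hst := hst))).mp hk
    have hk2 : IsMultiplyPretransitive (fixingSubgroup (stabilizer G a) t)
        (ofFixingSubgroup (stabilizer G a) t) k :=
      (IsPretransitive.of_embedding_congr (MulEquiv.surjective _)
        ofFixingSubgroup_insert_map_bijective).mp hk1
    have hrec := ih k t htfin htn hGa hk2
    have : n + 1 + k = (n + k).succ := by omega
    rw [this]
    exact (ofStabilizer.isMultiplyPretransitive (a := a)).mpr hrec

end Cfsg.Agent.Helper12
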