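import Mathlib

set_option autoImplicit false

/-!
# CALL NP (helper13, row S5989), piece ARITH8 (helper12)
-/

namespace Cfsg.Agent.Helper12.NP5989

/-- ARITH8: `q` odd: `8 ∣ q^(d-1) (q^d - 1)` iff `d` even or `q ≡ 1 (mod 8)`. -/
theorem np_arith8 (q d : ℕ) (hq : Odd q) (hd : 1 ≤ d) :
    (8 ∣ q ^ (d - 1) * (q ^ d - 1)) ↔ (Even d ∨ q % 8 = 1) := by
  have hcop : Nat.Coprime 8 (q ^ (d - 1)) := by
    have h2 : Nat.Coprime 2 q := Nat.coprime_two_left.mpr hq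
    exact Nat.Coprime.pow_right _ (Nat.Coprime.pow_left 3 h2 : Nat.Coprime (2 ^ 3) q)
  rw [hcop.dvd_mul_left]
  have hq2 : q ^ 2 % 8 = 1 := by
    obtain ⟨k, rfl⟩ := hq
    rw [Nat.pow_mod]
    have : (2 * k + 1) % 8 = 1 ∨ (2 * k + 1) % 8 = 3 ∨ (2 * k + 1) % 8 = 5 ∨
        (2 * k + 1) % 8 = 7 := by omega
    rcases this with h | h | h | h <;> rw [h]
  have hpos : 1 ≤ q ^ d := Nat.one_le_pow _ _ (by obtain ⟨k, rfl⟩ := hq; omega)
  have key : 8 ∣ q ^ d - 1 ↔ q ^ d % 8 = 1 := by omega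
  rw [key]
  rcases Nat.even_or_odd d with hev | hod
  · obtain ⟨k, rfl⟩ := hev
    have : q ^ (k + k) % 8 = 1 := by
      rw [← two_mul, pow_mul, Nat.pow_mod, hq2]
      simp
    simp [this]
  · have hne : ¬ Even d := Nat.not_even_iff_odd.mpr hod
    obtain ⟨k, rfl⟩ := hod
    have : q ^ (2 * k + 1) % 8 = q % 8 := by
      rw [pow_succ, pow_mul, Nat.mul_mod, Nat.pow_mod, hq2]
      simp
    rw [this]
    constructor
    · intro h
      exact Or.inr h
    · rintro (h | h)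
      · exact absurd h hne
      · exact h

end Cfsg.Agent.Helper12.NP5989
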