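import Mathlib
import Cfsg.Prelude.Def_GeometricClasses
import Cfsg.Prelude.Def_Classical

set_option autoImplicit false

/-!
# CALL NP (helper13, row S5989), piece EXD (helper12)
-/

namespace Cfsg.Agent.Helper12.NP5989

open Module Cfsg Cfsg.Geo
open scoped MatrixGroups
open Matrix

universe u

variable {F : Type u} [Field F] [Fintype F]

/-- EXD: `ι₀² = -1`: `g = diag (ι₀, …, ι₀, -ι₀, …, -ι₀)`. -/
theorem np_ex_sq (d : ℕ) (hsq : IsSquare (-1 : F)) :
    ∃ g : GL (Fin d ⊕ Fin d) F, g ∈ Cfsg.isometryGroup F (Cfsg.quadFormPlus d F) ∧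
      (g : Matrix (Fin d ⊕ Fin d) (Fin d ⊕ Fin d) F) *
        (g : Matrix (Fin d ⊕ Fin d) (Fin d ⊕ Fin d) F) = -1 := by
  classical
  obtain ⟨t, ht⟩ := hsq
  let D : Fin d ⊕ Fin d → F := Sum.elim (fun _ => t) (fun _ => -t)
  have hDD : ∀ a, D a * D a = -1 := by
    rintro (a | a)
    · show t * t = -1
      exact ht.symm
    · show -t * -t = -1
      rw [neg_mul_neg]
      exact ht.symm
  have hmul : Matrix.diagonal D * Matrix.diagonal D = (-1 : Matrix (Fin d ⊕ Fin d) (Fin d ⊕ Fin d) F) := by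
    rw [Matrix.diagonal_mul_diagonal]
    have : (fun a => D a * D a) = fun _ => (-1 : F) := funext hDD
    rw [this]
    ext a b
    by_cases hab : a = b
    · subst hab
      simp
    · simp [Matrix.diagonal_apply_ne _ hab, Matrix.one_apply_ne hab]
  let g : GL (Fin d ⊕ Fin d) F :=
    ⟨Matrix.diagonal D, -Matrix.diagonal D, by rw [mul_neg, hmul, neg_neg],
      by rw [neg_mul, hmul, neg_neg]⟩
  refine ⟨g, ?_, hmul⟩
  intro u v
  show Cfsg.quadFormPlus d F (Matrix.diagonal D *ᵥ u) = Cfsg.quadFormPlus d F u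
  unfold Cfsg.quadFormPlus
  apply Finset.sum_congr rfl
  intro a _
  rw [Matrix.mulVec_diagonal, Matrix.mulVec_diagonal]
  show t * u (Sum.inl a) * (-t * u (Sum.inr a)) = u (Sum.inl a) * u (Sum.inr a)
  have : t * u (Sum.inl a) * (-t * u (Sum.inr a)) = -(t * t) * (u (Sum.inl a) * u (Sum.inr a)) := by
    ring
  rw [this, ← ht]
  ring

end Cfsg.Agent.Helper12.NP5989
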