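import Mathlib
import Cfsg.Prelude.Def_GeometricClasses
import Cfsg.Prelude.Def_Classical
import Cfsg.Agent.Helper45.Spinor
import Cfsg.Agent.Helper43.SingCount

set_option autoImplicit false

/-!
# CALL NP (helper13, row S5989), piece LEVCARD (helper12)
-/

namespace Cfsg.Agent.Helper12.NP5989

open Module Cfsg Cfsg.Geo
open scoped MatrixGroups
open Matrix

universe u

variable {F : Type u} [Field F] [Fintype F]

/-- LEVCARD: the number of `v = (x, y)` with `∑ x_j y_j = c`, `c ≠ 0`. -/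
theorem np_lev_card (d : ℕ) (hd : 1 ≤ d) (c : F) (hc : c ≠ 0) :
    Fintype.card (Cfsg.Agent.Helper45.Lev (Cfsg.quadFormPlus d F) c) =
      Fintype.card F ^ (d - 1) * (Fintype.card F ^ d - 1) := by
  classical
  have h := Cfsg.Agent.Helper43.SingCount.card_sing (F := F) d Unit (fun _ => -c)
  have e0 : Cfsg.Agent.Helper45.Lev (Cfsg.quadFormPlus d F) c ≃
      {v : Fin d ⊕ Fin d → F // Cfsg.quadFormPlus d F v = c} :=
    { toFun := fun x => ⟨x.val, x.prop⟩
      invFun := fun v => ⟨v.1, v.2⟩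
      left_inv := fun x => by cases x; rfl
      right_inv := fun v => rfl }
  have e : {v : Fin d ⊕ Fin d → F // Cfsg.quadFormPlus d F v = c} ≃
      {p : ((Fin d → F) × (Fin d → F)) × Unit // p.1.1 ⬝ᵥ p.1.2 + (-c : F) = 0} :=
    Equiv.subtypeEquiv ((Equiv.sumArrowEquivProdArrow (Fin d) (Fin d) F).trans
      (Equiv.prodPUnit _).symm) (fun v => by
        show Cfsg.quadFormPlus d F v = c ↔
          (fun i => v (Sum.inl i)) ⬝ᵥ (fun i => v (Sum.inr i)) + (-c) = 0
        rw [add_neg_eq_zero]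
        rfl)
  have h1 : Nat.card {w : Unit // (-c : F) = 0} = 0 := by
    have : IsEmpty {w : Unit // (-c : F) = 0} := ⟨fun w => hc (neg_eq_zero.mp w.2)⟩
    exact Nat.card_of_isEmpty
  have hU : Nat.card Unit = 1 := Nat.card_unique
  rw [h1, hU, ← Nat.card_congr e, ← Nat.card_congr e0, Nat.card_eq_fintype_card,
    Nat.card_eq_fintype_card] at h
  have hF : 0 < Fintype.card F := Fintype.card_pos
  apply Nat.eq_of_mul_eq_mul_left hF
  rw [h]
  obtain ⟨k, rfl⟩ : ∃ k, d = k + 1 := ⟨d - 1, by omega⟩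
  simp only [Nat.add_sub_cancel]
  ring

end Cfsg.Agent.Helper12.NP5989
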