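import Mathlib
import Cfsg.Prelude.Def_Perm

set_option autoImplicit false

namespace Cfsg.Agent.Helper12

open Cfsg

section NF

variable {F : Type*} [NearField F]

theorem nf_add_mul (a b c : F) : (a + b) * c = a * c + b * c := NearField.right_distrib a b c

theorem nf_mul_zero (a : F) : a * 0 = 0 := NearField.mul_zero a

theorem nf_zero_ne_one : (0 : F) ≠ 1 := NearField.zero_ne_one

theorem nf_zero_mul (c : F) : 0 * c = 0 := by
  have h := nf_add_mul (0 : F) 0 c
  rw [add_zero] at h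
  exact left_eq_add.mp h

theorem nf_neg_mul (a c : F) : (-a) * c = -(a * c) := by
  have h := nf_add_mul (-a) a c
  rw [neg_add_cancel, nf_zero_mul] at h
  exact eq_neg_of_add_eq_zero_left h.symm

theorem nf_sub_mul (a b c : F) : (a - b) * c = a * c - b * c := by
  rw [sub_eq_add_neg, nf_add_mul, nf_neg_mul, ← sub_eq_add_neg]

theorem nf_exists_inv {a : F} (ha : a ≠ 0) : ∃ b : F, a * b = 1 ∧ b * a = 1 :=
  NearField.exists_inv a ha

theorem nf_mul_ne_zero {a b : F} (ha : a ≠ 0) (hb : b ≠ 0) : a * b ≠ 0 := by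
  intro h
  obtain ⟨b', hb1, _⟩ := nf_exists_inv hb
  apply ha
  calc a = a * (b * b') := by rw [hb1, mul_one]
    _ = (a * b) * b' := (mul_assoc a b b').symm
    _ = 0 := by rw [h, nf_zero_mul]

theorem nf_inv_ne_zero {a b : F} (h : a * b = 1) : b ≠ 0 := by
  rintro rfl
  rw [nf_mul_zero] at h
  exact nf_zero_ne_one h

theorem nf_nsmul_mul (n : ℕ) (x c : F) : (n • x) * c = n • (x * c) := by
  induction n with
  | zero => rw [zero_nsmul, zero_nsmul, nf_zero_mul]
  | succ k ih => rw [succ_nsmul, succ_nsmul, nf_add_mul, ih]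

/-- The affine map `x ↦ x * a + b` of a near-field, as a permutation. -/
def affPerm (a a' b : F) (h1 : a * a' = 1) (h2 : a' * a = 1) : Equiv.Perm F where
  toFun x := x * a + b
  invFun y := (y + -b) * a'
  left_inv x := by
    simp only
    rw [add_neg_cancel_right, mul_assoc, h1, mul_one]
  right_inv y := by
    simp only
    rw [mul_assoc, h2, mul_one, neg_add_cancel_right]

theorem affPerm_apply (a a' b : F) (h1 : a * a' = 1) (h2 : a' * a = 1) (x : F) :
    affPerm a a' b h1 h2 x = x * a + b := rfl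

/-- The group of affine maps `x ↦ x * a + b`, `a ≠ 0`, of a near-field. -/
def affSubgroup (F : Type*) [NearField F] : Subgroup (Equiv.Perm F) where
  carrier := {σ | ∃ a b : F, a ≠ 0 ∧ ∀ x : F, σ x = x * a + b}
  one_mem' := ⟨1, 0, nf_zero_ne_one.symm, fun x => by simp⟩
  mul_mem' := by
    rintro σ τ ⟨a, b, ha, hσ⟩ ⟨c, d, hc, hτ⟩
    refine ⟨c * a, d * a + b, nf_mul_ne_zero hc ha, fun x => ?_⟩
    rw [Equiv.Perm.coe_mul, Function.comp_apply, hτ, hσ, nf_add_mul, mul_assoc, add_assoc]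
  inv_mem' := by
    rintro σ ⟨a, b, ha, hσ⟩
    obtain ⟨a', h1, h2⟩ := nf_exists_inv ha
    refine ⟨a', -(b * a'), nf_inv_ne_zero h1, fun y => ?_⟩
    apply σ.injective
    rw [Equiv.Perm.inv_def, Equiv.apply_symm_apply, hσ, nf_add_mul, nf_neg_mul, mul_assoc, mul_assoc, h2, mul_one,
      mul_one, neg_add_cancel_right]

theorem mem_affSubgroup (σ : Equiv.Perm F) :
    σ ∈ affSubgroup F ↔ ∃ a b : F, a ≠ 0 ∧ ∀ x : F, σ x = x * a + b := Iff.rfl

end NF

end Cfsg.Agent.Helper12
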