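import Mathlib
import Cfsg.Agent.Helper43.OTDefs
import Cfsg.Agent.Helper43.SingCount

/-!
# CALL OT (S5972), piece CNTSTD (helper12)

Singular vectors orthogonal to the standard totally singular `m`-frame.
-/

set_option autoImplicit false

namespace Cfsg.Agent.Helper12.OTCNTSTD

open Module Matrix

/-- CNTSTD: singular vectors orthogonal to the standard totally singular `m`-frame. -/
theorem ot_cnt_std (F : Type*) [Field F] [Fintype F] (d m : ℕ) (hmd : m ≤ d) :
    Nat.card {w : Unit ⊕ (Fin d ⊕ Fin d) → F // Cfsg.quadFormOdd d F w = 0 ∧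
      ∀ a : Fin d, (a : ℕ) < m → w (Sum.inr (Sum.inr a)) = 0} = Fintype.card F ^ (2 * d - m) := by
  classical
  obtain ⟨k, rfl⟩ := Nat.exists_eq_add_of_le hmd
  have e : {w : Unit ⊕ (Fin (m + k) ⊕ Fin (m + k)) → F // Cfsg.quadFormOdd (m + k) F w = 0 ∧
      ∀ a : Fin (m + k), (a : ℕ) < m → w (Sum.inr (Sum.inr a)) = 0} ≃
      (Fin m → F) × {p : ((Fin k → F) × (Fin k → F)) × F // p.1.1 ⬝ᵥ p.1.2 + p.2 ^ 2 = 0} :=
    { toFun := fun w => (fun a => w.1 (Sum.inr (Sum.inl (Fin.castAdd k a))),
        ⟨((fun b => w.1 (Sum.inr (Sum.inl (Fin.natAdd m b))),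
           fun b => w.1 (Sum.inr (Sum.inr (Fin.natAdd m b)))), w.1 (Sum.inl ())), by
          have h := w.2.1
          unfold Cfsg.quadFormOdd at h
          rw [Fin.sum_univ_add] at h
          have h0 : ∑ a : Fin m, w.1 (Sum.inr (Sum.inl (Fin.castAdd k a))) *
              w.1 (Sum.inr (Sum.inr (Fin.castAdd k a))) = 0 := by
            apply Finset.sum_eq_zero
            intro a _
            rw [w.2.2 (Fin.castAdd k a) (by simp), mul_zero]
          rw [h0, zero_add] at h
          show (fun b => w.1 (Sum.inr (Sum.inl (Fin.natAdd m b)))) ⬝ᵥ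
            (fun b => w.1 (Sum.inr (Sum.inr (Fin.natAdd m b)))) + w.1 (Sum.inl ()) ^ 2 = 0
          rw [dotProduct]
          linear_combination h⟩)
      invFun := fun t => ⟨Sum.elim (fun _ => t.2.1.2)
          (Sum.elim (Fin.append t.1 t.2.1.1.1) (Fin.append (0 : Fin m → F) t.2.1.1.2)), by
          constructor
          · unfold Cfsg.quadFormOdd
            rw [Fin.sum_univ_add]
            simp only [Sum.elim_inl, Sum.elim_inr, Fin.append_left, Fin.append_right,
              Pi.zero_apply, mul_zero, Finset.sum_const_zero, zero_add]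
            have h := t.2.2
            rw [dotProduct] at h
            linear_combination h
          · intro a ha
            simp only [Sum.elim_inr]
            have : a = Fin.castAdd k ⟨a, ha⟩ := Fin.ext rfl
            rw [this, Fin.append_left]
            rfl⟩
      left_inv := by
        intro w
        apply Subtype.ext
        funext j
        rcases j with ⟨⟩ | i | i
        · rfl
        · refine Fin.addCases (fun a => ?_) (fun b => ?_) i
          · simp
          · simp
        · refine Fin.addCases (fun a => ?_) (fun b => ?_) i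
          · simp [w.2.2 (Fin.castAdd k a) (by simp)]
          · simp
      right_inv := by
        rintro ⟨x1, ⟨⟨⟨x2, y2⟩, w0⟩, h⟩⟩
        simp }
  rw [Nat.card_congr e, Nat.card_prod, Nat.card_fun, Nat.card_fin]
  have h := Cfsg.Agent.Helper43.SingCount.card_sing (F := F) k F (fun w => w ^ 2)
  have h1 : Nat.card {w : F // w ^ 2 = 0} = 1 := by
    rw [Nat.card_eq_one_iff_unique]
    refine ⟨⟨fun a b => Subtype.ext ?_⟩, ⟨⟨0, by simp⟩⟩⟩
    rw [pow_eq_zero_iff (two_ne_zero) |>.mp a.2, pow_eq_zero_iff (two_ne_zero) |>.mp b.2]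
  rw [h1] at h
  have hq : 0 < Nat.card F := Nat.card_pos
  have hqk : 1 ≤ Nat.card F ^ k := Nat.one_le_pow _ _ hq
  have hN : Nat.card {p : ((Fin k → F) × (Fin k → F)) × F // p.1.1 ⬝ᵥ p.1.2 + p.2 ^ 2 = 0} =
      Nat.card F ^ (2 * k) := by
    have : Nat.card F * Nat.card {p : ((Fin k → F) × (Fin k → F)) × F //
        p.1.1 ⬝ᵥ p.1.2 + p.2 ^ 2 = 0} = Nat.card F * Nat.card F ^ (2 * k) := by
      rw [h]
      have h3 : Nat.card F ^ k - 1 + 1 = Nat.card F ^ k := Nat.sub_add_cancel hqk
      have e1 : Nat.card F ^ (k + 1) = Nat.card F ^ k * Nat.card F := pow_succ _ _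
      have e2 : Nat.card F ^ (2 * k) = Nat.card F ^ k * Nat.card F ^ k := by
        rw [two_mul, pow_add]
      rw [e1, e2]
      generalize Nat.card F ^ k - 1 = t at h3 ⊢
      rw [← h3]
      ring
    exact Nat.eq_of_mul_eq_mul_left hq this
  rw [hN, ← Nat.card_eq_fintype_card, ← pow_add]
  congr 1
  omega

end Cfsg.Agent.Helper12.OTCNTSTD
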