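import Mathlib
import Cfsg.Agent.Helper43.OTDefs
import Cfsg.Agent.Helper13.WittQuad

/-!
# CALL OT (S5972), piece WITT (helper12)

The isometry group of the standard odd quadratic form is transitive on totally singular frames.
-/

set_option autoImplicit false

namespace Cfsg.Agent.Helper12.OTWITT

open Module Cfsg.Agent.Helper43.OT

universe u

theorem otw_sing {F : Type*} [Field F] {V : Type*} [AddCommGroup V] [Module F V]
    (Q : QuadraticForm F V) {m : ℕ} (v : Fin m → V) (hs : ∀ a, Q (v a) = 0)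
    (hp : ∀ a b, QuadraticMap.polar Q (v a) (v b) = 0) (c : Fin m → F) (s : Finset (Fin m)) :
    Q (∑ a ∈ s, c a • v a) = 0 ∧
      ∀ b, QuadraticMap.polar Q (∑ a ∈ s, c a • v a) (v b) = 0 := by
  classical
  induction s using Finset.induction_on with
  | empty => simp
  | insert a s ha ih =>
    rw [Finset.sum_insert ha]
    constructor
    · have h1 : Q (c a • v a + ∑ x ∈ s, c x • v x) = Q (c a • v a) + Q (∑ x ∈ s, c x • v x) +
          QuadraticMap.polar Q (c a • v a) (∑ x ∈ s, c x • v x) := by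
        rw [QuadraticMap.polar]; ring
      rw [h1, ih.1, QuadraticMap.map_smul, hs, QuadraticMap.polar_smul_left,
        QuadraticMap.polar_comm, ih.2 a]
      simp
    · intro b
      rw [QuadraticMap.polar_add_left, QuadraticMap.polar_smul_left, hp, ih.2 b]
      simp

/-- WITT: the isometry group is transitive on totally singular frames. -/
theorem ot_witt (F : Type u) [Field F] [Fintype F] (h2 : (2 : F) ≠ 0) (d m : ℕ) (hmd : m ≤ d)
    (v : Fin m → (Unit ⊕ (Fin d ⊕ Fin d) → F)) (hv : LinearIndependent F v)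
    (hs : ∀ a, Cfsg.quadFormOdd d F (v a) = 0)
    (hp : ∀ a b, QuadraticMap.polar (Cfsg.quadFormOdd d F) (v a) (v b) = 0) :
    ∃ g : (Unit ⊕ (Fin d ⊕ Fin d) → F) ≃ₗ[F] (Unit ⊕ (Fin d ⊕ Fin d) → F),
      (∀ x, Cfsg.quadFormOdd d F (g x) = Cfsg.quadFormOdd d F x) ∧
      ∀ a : Fin m, g (Pi.single (Sum.inr (Sum.inl (Fin.castLE hmd a))) 1) = v a := by
  classical
  let Q := Cfsg.Agent.Helper43.oddQF d F
  let e : Fin m → (Unit ⊕ (Fin d ⊕ Fin d) → F) :=
    fun a => Pi.single (Sum.inr (Sum.inl (Fin.castLE hmd a))) 1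
  let X : Submodule F (Unit ⊕ (Fin d ⊕ Fin d) → F) :=
    { carrier := {x | x (Sum.inl ()) = 0 ∧ (∀ i, x (Sum.inr (Sum.inr i)) = 0) ∧
        ∀ i : Fin d, m ≤ (i : ℕ) → x (Sum.inr (Sum.inl i)) = 0}
      add_mem' := by
        rintro x y ⟨hx1, hx2, hx3⟩ ⟨hy1, hy2, hy3⟩
        refine ⟨by simp [hx1, hy1], fun i => by simp [hx2 i, hy2 i],
          fun i hi => by simp [hx3 i hi, hy3 i hi]⟩
      zero_mem' := ⟨rfl, fun _ => rfl, fun _ _ => rfl⟩
      smul_mem' := by
        rintro c x ⟨hx1, hx2, hx3⟩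
        refine ⟨by simp [hx1], fun i => by simp [hx2 i], fun i hi => by simp [hx3 i hi]⟩ }
  let f : (Unit ⊕ (Fin d ⊕ Fin d) → F) →ₗ[F] (Unit ⊕ (Fin d ⊕ Fin d) → F) :=
    ∑ a : Fin m, (LinearMap.proj (Sum.inr (Sum.inl (Fin.castLE hmd a)))).smulRight (v a)
  have hf : ∀ x, f x = ∑ a : Fin m, x (Sum.inr (Sum.inl (Fin.castLE hmd a))) • v a := by
    intro x
    simp [f, LinearMap.sum_apply]
  have hQX : ∀ x ∈ X, Q x = 0 := by
    rintro x ⟨hx1, hx2, hx3⟩
    show Cfsg.quadFormOdd d F x = 0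
    unfold Cfsg.quadFormOdd
    rw [hx1]
    simp [hx2]
  obtain ⟨g, hg, hgX⟩ := Cfsg.Agent.Helper13.witt_quad Q
    (Cfsg.Agent.Helper43.PrimeOrdO.oddQF_nondeg h2 d) X f
    (by
      intro x hx
      rw [hQX x hx, hf]
      exact (otw_sing Q v hs hp _ Finset.univ).1)
    (by
      rintro x hx h0
      rw [hf] at h0
      have hc := (Fintype.linearIndependent_iff.mp hv) _ h0
      obtain ⟨hx1, hx2, hx3⟩ := hx
      funext j
      rcases j with ⟨⟩ | i | i
      · exact hx1
      · by_cases hi : (i : ℕ) < m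
        · exact hc ⟨i, hi⟩
        · exact hx3 i (by omega)
      · exact hx2 i)
  refine ⟨g, hg, fun a => ?_⟩
  have heX : e a ∈ X := by
    refine ⟨by simp [e], fun i => by simp [e], fun i hi => ?_⟩
    show (Pi.single (Sum.inr (Sum.inl (Fin.castLE hmd a))) (1 : F) :
      Unit ⊕ (Fin d ⊕ Fin d) → F) (Sum.inr (Sum.inl i)) = 0
    rw [Pi.single_apply, if_neg]
    intro h
    have h3 := Sum.inl.inj (Sum.inr.inj h)
    rw [h3] at hi
    simp at hi
    omega
  rw [hgX (e a) heX, hf, Finset.sum_eq_single a]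
  · simp [e]
  · intro b _ hba
    have : (Pi.single (Sum.inr (Sum.inl (Fin.castLE hmd a))) (1 : F) :
      Unit ⊕ (Fin d ⊕ Fin d) → F) (Sum.inr (Sum.inl (Fin.castLE hmd b))) = 0 := by
      rw [Pi.single_apply, if_neg]
      intro h
      exact hba (Fin.castLE_injective hmd (Sum.inl.inj (Sum.inr.inj h)))
    show (Pi.single (Sum.inr (Sum.inl (Fin.castLE hmd a))) (1 : F) :
      Unit ⊕ (Fin d ⊕ Fin d) → F) (Sum.inr (Sum.inl (Fin.castLE hmd b))) • v b = 0
    rw [this, zero_smul]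
  · intro h
    exact absurd (Finset.mem_univ a) h

end Cfsg.Agent.Helper12.OTWITT
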