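import Mathlib
import Cfsg.Prelude.Def_Characters
import Cfsg.Prelude.Def_Perm
import Cfsg.Agent.Helper80.CharOrtho
import Cfsg.Agent.Helper15.CharInner
import Cfsg.Agent.Helper79.Basic
import Cfsg.Agent.Helper3.TwoTrans

/-!
# The permutation module by matrices (helper12)

Permutation matrices `pm Ω g`, the centraliser ring `cen G Ω`, and the isotypic idempotents
`proj Ω χ` of the complex permutation module of a finite group action.
-/

set_option autoImplicit false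

namespace Cfsg.Agent.Helper12

open scoped ComplexConjugate
open MulAction

section PermMod

variable {G : Type*} [Group G] [Fintype G] (Ω : Type*) [Fintype Ω] [DecidableEq Ω]
  [MulAction G Ω]

/-- The permutation matrix of `g`. -/
def pm (g : G) : Matrix Ω Ω ℂ := Matrix.of fun x y => if x = g • y then 1 else 0

variable {Ω}

theorem pm_apply (g : G) (x y : Ω) : pm Ω g x y = if x = g • y then 1 else 0 := rfl

theorem pm_one : pm Ω (1 : G) = 1 := by
  ext x y
  rw [pm_apply, one_smul, Matrix.one_apply]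

theorem mul_pm_apply (X : Matrix Ω Ω ℂ) (g : G) (x y : Ω) :
    (X * pm Ω g) x y = X x (g • y) := by
  rw [Matrix.mul_apply, Finset.sum_eq_single (g • y)]
  · rw [pm_apply, if_pos rfl, mul_one]
  · intro z _ hz
    rw [pm_apply, if_neg hz, mul_zero]
  · intro h
    exact absurd (Finset.mem_univ _) h

theorem pm_mul_apply (X : Matrix Ω Ω ℂ) (g : G) (x y : Ω) :
    (pm Ω g * X) x y = X (g⁻¹ • x) y := by
  rw [Matrix.mul_apply, Finset.sum_eq_single (g⁻¹ • x)]
  · rw [pm_apply, smul_inv_smul, if_pos rfl, one_mul]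
  · intro z _ hz
    have hne : ¬ x = g • z := by
      intro h
      apply hz
      rw [h, inv_smul_smul]
    rw [pm_apply, if_neg hne, zero_mul]
  · intro h
    exact absurd (Finset.mem_univ _) h

theorem pm_mul (g h : G) : pm Ω (g * h) = pm Ω g * pm Ω h := by
  ext x y
  rw [mul_pm_apply, pm_apply, pm_apply, mul_smul]

theorem pm_transpose (g : G) : (pm Ω g).transpose = pm Ω g⁻¹ := by
  ext x y
  rw [Matrix.transpose_apply, pm_apply, pm_apply]
  by_cases h : y = g • x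
  · rw [if_pos h, if_pos (by rw [h, inv_smul_smul])]
  · have h' : ¬ x = g⁻¹ • y := by
      intro h'
      apply h
      rw [h', smul_inv_smul]
    rw [if_neg h, if_neg h']

theorem pm_conjTranspose (g : G) : (pm Ω g).conjTranspose = pm Ω g⁻¹ := by
  ext x y
  rw [Matrix.conjTranspose_apply, pm_apply, pm_apply]
  by_cases h : y = g • x
  · rw [if_pos h, if_pos (by rw [h, inv_smul_smul]), star_one]
  · have h' : ¬ x = g⁻¹ • y := by
      intro h'
      apply h
      rw [h', smul_inv_smul]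
    rw [if_neg h, if_neg h', star_zero]

theorem trace_pm (g : G) : (pm Ω g).trace = (Nat.card (fixedBy Ω g) : ℂ) := by
  have h1 : (pm Ω g).trace = ∑ x : Ω, if g • x = x then (1 : ℂ) else 0 := by
    unfold Matrix.trace
    apply Finset.sum_congr rfl
    intro x _
    rw [Matrix.diag_apply, pm_apply]
    by_cases h : g • x = x
    · rw [if_pos h, if_pos h.symm]
    · rw [if_neg h, if_neg (fun h' => h h'.symm)]
  rw [h1, Finset.sum_boole]
  congr 1
  exact (Nat.subtype_card (Finset.univ.filter (fun x : Ω => g • x = x)) (fun x => by simp)).symm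

variable (G Ω) in
/-- The centraliser ring of the permutation matrices. -/
def cen : Submodule ℂ (Matrix Ω Ω ℂ) where
  carrier := {X | ∀ g : G, pm Ω g * X = X * pm Ω g}
  add_mem' := by
    intro X Y hX hY g
    rw [Matrix.mul_add, Matrix.add_mul, hX g, hY g]
  zero_mem' := by
    intro g
    rw [Matrix.mul_zero, Matrix.zero_mul]
  smul_mem' := by
    intro c X hX g
    rw [Matrix.mul_smul, Matrix.smul_mul, hX g]

theorem mem_cen {X : Matrix Ω Ω ℂ} :
    X ∈ cen G Ω ↔ ∀ g : G, pm Ω g * X = X * pm Ω g := Iff.rfl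

theorem mem_cen_iff {X : Matrix Ω Ω ℂ} :
    X ∈ cen G Ω ↔ ∀ (g : G) (x y : Ω), X (g • x) (g • y) = X x y := by
  constructor
  · intro h g x y
    have h1 := congrFun (congrFun (h g) (g • x)) y
    rw [pm_mul_apply, mul_pm_apply, inv_smul_smul] at h1
    exact h1.symm
  · intro h g
    ext x y
    rw [pm_mul_apply, mul_pm_apply]
    have h1 := h g (g⁻¹ • x) y
    rw [smul_inv_smul] at h1
    exact h1.symm

theorem mul_mem_cen {X Y : Matrix Ω Ω ℂ} (hX : X ∈ cen G Ω) (hY : Y ∈ cen G Ω) :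
    X * Y ∈ cen G Ω := by
  intro g
  rw [← Matrix.mul_assoc, hX g, Matrix.mul_assoc, hY g, Matrix.mul_assoc]

theorem one_mem_cen : (1 : Matrix Ω Ω ℂ) ∈ cen G Ω := by
  intro g
  rw [Matrix.mul_one, Matrix.one_mul]

theorem finrank_cen_le :
    Module.finrank ℂ (cen G Ω) ≤ Nat.card (orbitRel.Quotient G (Ω × Ω)) := by
  classical
  have : Fintype (orbitRel.Quotient G (Ω × Ω)) := Fintype.ofFinite _
  let f : cen G Ω →ₗ[ℂ] (orbitRel.Quotient G (Ω × Ω) → ℂ) :=
    { toFun := fun X q => (X : Matrix Ω Ω ℂ) q.out.1 q.out.2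
      map_add' := fun X Y => rfl
      map_smul' := fun c X => rfl }
  have hf : Function.Injective f := by
    intro X Y h
    apply Subtype.ext
    ext x y
    have hq := congrFun h (Quotient.mk'' (x, y))
    obtain ⟨g, hg⟩ : (Quotient.mk'' (x, y) : orbitRel.Quotient G (Ω × Ω)).out ∈ orbit G (x, y) :=
      Quotient.exact' (s₁ := orbitRel G (Ω × Ω)) (Quotient.out_eq' _)
    have h1 : g • x = (Quotient.mk'' (x, y) : orbitRel.Quotient G (Ω × Ω)).out.1 :=
      congrArg Prod.fst hg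
    have h2 : g • y = (Quotient.mk'' (x, y) : orbitRel.Quotient G (Ω × Ω)).out.2 :=
      congrArg Prod.snd hg
    have hX := (mem_cen_iff.mp X.2) g x y
    have hY := (mem_cen_iff.mp Y.2) g x y
    rw [h1, h2] at hX hY
    rw [← hX, ← hY]
    exact hq
  have h1 := LinearMap.finrank_le_finrank_of_injective hf
  rw [Module.finrank_fintype_fun_eq_card] at h1
  rwa [Nat.card_eq_fintype_card]

/-- `⟨π, π⟩` is the number of orbits on pairs. -/
theorem classInner_perm_self :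
    Cfsg.classInner (fun g : G => (Nat.card (fixedBy Ω g) : ℂ))
      (fun g : G => (Nat.card (fixedBy Ω g) : ℂ)) =
      (Nat.card (orbitRel.Quotient G (Ω × Ω)) : ℂ) := by
  unfold Cfsg.classInner
  have h := Cfsg.Agent.Helper3.sum_natCard_fixedBy G (Ω × Ω)
  simp only [Cfsg.Agent.Helper3.card_fixedBy_prod] at h
  have hG : (Nat.card G : ℂ) ≠ 0 := by exact_mod_cast Nat.card_pos.ne'
  have h2 : ∑ g : G, (Nat.card (fixedBy Ω g) : ℂ) * conj (Nat.card (fixedBy Ω g) : ℂ) =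
      (Nat.card (orbitRel.Quotient G (Ω × Ω)) : ℂ) * (Nat.card G : ℂ) := by
    simp only [Complex.conj_natCast]
    exact_mod_cast h
  rw [h2]
  field_simp

variable (Ω) in
/-- The matrix of the isotypic projection of the permutation module attached to `χ`. -/
noncomputable def proj (χ : G → ℂ) : Matrix Ω Ω ℂ :=
  (χ 1 / (Fintype.card G : ℂ)) • ∑ g : G, χ g⁻¹ • pm Ω g

theorem proj_mem_cen {χ : G → ℂ} (hχ : Cfsg.IsClassFunction G χ) : proj Ω χ ∈ cen G Ω := by
  intro h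
  unfold proj
  rw [Matrix.mul_smul, Matrix.smul_mul]
  congr 1
  rw [Finset.mul_sum, Finset.sum_mul]
  apply Fintype.sum_equiv (MulAut.conj h).toEquiv
  intro g
  show pm Ω h * (χ g⁻¹ • pm Ω g) = (χ (h * g * h⁻¹)⁻¹ • pm Ω (h * g * h⁻¹)) * pm Ω h
  rw [Matrix.mul_smul, Matrix.smul_mul, ← pm_mul, ← pm_mul]
  have e1 : (h * g * h⁻¹)⁻¹ = h * g⁻¹ * h⁻¹ := by group
  have e2 : h * g * h⁻¹ * h = h * g := by group
  rw [e1, hχ, e2]

theorem proj_mul_proj (χ ψ : Cfsg.IrrCharacter G) :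
    proj Ω (χ : G → ℂ) * proj Ω (ψ : G → ℂ) = if χ = ψ then proj Ω (χ : G → ℂ) else 0 := by
  classical
  have hconv : ∀ k : G, ∑ g : G, (χ : G → ℂ) g⁻¹ * (ψ : G → ℂ) (k⁻¹ * g) =
      if χ = ψ then (Fintype.card G : ℂ) * (ψ : G → ℂ) k⁻¹ / (ψ : G → ℂ) 1 else 0 := by
    intro k
    have h := Cfsg.Agent.Helper80.irr_conv χ ψ k⁻¹
    have h2 : ∑ g : G, (χ : G → ℂ) g⁻¹ * (ψ : G → ℂ) (k⁻¹ * g) =
        ∑ y : G, (χ : G → ℂ) y⁻¹ * (ψ : G → ℂ) (y * k⁻¹) := by
      apply Finset.sum_congr rfl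
      intro g _
      rw [Cfsg.Agent.Helper79.isCharacter_mul_comm (Cfsg.Agent.Helper79.irr_isCharacter ψ)]
    rw [h2, h]
  have hS : (∑ g : G, (χ : G → ℂ) g⁻¹ • pm Ω g) * (∑ h : G, (ψ : G → ℂ) h⁻¹ • pm Ω h) =
      ∑ k : G, (∑ g : G, (χ : G → ℂ) g⁻¹ * (ψ : G → ℂ) (k⁻¹ * g)) • pm Ω k := by
    rw [Finset.sum_mul]
    have hL : ∀ g : G, ((χ : G → ℂ) g⁻¹ • pm Ω g) * (∑ h : G, (ψ : G → ℂ) h⁻¹ • pm Ω h) =
        ∑ k : G, ((χ : G → ℂ) g⁻¹ * (ψ : G → ℂ) (k⁻¹ * g)) • pm Ω k := by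
      intro g
      rw [Finset.mul_sum]
      apply Fintype.sum_equiv (Equiv.mulLeft g)
      intro h
      show ((χ : G → ℂ) g⁻¹ • pm Ω g) * ((ψ : G → ℂ) h⁻¹ • pm Ω h) =
        ((χ : G → ℂ) g⁻¹ * (ψ : G → ℂ) ((g * h)⁻¹ * g)) • pm Ω (g * h)
      have e : (g * h)⁻¹ * g = h⁻¹ := by group
      rw [e, Matrix.smul_mul, Matrix.mul_smul, smul_smul, ← pm_mul]
    simp_rw [hL, Finset.sum_smul]
    exact Finset.sum_comm
  unfold proj
  rw [Matrix.smul_mul, Matrix.mul_smul, smul_smul, hS]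
  simp_rw [hconv]
  by_cases hχψ : χ = ψ
  · simp only [if_pos hχψ]
    subst hχψ
    rw [Finset.smul_sum, Finset.smul_sum]
    apply Finset.sum_congr rfl
    intro k _
    rw [smul_smul, smul_smul]
    congr 1
    have h1 : (χ : G → ℂ) 1 ≠ 0 := Cfsg.Agent.Helper80.irr_one_ne_zero χ
    have hG : (Fintype.card G : ℂ) ≠ 0 := by exact_mod_cast Fintype.card_ne_zero
    field_simp
  · simp only [if_neg hχψ, zero_smul, Finset.sum_const_zero, smul_zero]

theorem proj_mul_self (χ : Cfsg.IrrCharacter G) :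
    proj Ω (χ : G → ℂ) * proj Ω (χ : G → ℂ) = proj Ω (χ : G → ℂ) := by
  rw [proj_mul_proj, if_pos rfl]

theorem proj_mul_of_ne {χ ψ : Cfsg.IrrCharacter G} (h : χ ≠ ψ) :
    proj Ω (χ : G → ℂ) * proj Ω (ψ : G → ℂ) = 0 := by
  rw [proj_mul_proj, if_neg h]

theorem trace_mul_proj (X : Matrix Ω Ω ℂ) (χ : G → ℂ) :
    (X * proj Ω χ).trace =
      χ 1 * ((Fintype.card G : ℂ)⁻¹ * ∑ g : G, χ g⁻¹ * (X * pm Ω g).trace) := by
  unfold proj
  rw [Matrix.mul_smul, Matrix.trace_smul, Finset.mul_sum, Matrix.trace_sum, smul_eq_mul,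
    div_eq_mul_inv, mul_assoc]
  congr 2
  apply Finset.sum_congr rfl
  intro g _
  rw [Matrix.mul_smul, Matrix.trace_smul, smul_eq_mul]

theorem trace_proj {χ : G → ℂ} (hχ : Cfsg.IsCharacter G χ) :
    (proj Ω χ).trace = χ 1 * Cfsg.classInner (fun g : G => (Nat.card (fixedBy Ω g) : ℂ)) χ := by
  have h := trace_mul_proj (1 : Matrix Ω Ω ℂ) χ
  rw [Matrix.one_mul] at h
  rw [h]
  unfold Cfsg.classInner
  rw [Nat.card_eq_fintype_card]
  congr 2
  apply Finset.sum_congr rfl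
  intro g _
  rw [Matrix.one_mul, trace_pm, Cfsg.Agent.Helper80.isCharacter_inv hχ, mul_comm]

theorem sum_proj [Fintype (Cfsg.IrrCharacter G)] :
    ∑ χ : Cfsg.IrrCharacter G, proj Ω (χ : G → ℂ) = 1 := by
  classical
  unfold proj
  simp_rw [Finset.smul_sum, smul_smul]
  rw [Finset.sum_comm]
  simp_rw [← Finset.sum_smul]
  have hG : (Fintype.card G : ℂ) ≠ 0 := by exact_mod_cast Fintype.card_ne_zero
  have h : ∀ g : G, ∑ χ : Cfsg.IrrCharacter G,
      (χ : G → ℂ) 1 / (Fintype.card G : ℂ) * (χ : G → ℂ) g⁻¹ = if g = 1 then 1 else 0 := by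
    intro g
    have h1 := Cfsg.Agent.Helper80.irr_sum_degree_mul (G := G) g⁻¹
    have h2 : ∑ χ : Cfsg.IrrCharacter G,
        (χ : G → ℂ) 1 / (Fintype.card G : ℂ) * (χ : G → ℂ) g⁻¹ =
        (Fintype.card G : ℂ)⁻¹ * ∑ χ : Cfsg.IrrCharacter G, (χ : G → ℂ) 1 * (χ : G → ℂ) g⁻¹ := by
      rw [Finset.mul_sum]
      apply Finset.sum_congr rfl
      intro χ _
      ring
    rw [h2, h1]
    by_cases hg : g = 1
    · rw [if_pos hg, if_pos (by rw [hg, inv_one]), inv_mul_cancel₀ hG]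
    · rw [if_neg hg, if_neg (by rwa [inv_eq_one]), mul_zero]
  simp_rw [h]
  rw [Finset.sum_eq_single 1]
  · rw [if_pos rfl, one_smul, pm_one]
  · intro g _ hg
    rw [if_neg hg, zero_smul]
  · intro h
    exact absurd (Finset.mem_univ _) h

theorem proj_conjTranspose {χ : G → ℂ} (hχ : Cfsg.IsCharacter G χ) :
    (proj Ω χ).conjTranspose = proj Ω χ := by
  unfold proj
  rw [Matrix.conjTranspose_smul, Matrix.conjTranspose_sum]
  have h1 : star (χ 1 / (Fintype.card G : ℂ)) = χ 1 / (Fintype.card G : ℂ) := by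
    have h2 := Cfsg.Agent.Helper80.isCharacter_inv hχ 1
    rw [inv_one] at h2
    rw [star_div₀, Complex.star_def, ← h2, Complex.conj_natCast]
  rw [h1]
  congr 1
  apply Fintype.sum_equiv (Equiv.inv G)
  intro g
  show (χ g⁻¹ • pm Ω g).conjTranspose = χ (g⁻¹)⁻¹ • pm Ω g⁻¹
  rw [Matrix.conjTranspose_smul, pm_conjTranspose, inv_inv, Complex.star_def,
    ← Cfsg.Agent.Helper80.isCharacter_inv hχ, inv_inv]

theorem proj_transpose {χ : G → ℂ} (hχ : Cfsg.IsCharacter G χ) :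
    (proj Ω χ).transpose = proj Ω (fun g => conj (χ g)) := by
  unfold proj
  beta_reduce
  rw [Matrix.transpose_smul, Matrix.transpose_sum]
  have h2 := Cfsg.Agent.Helper80.isCharacter_inv hχ 1
  rw [inv_one] at h2
  rw [← h2]
  congr 1
  apply Fintype.sum_equiv (Equiv.inv G)
  intro g
  show (χ g⁻¹ • pm Ω g).transpose = conj (χ (g⁻¹)⁻¹) • pm Ω g⁻¹
  rw [Matrix.transpose_smul, pm_transpose, inv_inv, ← Cfsg.Agent.Helper80.isCharacter_inv hχ]

open scoped ComplexOrder in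
theorem proj_eq_zero (χ : Cfsg.IrrCharacter G)
    (h : Cfsg.classInner (fun g : G => (Nat.card (fixedBy Ω g) : ℂ)) (χ : G → ℂ) = 0) :
    proj Ω (χ : G → ℂ) = 0 := by
  have hχ := Cfsg.Agent.Helper79.irr_isCharacter χ
  have ht : (proj Ω (χ : G → ℂ)).trace = 0 := by rw [trace_proj hχ, h, mul_zero]
  have h2 : ((proj Ω (χ : G → ℂ)).conjTranspose * proj Ω (χ : G → ℂ)).trace = 0 := by
    rw [proj_conjTranspose hχ, proj_mul_self, ht]
  exact Matrix.trace_conjTranspose_mul_self_eq_zero_iff.mp h2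

theorem proj_ne_zero (χ : Cfsg.IrrCharacter G)
    (h : Cfsg.classInner (fun g : G => (Nat.card (fixedBy Ω g) : ℂ)) (χ : G → ℂ) ≠ 0) :
    proj Ω (χ : G → ℂ) ≠ 0 := by
  intro h0
  have hχ := Cfsg.Agent.Helper79.irr_isCharacter χ
  have ht := trace_proj (Ω := Ω) hχ
  rw [h0, Matrix.trace_zero] at ht
  rcases mul_eq_zero.mp ht.symm with h1 | h1
  · exact Cfsg.Agent.Helper80.irr_one_ne_zero χ h1
  · exact h h1

end PermMod

end Cfsg.Agent.Helper12
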