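import Mathlib
import Cfsg.Agent.Helper12.PermMod
import Cfsg.Agent.Helper75.Clifford

/-!
# The centraliser ring of a permutation module (helper12)

* `toMatrix'_permRep`, `permRep_character`: bridge between `Cfsg.permRep` and the permutation
  matrices `pm`.
* `mem_invariants_iff_cen`: equivariant endomorphisms are the matrices of `cen G Ω`.
* `mem_cen_multFree`: for a multiplicity-free permutation character every element of the
  centraliser ring is a linear combination of the isotypic idempotents `proj Ω χ`.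
* `multFree_of_comm`: a commutative centraliser ring forces a multiplicity-free character.
-/

set_option autoImplicit false

namespace Cfsg.Agent.Helper12

open scoped ComplexConjugate
open MulAction

section PermMod2

variable {G : Type*} [Group G] [Fintype G] {Ω : Type*} [Fintype Ω] [DecidableEq Ω]
  [MulAction G Ω]

theorem toMatrix'_permRep (g : G) :
    LinearMap.toMatrix' (Cfsg.permRep ℂ G Ω g) = pm Ω g := by
  ext x y
  rw [LinearMap.toMatrix'_apply, pm_apply]
  show (Pi.single y (1 : ℂ) : Ω → ℂ) (g⁻¹ • x) = _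
  rw [Pi.single_apply]
  by_cases h : x = g • y
  · rw [if_pos h, if_pos (by rw [h, inv_smul_smul])]
  · rw [if_neg h, if_neg (fun h' => h (by rw [← h', smul_inv_smul]))]

theorem toLin'_pm (g : G) : Matrix.toLin' (pm Ω g) = Cfsg.permRep ℂ G Ω g := by
  rw [← toMatrix'_permRep, Matrix.toLin'_toMatrix']

theorem permRep_character :
    (Cfsg.permRep ℂ G Ω).character = fun g : G => (Nat.card (fixedBy Ω g) : ℂ) := by
  funext g
  show LinearMap.trace ℂ (Ω → ℂ) (Cfsg.permRep ℂ G Ω g) = _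
  rw [← toLin'_pm, Matrix.trace_toLin'_eq, trace_pm]

theorem perm_isCharacter :
    Cfsg.IsCharacter G (fun g : G => (Nat.card (fixedBy Ω g) : ℂ)) := by
  rw [← permRep_character]
  exact Cfsg.Agent.Helper80.rep_isCharacter _

theorem mem_invariants_iff_comm (S : (Ω → ℂ) →ₗ[ℂ] (Ω → ℂ)) :
    S ∈ ((Cfsg.permRep ℂ G Ω).linHom (Cfsg.permRep ℂ G Ω)).invariants ↔
      ∀ g : G, S ∘ₗ Cfsg.permRep ℂ G Ω g = Cfsg.permRep ℂ G Ω g ∘ₗ S := by
  rw [Representation.mem_invariants]
  have h := Representation.mem_linHom_invariants_iff_isIntertwining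
    (ρ := Cfsg.permRep ℂ G Ω) (σ := Cfsg.permRep ℂ G Ω) S
  constructor
  · intro hS g
    exact LinearMap.ext ((h.mp hS).isIntertwining g)
  · intro hS
    exact h.mpr ⟨fun g v => LinearMap.congr_fun (hS g) v⟩

theorem mem_invariants_iff_cen (S : (Ω → ℂ) →ₗ[ℂ] (Ω → ℂ)) :
    S ∈ ((Cfsg.permRep ℂ G Ω).linHom (Cfsg.permRep ℂ G Ω)).invariants ↔
      LinearMap.toMatrix' S ∈ cen G Ω := by
  rw [mem_invariants_iff_comm, mem_cen]
  constructor
  · intro h g
    rw [← toMatrix'_permRep, ← LinearMap.toMatrix'_comp, ← LinearMap.toMatrix'_comp, h g]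
  · intro h g
    apply LinearMap.toMatrix'.injective
    rw [LinearMap.toMatrix'_comp, LinearMap.toMatrix'_comp, toMatrix'_permRep, h g]

theorem proj_comm (χ ψ : Cfsg.IrrCharacter G) :
    proj Ω (χ : G → ℂ) * proj Ω (ψ : G → ℂ) = proj Ω (ψ : G → ℂ) * proj Ω (χ : G → ℂ) := by
  by_cases h : χ = ψ
  · rw [h]
  · rw [proj_mul_of_ne h, proj_mul_of_ne (fun h' => h h'.symm)]

/-- For a multiplicity-free permutation character, the centraliser ring is spanned by the
isotypic idempotents. -/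
theorem cen_eq_span_of_multFree [Fintype (Cfsg.IrrCharacter G)]
    (hmf : ∀ χ : G → ℂ, Cfsg.IsIrrCharacter G χ →
      Cfsg.classInner (fun g : G => (Nat.card (fixedBy Ω g) : ℂ)) χ = 0 ∨
      Cfsg.classInner (fun g : G => (Nat.card (fixedBy Ω g) : ℂ)) χ = 1) :
    cen G Ω =
      Submodule.span ℂ (Set.range (fun χ : Cfsg.IrrCharacter G => proj Ω (χ : G → ℂ))) := by
  classical
  set m : Cfsg.IrrCharacter G → ℂ := fun χ =>
    Cfsg.classInner (fun g : G => (Nat.card (fixedBy Ω g) : ℂ)) (χ : G → ℂ) with hm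
  -- the family of nonzero idempotents
  let P : {χ : Cfsg.IrrCharacter G // m χ = 1} → Matrix Ω Ω ℂ := fun χ => proj Ω (χ.1 : G → ℂ)
  have hPne : ∀ j, P j ≠ 0 := by
    intro j
    apply proj_ne_zero
    have h1 : Cfsg.classInner (fun g : G => (Nat.card (fixedBy Ω g) : ℂ)) (j.1 : G → ℂ) = 1 :=
      j.2
    rw [h1]
    exact one_ne_zero
  have hli : LinearIndependent ℂ P := by
    rw [linearIndependent_iff']
    intro s c hc j hj
    have h1 : (∑ i ∈ s, c i • P i) * P j = c j • P j := by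
      rw [Finset.sum_mul, Finset.sum_eq_single j]
      · rw [Matrix.smul_mul]
        congr 1
        exact proj_mul_self j.1
      · intro i _ hij
        rw [Matrix.smul_mul]
        have h2 : P i * P j = 0 := proj_mul_of_ne (fun h => hij (Subtype.ext h))
        rw [h2, smul_zero]
      · intro h
        exact absurd hj h
    rw [hc, Matrix.zero_mul] at h1
    rcases smul_eq_zero.mp h1.symm with h2 | h2
    · exact h2
    · exact absurd h2 (hPne j)
  have hle1 : Submodule.span ℂ (Set.range P) ≤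
      Submodule.span ℂ (Set.range (fun χ : Cfsg.IrrCharacter G => proj Ω (χ : G → ℂ))) := by
    apply Submodule.span_mono
    rintro _ ⟨j, rfl⟩
    exact ⟨j.1, rfl⟩
  have hle2 : Submodule.span ℂ (Set.range (fun χ : Cfsg.IrrCharacter G => proj Ω (χ : G → ℂ)))
      ≤ cen G Ω := by
    rw [Submodule.span_le]
    rintro _ ⟨χ, rfl⟩
    exact proj_mem_cen
      (Cfsg.Agent.Helper79.isCharacter_isClassFunction (Cfsg.Agent.Helper79.irr_isCharacter χ))
  -- dimension count
  have hcard : Nat.card (orbitRel.Quotient G (Ω × Ω)) =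
      Fintype.card {χ : Cfsg.IrrCharacter G // m χ = 1} := by
    have h1 := classInner_perm_self (G := G) (Ω := Ω)
    have hcl : Cfsg.IsClassFunction G (fun g : G => (Nat.card (fixedBy Ω g) : ℂ)) :=
      Cfsg.Agent.Helper79.isCharacter_isClassFunction perm_isCharacter
    rw [Cfsg.Agent.Helper15.classInner_eq_sum hcl] at h1
    have h2 : ∀ χ : Cfsg.IrrCharacter G, m χ * conj (m χ) = if m χ = 1 then 1 else 0 := by
      intro χ
      rcases hmf χ.1 χ.2 with h0 | h0
      · have h3 : m χ = 0 := h0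
        rw [h3, zero_mul, if_neg zero_ne_one]
      · have h3 : m χ = 1 := h0
        rw [h3, if_pos rfl, map_one, mul_one]
    have h3 : ∑ χ : Cfsg.IrrCharacter G, m χ * conj (m χ) =
        (Fintype.card {χ : Cfsg.IrrCharacter G // m χ = 1} : ℂ) := by
      simp_rw [h2]
      rw [Finset.sum_boole, Fintype.card_subtype]
    rw [h3] at h1
    exact_mod_cast h1.symm
  have hfin : Module.finrank ℂ (cen G Ω) ≤ Module.finrank ℂ (Submodule.span ℂ (Set.range P)) := by
    rw [finrank_span_eq_card hli, ← hcard]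
    exact finrank_cen_le
  have heq : Submodule.span ℂ (Set.range P) = cen G Ω :=
    Submodule.eq_of_le_of_finrank_le (hle1.trans hle2) hfin
  apply le_antisymm
  · rw [← heq]
    exact hle1
  · exact hle2

theorem mem_cen_multFree [Fintype (Cfsg.IrrCharacter G)]
    (hmf : ∀ χ : G → ℂ, Cfsg.IsIrrCharacter G χ →
      Cfsg.classInner (fun g : G => (Nat.card (fixedBy Ω g) : ℂ)) χ = 0 ∨
      Cfsg.classInner (fun g : G => (Nat.card (fixedBy Ω g) : ℂ)) χ = 1)
    {X : Matrix Ω Ω ℂ} (hX : X ∈ cen G Ω) :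
    ∃ c : Cfsg.IrrCharacter G → ℂ, X = ∑ χ : Cfsg.IrrCharacter G, c χ • proj Ω (χ : G → ℂ) := by
  rw [cen_eq_span_of_multFree hmf, Submodule.mem_span_range_iff_exists_fun] at hX
  obtain ⟨c, hc⟩ := hX
  exact ⟨c, hc.symm⟩

/-- A multiplicity-free permutation character has a commutative centraliser ring. -/
theorem cen_comm_of_multFree
    (hmf : ∀ χ : G → ℂ, Cfsg.IsIrrCharacter G χ →
      Cfsg.classInner (fun g : G => (Nat.card (fixedBy Ω g) : ℂ)) χ = 0 ∨
      Cfsg.classInner (fun g : G => (Nat.card (fixedBy Ω g) : ℂ)) χ = 1)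
    {X Y : Matrix Ω Ω ℂ} (hX : X ∈ cen G Ω) (hY : Y ∈ cen G Ω) : X * Y = Y * X := by
  classical
  letI := Fintype.ofFinite (Cfsg.IrrCharacter G)
  obtain ⟨c, rfl⟩ := mem_cen_multFree hmf hX
  obtain ⟨d, rfl⟩ := mem_cen_multFree hmf hY
  have h : Commute (∑ χ : Cfsg.IrrCharacter G, c χ • proj Ω (χ : G → ℂ))
      (∑ χ : Cfsg.IrrCharacter G, d χ • proj Ω (χ : G → ℂ)) := by
    apply Commute.sum_left
    intro i _
    apply Commute.sum_right
    intro j _
    have h0 : Commute (proj Ω (i : G → ℂ)) (proj Ω (j : G → ℂ)) := proj_comm i j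
    exact (Commute.smul_left h0 (c i)).smul_right (d j)
  exact h

section NotComm

variable {H : Type*} [Group H] [Fintype H]
  {V W : Type*} [AddCommGroup V] [Module ℂ V] [FiniteDimensional ℂ V]
  [AddCommGroup W] [Module ℂ W]

/-- Maschke by averaging: an injective intertwining map has an equivariant left inverse. -/
theorem exists_equivariant_leftInverse (ρ : Representation ℂ H V) (σ : Representation ℂ H W)
    (φ : V →ₗ[ℂ] W) (hφ : ∀ (g : H) (v : V), φ (ρ g v) = σ g (φ v))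
    (hinj : Function.Injective φ) :
    ∃ ψ : W →ₗ[ℂ] V, (∀ (g : H) (w : W), ψ (σ g w) = ρ g (ψ w)) ∧ ∀ v : V, ψ (φ v) = v := by
  obtain ⟨ψ₀, hψ₀⟩ := LinearMap.exists_leftInverse_of_injective φ (LinearMap.ker_eq_bot.mpr hinj)
  have hψ₀' : ∀ v : V, ψ₀ (φ v) = v := fun v => LinearMap.congr_fun hψ₀ v
  have hH : (Fintype.card H : ℂ) ≠ 0 := by exact_mod_cast Fintype.card_ne_zero
  refine ⟨(Fintype.card H : ℂ)⁻¹ • ∑ g : H, ρ g ∘ₗ ψ₀ ∘ₗ σ g⁻¹, ?_, ?_⟩
  · intro h w
    simp only [LinearMap.smul_apply, LinearMap.sum_apply, LinearMap.comp_apply, map_smul,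
      map_sum]
    congr 1
    symm
    apply Fintype.sum_equiv (Equiv.mulLeft h)
    intro g
    show ρ h (ρ g (ψ₀ (σ g⁻¹ w))) = ρ (h * g) (ψ₀ (σ (h * g)⁻¹ (σ h w)))
    have e1 : σ (h * g)⁻¹ (σ h w) = σ g⁻¹ w := by
      rw [← Module.End.mul_apply, ← map_mul]
      congr 2
      group
    rw [e1, map_mul, Module.End.mul_apply]
  · intro v
    simp only [LinearMap.smul_apply, LinearMap.sum_apply, LinearMap.comp_apply]
    have h1 : ∀ g : H, ρ g (ψ₀ (σ g⁻¹ (φ v))) = v := by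
      intro g
      rw [← hφ, hψ₀', ← Module.End.mul_apply, ← map_mul, mul_inv_cancel, map_one,
        Module.End.one_apply]
    simp_rw [h1]
    rw [Finset.sum_const, Finset.card_univ, ← Nat.cast_smul_eq_nsmul ℂ, smul_smul,
      inv_mul_cancel₀ hH, one_smul]

/-- If an irreducible representation occurs at least twice in `σ`, the equivariant
endomorphisms of `σ` do not commute. -/
theorem exists_not_comm_of_finrank (ρ : Representation ℂ H V) (σ : Representation ℂ H W)
    [ρ.IsIrreducible]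
    (h : 1 < Module.finrank ℂ (Representation.IntertwiningMap ρ σ)) :
    ∃ S T : W →ₗ[ℂ] W, (∀ g, S ∘ₗ σ g = σ g ∘ₗ S) ∧ (∀ g, T ∘ₗ σ g = σ g ∘ₗ T) ∧
      S ∘ₗ T ≠ T ∘ₗ S := by
  haveI : Module.Finite ℂ (Representation.IntertwiningMap ρ σ) :=
    Module.finite_of_finrank_pos (Nat.zero_lt_one.trans h)
  obtain ⟨φ₁, hφ₁⟩ : ∃ x : Representation.IntertwiningMap ρ σ, x ≠ 0 :=
    Module.finrank_pos_iff_exists_ne_zero.mp (Nat.zero_lt_one.trans h)
  obtain ⟨φ₂, hli⟩ := exists_linearIndependent_pair_of_one_lt_finrank h hφ₁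
  have hinj : Function.Injective φ₁ :=
    (Representation.IsIrreducible.injective_or_eq_zero φ₁).resolve_right hφ₁
  obtain ⟨ψ, hψσ, hψφ0⟩ := exists_equivariant_leftInverse ρ σ φ₁.toLinearMap
    (fun g v => Representation.IntertwiningMap.isIntertwining ρ σ φ₁ g v) hinj
  have hψφ : ∀ v : V, ψ (φ₁ v) = v := hψφ0
  have i₁ : ∀ (g : H) (v : V), φ₁ (ρ g v) = σ g (φ₁ v) :=
    fun g v => Representation.IntertwiningMap.isIntertwining ρ σ φ₁ g v
  have i₂ : ∀ (g : H) (v : V), φ₂ (ρ g v) = σ g (φ₂ v) :=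
    fun g v => Representation.IntertwiningMap.isIntertwining ρ σ φ₂ g v
  -- Schur
  have hT : ∀ g, (ψ ∘ₗ φ₂.toLinearMap : Module.End ℂ V) * ρ g =
      ρ g * (ψ ∘ₗ φ₂.toLinearMap : Module.End ℂ V) := by
    intro g
    apply LinearMap.ext
    intro v
    show ψ (φ₂ (ρ g v)) = ρ g (ψ (φ₂ v))
    rw [i₂, hψσ]
  obtain ⟨c, hc⟩ := Cfsg.Agent.Helper80.schur_scalar ρ _ hT
  have hc' : ∀ v : V, ψ (φ₂ v) = c • v := fun v => LinearMap.congr_fun hc v
  -- the corrected second map
  have hne : φ₂ - c • φ₁ ≠ 0 := by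
    intro h0
    have h1 := (LinearIndependent.pair_iff' hφ₁).mp hli c
    exact h1 (sub_eq_zero.mp h0).symm
  have hψ0 : ∀ v : V, ψ ((φ₂ - c • φ₁) v) = 0 := by
    intro v
    show ψ (φ₂ v - c • φ₁ v) = 0
    rw [map_sub, map_smul, hc', hψφ, sub_self]
  refine ⟨φ₁.toLinearMap ∘ₗ ψ, (φ₂ - c • φ₁).toLinearMap ∘ₗ ψ, ?_, ?_, ?_⟩
  · intro g
    apply LinearMap.ext
    intro w
    show φ₁ (ψ (σ g w)) = σ g (φ₁ (ψ w))
    rw [hψσ, i₁]
  · intro g
    apply LinearMap.ext
    intro w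
    show (φ₂ - c • φ₁) (ψ (σ g w)) = σ g ((φ₂ - c • φ₁) (ψ w))
    rw [hψσ, Representation.IntertwiningMap.isIntertwining ρ σ (φ₂ - c • φ₁)]
  · intro heq
    apply hne
    apply Representation.IntertwiningMap.ext
    apply LinearMap.ext
    intro v
    have h1 := LinearMap.congr_fun heq (φ₁ v)
    have h2 : (φ₁.toLinearMap ∘ₗ ψ ∘ₗ (φ₂ - c • φ₁).toLinearMap ∘ₗ ψ) (φ₁ v) = 0 := by
      show φ₁ (ψ ((φ₂ - c • φ₁) (ψ (φ₁ v)))) = 0
      rw [hψ0, map_zero]
    have h3 : ((φ₂ - c • φ₁).toLinearMap ∘ₗ ψ ∘ₗ φ₁.toLinearMap ∘ₗ ψ) (φ₁ v) =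
        (φ₂ - c • φ₁) v := by
      show (φ₂ - c • φ₁) (ψ (φ₁ (ψ (φ₁ v)))) = (φ₂ - c • φ₁) v
      rw [hψφ, hψφ]
    have h4 : (φ₂ - c • φ₁) v = 0 := by
      rw [← h3, ← h2]
      exact h1.symm
    exact h4

end NotComm

/-- A commutative centraliser ring forces a multiplicity-free permutation character. -/
theorem multFree_of_comm
    (hc : ∀ S T : (Ω → ℂ) →ₗ[ℂ] (Ω → ℂ),
      S ∈ ((Cfsg.permRep ℂ G Ω).linHom (Cfsg.permRep ℂ G Ω)).invariants →
      T ∈ ((Cfsg.permRep ℂ G Ω).linHom (Cfsg.permRep ℂ G Ω)).invariants → S ∘ₗ T = T ∘ₗ S)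
    (χ : G → ℂ) (hχ : Cfsg.IsIrrCharacter G χ) :
    Cfsg.classInner (fun g : G => (Nat.card (fixedBy Ω g) : ℂ)) χ = 0 ∨
      Cfsg.classInner (fun g : G => (Nat.card (fixedBy Ω g) : ℂ)) χ = 1 := by
  obtain ⟨n, ρ, hρ, rfl⟩ := hχ
  rw [← permRep_character, Cfsg.Agent.Helper75.classInner_character_eq_finrank]
  by_contra hcon
  push Not at hcon
  have h1 : 1 < Module.finrank ℂ (Representation.IntertwiningMap ρ (Cfsg.permRep ℂ G Ω)) := by
    have h0 : Module.finrank ℂ (Representation.IntertwiningMap ρ (Cfsg.permRep ℂ G Ω)) ≠ 0 := by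
      intro h
      apply hcon.1
      rw [h, Nat.cast_zero]
    have h1 : Module.finrank ℂ (Representation.IntertwiningMap ρ (Cfsg.permRep ℂ G Ω)) ≠ 1 := by
      intro h
      apply hcon.2
      rw [h, Nat.cast_one]
    omega
  haveI := hρ
  obtain ⟨S, T, hS, hT, hST⟩ := exists_not_comm_of_finrank ρ (Cfsg.permRep ℂ G Ω) h1
  exact hST (hc S T ((mem_invariants_iff_comm S).mpr hS) ((mem_invariants_iff_comm T).mpr hT))

/-- Matrix form: a commutative `cen G Ω` forces a multiplicity-free permutation character. -/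
theorem multFree_of_cen_comm
    (hc : ∀ X Y : Matrix Ω Ω ℂ, X ∈ cen G Ω → Y ∈ cen G Ω → X * Y = Y * X)
    (χ : G → ℂ) (hχ : Cfsg.IsIrrCharacter G χ) :
    Cfsg.classInner (fun g : G => (Nat.card (fixedBy Ω g) : ℂ)) χ = 0 ∨
      Cfsg.classInner (fun g : G => (Nat.card (fixedBy Ω g) : ℂ)) χ = 1 := by
  apply multFree_of_comm _ χ hχ
  intro S T hS hT
  apply LinearMap.toMatrix'.injective
  rw [LinearMap.toMatrix'_comp, LinearMap.toMatrix'_comp]
  exact hc _ _ ((mem_invariants_iff_cen S).mp hS) ((mem_invariants_iff_cen T).mp hT)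

end PermMod2

end Cfsg.Agent.Helper12
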