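import Mathlib
import Cfsg.Agent.Helper12.PermMod2

/-!
# Orbital matrices and integrality in the centraliser ring (helper12)

* `cen_transpose_of_real`: multiplicity-free with real constituents forces symmetric matrices.
* `orb G a b`: the orbital matrix of the pair `(a, b)`, `orb_mem_cen`, `sum_orb_row`.
* `card_smul_eq`, `sum_smul_eq`, `card_eq_stab_mul`: fibres of `g ↦ g • a` for a transitive action.
* `proj_one_apply`, `row_sum_eq`, `trace_mul_proj_one`: the principal idempotent.
* `isIntegral_trace_mul_idem`, `isIntegral_sum_char_trace`, `isIntegral_trace_mul_proj`: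
  `tr (X * proj χ) = χ 1 * t` with `t` an algebraic integer, for integral `X` in `cen G Ω`.
* `subdegree_dvd`: a common divisor of the degrees of the non-principal constituents divides the
  non-trivial subdegrees.
-/

set_option autoImplicit false

namespace Cfsg.Agent.Helper12

open scoped ComplexConjugate
open MulAction

section PermMod3

variable {G : Type*} [Group G] [Fintype G] {Ω : Type*} [Fintype Ω] [DecidableEq Ω]
  [MulAction G Ω]

/-- Every element of the centraliser ring is symmetric when the permutation character is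
multiplicity-free with real constituents. -/
theorem cen_transpose_of_real
    (h : ∀ χ : G → ℂ, Cfsg.IsIrrCharacter G χ →
      Cfsg.classInner (fun g : G => (Nat.card (fixedBy Ω g) : ℂ)) χ ≠ 0 →
      Cfsg.classInner (fun g : G => (Nat.card (fixedBy Ω g) : ℂ)) χ = 1 ∧
        ∀ g : G, conj (χ g) = χ g)
    {X : Matrix Ω Ω ℂ} (hX : X ∈ cen G Ω) : X.transpose = X := by
  classical
  letI := Fintype.ofFinite (Cfsg.IrrCharacter G)
  have hmf : ∀ χ : G → ℂ, Cfsg.IsIrrCharacter G χ →
      Cfsg.classInner (fun g : G => (Nat.card (fixedBy Ω g) : ℂ)) χ = 0 ∨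
      Cfsg.classInner (fun g : G => (Nat.card (fixedBy Ω g) : ℂ)) χ = 1 := by
    intro χ hχ
    by_cases h0 : Cfsg.classInner (fun g : G => (Nat.card (fixedBy Ω g) : ℂ)) χ = 0
    · exact Or.inl h0
    · exact Or.inr (h χ hχ h0).1
  obtain ⟨c, rfl⟩ := mem_cen_multFree hmf hX
  rw [Matrix.transpose_sum]
  apply Finset.sum_congr rfl
  intro χ _
  rw [Matrix.transpose_smul]
  congr 1
  by_cases h0 : Cfsg.classInner (fun g : G => (Nat.card (fixedBy Ω g) : ℂ)) (χ : G → ℂ) = 0
  · rw [proj_eq_zero χ h0, Matrix.transpose_zero]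
  · rw [proj_transpose (Cfsg.Agent.Helper79.irr_isCharacter χ)]
    congr 1
    funext g
    exact (h χ.1 χ.2 h0).2 g

variable (G) in
/-- The orbital matrix of the pair `(a, b)`. -/
noncomputable def orb (a b : Ω) : Matrix Ω Ω ℂ :=
  Matrix.of fun x y => @ite ℂ (∃ g : G, g • a = x ∧ g • b = y) (Classical.propDecidable _) 1 0

theorem orb_apply_of {a b x y : Ω} (h : ∃ g : G, g • a = x ∧ g • b = y) :
    orb G a b x y = 1 := by
  unfold orb
  exact if_pos h

theorem orb_apply_of_not {a b x y : Ω} (h : ¬ ∃ g : G, g • a = x ∧ g • b = y) :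
    orb G a b x y = 0 := by
  unfold orb
  exact if_neg h

theorem orb_apply_int (a b x y : Ω) : ∃ k : ℤ, orb G a b x y = (k : ℂ) := by
  by_cases h : ∃ g : G, g • a = x ∧ g • b = y
  · exact ⟨1, by rw [orb_apply_of h, Int.cast_one]⟩
  · exact ⟨0, by rw [orb_apply_of_not h, Int.cast_zero]⟩

theorem orb_mem_cen (a b : Ω) : orb G a b ∈ cen G Ω := by
  rw [mem_cen_iff]
  intro g x y
  by_cases h : ∃ k : G, k • a = x ∧ k • b = y
  · have h' : ∃ k : G, k • a = g • x ∧ k • b = g • y := by
      obtain ⟨k, h1, h2⟩ := h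
      exact ⟨g * k, by rw [mul_smul, h1], by rw [mul_smul, h2]⟩
    rw [orb_apply_of h, orb_apply_of h']
  · have h' : ¬ ∃ k : G, k • a = g • x ∧ k • b = g • y := by
      rintro ⟨k, h1, h2⟩
      exact h ⟨g⁻¹ * k, by rw [mul_smul, h1, inv_smul_smul], by rw [mul_smul, h2, inv_smul_smul]⟩
    rw [orb_apply_of_not h, orb_apply_of_not h']

theorem orb_diag {a b : Ω} (hab : b ≠ a) (x : Ω) : orb G a b x x = 0 := by
  apply orb_apply_of_not
  rintro ⟨g, h1, h2⟩
  apply hab
  have h3 : g • b = g • a := by rw [h1, h2]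
  exact smul_left_cancel g h3

theorem sum_orb_row (a b : Ω) :
    ∑ y : Ω, orb G a b a y = (Nat.card (orbit (stabilizer G a) b) : ℂ) := by
  classical
  have h1 : ∀ y : Ω, orb G a b a y = if y ∈ orbit (stabilizer G a) b then 1 else 0 := by
    intro y
    by_cases hy : y ∈ orbit (stabilizer G a) b
    · rw [if_pos hy]
      obtain ⟨k, hk⟩ := hy
      exact orb_apply_of ⟨k.1, k.2, hk⟩
    · rw [if_neg hy]
      apply orb_apply_of_not
      rintro ⟨g, h1, h2⟩
      exact hy ⟨⟨g, h1⟩, h2⟩
  simp_rw [h1]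
  rw [Finset.sum_boole]
  congr 1
  exact (Nat.subtype_card (Finset.univ.filter (fun y : Ω => y ∈ orbit (stabilizer G a) b))
    (fun x => by simp)).symm

/-- The fibres of `g ↦ g • a` have the size of the stabiliser. -/
theorem card_smul_eq [IsPretransitive G Ω] (a z : Ω) :
    Nat.card {g : G // g • a = z} = Nat.card (stabilizer G a) := by
  obtain ⟨h, rfl⟩ := exists_smul_eq G a z
  apply Nat.card_congr
  exact
    { toFun := fun g => ⟨h⁻¹ * g.1, by
        show (h⁻¹ * g.1) • a = a
        rw [mul_smul, g.2, inv_smul_smul]⟩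
      invFun := fun k => ⟨h * k.1, by
        show (h * k.1) • a = h • a
        rw [mul_smul]
        congr 1
        exact k.2⟩
      left_inv := fun g => Subtype.ext (by simp)
      right_inv := fun k => Subtype.ext (by simp) }

theorem sum_smul_eq [IsPretransitive G Ω] (a : Ω) (F : Ω → ℂ) :
    ∑ g : G, F (g • a) = (Nat.card (stabilizer G a) : ℂ) * ∑ z : Ω, F z := by
  classical
  have h1 : ∀ g : G, F (g • a) = ∑ z : Ω, if g • a = z then F z else 0 := by
    intro g
    rw [Finset.sum_ite_eq, if_pos (Finset.mem_univ _)]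
  simp_rw [h1]
  rw [Finset.sum_comm, Finset.mul_sum]
  apply Finset.sum_congr rfl
  intro z _
  rw [← Finset.sum_filter, Finset.sum_const, ← card_smul_eq (G := G) a z, nsmul_eq_mul]
  congr 2
  exact (Nat.subtype_card (Finset.univ.filter (fun g : G => g • a = z)) (fun x => by simp)).symm

theorem card_eq_stab_mul [IsPretransitive G Ω] (a : Ω) :
    (Fintype.card G : ℂ) = (Nat.card (stabilizer G a) : ℂ) * (Fintype.card Ω : ℂ) := by
  have h := sum_smul_eq (G := G) a (fun _ => (1 : ℂ))
  simpa using h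

theorem proj_one_apply [IsPretransitive G Ω] (x y : Ω) :
    proj Ω (fun _ : G => (1 : ℂ)) x y = (Fintype.card Ω : ℂ)⁻¹ := by
  unfold proj
  simp only [Matrix.smul_apply, Matrix.sum_apply, pm_apply, smul_eq_mul, one_mul]
  have h := sum_smul_eq (G := G) y (fun z => if x = z then (1 : ℂ) else 0)
  rw [h, Finset.sum_ite_eq, if_pos (Finset.mem_univ _), card_eq_stab_mul (G := G) y]
  have h1 : (Nat.card (stabilizer G y) : ℂ) ≠ 0 := by exact_mod_cast Nat.card_pos.ne'
  have h2 : (Fintype.card Ω : ℂ) ≠ 0 := by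
    haveI : Nonempty Ω := ⟨x⟩
    exact_mod_cast Fintype.card_ne_zero
  field_simp

theorem row_sum_eq [IsPretransitive G Ω] {X : Matrix Ω Ω ℂ} (hX : X ∈ cen G Ω) (x x' : Ω) :
    ∑ y : Ω, X x y = ∑ y : Ω, X x' y := by
  obtain ⟨g, rfl⟩ := exists_smul_eq G x x'
  apply Fintype.sum_equiv (MulAction.toPerm g)
  intro y
  exact ((mem_cen_iff.mp hX) g x y).symm

theorem trace_mul_proj_one [IsPretransitive G Ω] {X : Matrix Ω Ω ℂ} (hX : X ∈ cen G Ω)
    (a : Ω) : (X * proj Ω (fun _ : G => (1 : ℂ))).trace = ∑ y : Ω, X a y := by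
  have h2 : (Fintype.card Ω : ℂ) ≠ 0 := by
    haveI : Nonempty Ω := ⟨a⟩
    exact_mod_cast Fintype.card_ne_zero
  have h1 : ∀ x : Ω, (X * proj Ω (fun _ : G => (1 : ℂ))) x x =
      (Fintype.card Ω : ℂ)⁻¹ * ∑ y : Ω, X a y := by
    intro x
    rw [Matrix.mul_apply, ← row_sum_eq hX x a, Finset.mul_sum]
    apply Finset.sum_congr rfl
    intro z _
    rw [proj_one_apply, mul_comm]
  unfold Matrix.trace
  simp_rw [Matrix.diag_apply, h1]
  rw [Finset.sum_const, Finset.card_univ, nsmul_eq_mul, ← mul_assoc, mul_inv_cancel₀ h2, one_mul]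

end PermMod3

section Integrality

/-- The trace of `A * E`, for an idempotent `E` commuting with an endomorphism `A` killed by a
monic integer polynomial, is an algebraic integer. -/
theorem isIntegral_trace_mul_idem {U : Type*} [AddCommGroup U] [Module ℂ U]
    [FiniteDimensional ℂ U] (A E : Module.End ℂ U) (hAE : A * E = E * A) (hE : E * E = E)
    (p : Polynomial ℤ) (hp : p.Monic)
    (hA : Polynomial.aeval A (p.map (algebraMap ℤ ℂ)) = 0) :
    IsIntegral ℤ (LinearMap.trace ℂ U (A * E)) := by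
  rw [Module.End.trace_eq_sum_roots_charpoly_of_splits (IsAlgClosed.splits _)]
  apply IsIntegral.multiset_sum
  intro μ hμ
  have hroot : (A * E).charpoly.IsRoot μ := Polynomial.isRoot_of_mem_roots hμ
  have hev := (Module.End.hasEigenvalue_iff_isRoot_charpoly (A * E) μ).mpr hroot
  obtain ⟨v, hv⟩ := hev.exists_hasEigenvector
  have h1 : A (E v) = μ • v := hv.apply_eq_smul
  by_cases h0 : μ = 0
  · rw [h0]; exact isIntegral_zero
  · have h2 : E v = v := by
      have h3 : E (A (E v)) = A (E v) := by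
        have h4 := LinearMap.congr_fun hAE (E v)
        have h5 : E (E v) = E v := LinearMap.congr_fun hE v
        simp only [Module.End.mul_apply] at h4
        rw [h5] at h4
        exact h4.symm
      rw [h1, map_smul] at h3
      exact smul_right_injective U h0 h3
    rw [h2] at h1
    have hvec : A.HasEigenvector μ v :=
      Module.End.hasEigenvector_iff.mpr ⟨Module.End.mem_eigenspace_iff.mpr h1, hv.2⟩
    have h5 := Module.End.aeval_apply_of_hasEigenvector (p := p.map (algebraMap ℤ ℂ)) hvec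
    rw [hA, LinearMap.zero_apply] at h5
    have h6 : (p.map (algebraMap ℤ ℂ)).eval μ = 0 := by
      rcases smul_eq_zero.mp h5.symm with h | h
      · exact h
      · exact absurd h hv.2
    rw [Polynomial.eval_map] at h6
    exact ⟨p, hp, h6⟩

/-- A quotient of natural numbers that is an algebraic integer is an integer. -/
theorem dvd_of_isIntegral_natCast_div {a b : ℕ} (hb : b ≠ 0)
    (h : IsIntegral ℤ ((a : ℂ) / (b : ℂ))) : b ∣ a := by
  have h1 : ((a : ℂ) / (b : ℂ)) = algebraMap ℚ ℂ ((a : ℚ) / (b : ℚ)) := by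
    simp
  rw [h1, isIntegral_algebraMap_iff (algebraMap ℚ ℂ).injective] at h
  obtain ⟨y, hy⟩ := IsIntegrallyClosed.isIntegral_iff.mp h
  have hb' : (b : ℚ) ≠ 0 := by exact_mod_cast hb
  have h2 : (a : ℚ) = (b : ℚ) * (y : ℚ) := by
    have : (y : ℚ) = (a : ℚ) / (b : ℚ) := by simpa using hy
    rw [this]; field_simp
  have h3 : (a : ℤ) = (b : ℤ) * y := by exact_mod_cast h2
  have h4 : (b : ℤ) ∣ (a : ℤ) := ⟨y, h3⟩
  exact Int.natCast_dvd_natCast.mp h4

end Integrality

end Cfsg.Agent.Helper12
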