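import Mathlib
import Cfsg.Agent.Helper12.PermMod3

/-!
# Integrality of the eigenvalues of the centraliser ring on isotypic components (helper12)

* `isIntegral_sum_char_trace`: for an integral matrix `X` of `cen G Ω` and a representation `ρ`,
  `|G|⁻¹ * ∑ g, ρ.character g * tr (X * pm g)` is an algebraic integer.
* `isIntegral_trace_mul_proj`: `tr (X * proj χ) = χ 1 * t` with `t` an algebraic integer.
* `subdegree_dvd`: a common divisor of the degrees of the non-principal constituents divides the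
  non-trivial subdegrees.
-/

set_option autoImplicit false

namespace Cfsg.Agent.Helper12

open scoped ComplexConjugate TensorProduct
open MulAction

section PermMod4

variable {G : Type*} [Group G] [Fintype G] {Ω : Type*} [Fintype Ω] [DecidableEq Ω]
  [MulAction G Ω]

theorem isIntegral_sum_char_trace {X : Matrix Ω Ω ℂ} (hX : X ∈ cen G Ω)
    (hint : ∀ x y, ∃ k : ℤ, X x y = (k : ℂ)) {n : ℕ} (ρ : Representation ℂ G (Fin n → ℂ)) :
    IsIntegral ℤ ((Fintype.card G : ℂ)⁻¹ * ∑ g : G, ρ.character g * (X * pm Ω g).trace) := by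
  classical
  choose k hk using hint
  have hX₀ : X = (Matrix.of k).map (algebraMap ℤ ℂ) := by
    ext x y
    rw [Matrix.map_apply, Matrix.of_apply, hk x y]
    rfl
  have hG : (Fintype.card G : ℂ) ≠ 0 := by exact_mod_cast Fintype.card_ne_zero
  -- the algebra map `M ↦ 1 ⊗ M`
  let Φ : Matrix Ω Ω ℂ →ₐ[ℂ] Module.End ℂ ((Fin n → ℂ) ⊗[ℂ] (Ω → ℂ)) :=
    (Module.End.lTensorAlgHom ℂ (Ω → ℂ) (Fin n → ℂ)).comp
      (Matrix.toLinAlgEquiv' : Matrix Ω Ω ℂ ≃ₐ[ℂ] _).toAlgHom
  have hΦ : ∀ M : Matrix Ω Ω ℂ, Φ M = TensorProduct.map LinearMap.id (Matrix.toLin' M) := by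
    intro M
    rfl
  let τ : Representation ℂ G ((Fin n → ℂ) ⊗[ℂ] (Ω → ℂ)) := ρ.tprod (Cfsg.permRep ℂ G Ω)
  have hτ : ∀ g : G, τ g = TensorProduct.map (ρ g) (Matrix.toLin' (pm Ω g)) := by
    intro g
    rw [toLin'_pm]
    rfl
  obtain ⟨E, hEdef⟩ : ∃ E : Module.End ℂ ((Fin n → ℂ) ⊗[ℂ] (Ω → ℂ)),
      E = (Fintype.card G : ℂ)⁻¹ • ∑ g : G, τ g := ⟨_, rfl⟩
  -- `Φ X` commutes with `τ g`
  have hcomm : ∀ g : G, Φ X * τ g = τ g * Φ X := by
    intro g
    rw [hΦ, hτ, Module.End.mul_eq_comp, Module.End.mul_eq_comp, ← TensorProduct.map_comp,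
      ← TensorProduct.map_comp, ← Matrix.toLin'_mul, ← Matrix.toLin'_mul, (mem_cen.mp hX) g,
      LinearMap.id_comp, LinearMap.comp_id]
  have hAE : Φ X * E = E * Φ X := by
    rw [hEdef, mul_smul_comm, smul_mul_assoc, Finset.mul_sum, Finset.sum_mul]
    congr 1
    apply Finset.sum_congr rfl
    intro g _
    exact hcomm g
  have hE : E * E = E := by
    have h1 : ∀ g : G, τ g * ∑ h : G, τ h = ∑ h : G, τ h := by
      intro g
      rw [Finset.mul_sum]
      apply Fintype.sum_equiv (Equiv.mulLeft g)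
      intro h
      exact (map_mul τ g h).symm
    rw [hEdef, smul_mul_assoc, mul_smul_comm, Finset.sum_mul]
    simp_rw [h1]
    rw [Finset.sum_const, Finset.card_univ, ← Nat.cast_smul_eq_nsmul ℂ, smul_smul, smul_smul,
      mul_assoc, inv_mul_cancel₀ hG, mul_one]
  have hA : Polynomial.aeval (Φ X) ((Matrix.of k).charpoly.map (algebraMap ℤ ℂ)) = 0 := by
    rw [Polynomial.aeval_algHom_apply, ← Matrix.charpoly_map, ← hX₀, Matrix.aeval_self_charpoly,
      map_zero]
  have htr : LinearMap.trace ℂ _ (Φ X * E) =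
      (Fintype.card G : ℂ)⁻¹ * ∑ g : G, ρ.character g * (X * pm Ω g).trace := by
    rw [hEdef, mul_smul_comm, map_smul, smul_eq_mul, Finset.mul_sum, map_sum]
    congr 1
    apply Finset.sum_congr rfl
    intro g _
    rw [hΦ, hτ, Module.End.mul_eq_comp, ← TensorProduct.map_comp, LinearMap.id_comp,
      ← Matrix.toLin'_mul, LinearMap.trace_tensorProduct', Matrix.trace_toLin'_eq]
    rfl
  rw [← htr]
  exact isIntegral_trace_mul_idem (Φ X) E hAE hE (Matrix.of k).charpoly
    (Matrix.charpoly_monic _) hA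

theorem isIntegral_trace_mul_proj {X : Matrix Ω Ω ℂ} (hX : X ∈ cen G Ω)
    (hint : ∀ x y, ∃ k : ℤ, X x y = (k : ℂ)) {χ : G → ℂ} (hχ : Cfsg.IsCharacter G χ) :
    ∃ t : ℂ, IsIntegral ℤ t ∧ (X * proj Ω χ).trace = χ 1 * t := by
  obtain ⟨n, ρ, hρ⟩ := Cfsg.Agent.Helper79.isCharacter_conj hχ
  refine ⟨_, isIntegral_sum_char_trace hX hint ρ, ?_⟩
  rw [trace_mul_proj, hρ]
  congr 2
  apply Finset.sum_congr rfl
  intro g _
  rw [Cfsg.Agent.Helper80.isCharacter_inv hχ]

/-- If `f` divides the degree of every non-principal irreducible constituent of the permutation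
character of a transitive group, then `f` divides every non-trivial subdegree. -/
theorem subdegree_dvd [IsPretransitive G Ω] (f : ℕ)
    (hf : ∀ χ : G → ℂ, Cfsg.IsIrrCharacter G χ → χ ≠ (fun _ => 1) →
      Cfsg.classInner (fun g : G => (Nat.card (fixedBy Ω g) : ℂ)) χ ≠ 0 →
      ∃ m : ℕ, χ 1 = (f : ℂ) * m)
    (a b : Ω) (hab : b ≠ a) : f ∣ Nat.card (orbit (stabilizer G a) b) := by
  classical
  letI := Fintype.ofFinite (Cfsg.IrrCharacter G)
  have hXc : orb G a b ∈ cen G Ω := orb_mem_cen a b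
  have htr0 : (orb G a b).trace = 0 := by
    unfold Matrix.trace
    apply Finset.sum_eq_zero
    intro x _
    rw [Matrix.diag_apply, orb_diag hab]
  have hsum : ∑ χ : Cfsg.IrrCharacter G, (orb G a b * proj Ω (χ : G → ℂ)).trace = 0 := by
    rw [← Matrix.trace_sum, ← Finset.mul_sum, sum_proj, Matrix.mul_one, htr0]
  let χ₀ : Cfsg.IrrCharacter G := ⟨fun _ => 1, Cfsg.Agent.Helper79.isIrrCharacter_one⟩
  have h0 : (orb G a b * proj Ω (χ₀ : G → ℂ)).trace =
      (Nat.card (orbit (stabilizer G a) b) : ℂ) := by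
    show (orb G a b * proj Ω (fun _ : G => (1 : ℂ))).trace = _
    rw [trace_mul_proj_one hXc a, sum_orb_row]
  have hrest : ∀ χ : Cfsg.IrrCharacter G, ∃ s : ℂ, IsIntegral ℤ s ∧
      (χ ≠ χ₀ → (orb G a b * proj Ω (χ : G → ℂ)).trace = (f : ℂ) * s) := by
    intro χ
    by_cases hm : Cfsg.classInner (fun g : G => (Nat.card (fixedBy Ω g) : ℂ)) (χ : G → ℂ) = 0
    · refine ⟨0, isIntegral_zero, fun _ => ?_⟩
      rw [proj_eq_zero χ hm, Matrix.mul_zero, Matrix.trace_zero, mul_zero]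
    · by_cases hχ : χ = χ₀
      · exact ⟨0, isIntegral_zero, fun h => absurd hχ h⟩
      · have hne : (χ : G → ℂ) ≠ (fun _ => 1) := by
          intro h
          exact hχ (Subtype.ext h)
        obtain ⟨m, hm1⟩ := hf χ.1 χ.2 hne hm
        obtain ⟨t, ht, htr⟩ := isIntegral_trace_mul_proj hXc (orb_apply_int a b)
          (Cfsg.Agent.Helper79.irr_isCharacter χ)
        refine ⟨(m : ℂ) * t, IsIntegral.mul (isIntegral_natCast m) ht, fun _ => ?_⟩
        rw [htr, hm1, mul_assoc]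
  choose s hs1 hs2 using hrest
  have hsplit : (Nat.card (orbit (stabilizer G a) b) : ℂ) +
      (f : ℂ) * ∑ χ ∈ Finset.univ.erase χ₀, s χ = 0 := by
    rw [← hsum, ← Finset.add_sum_erase Finset.univ _ (Finset.mem_univ χ₀), h0, Finset.mul_sum]
    congr 1
    apply Finset.sum_congr rfl
    intro χ hχ
    exact (hs2 χ (Finset.ne_of_mem_erase hχ)).symm
  have hS : IsIntegral ℤ (∑ χ ∈ Finset.univ.erase χ₀, s χ) :=
    IsIntegral.sum _ (fun χ _ => hs1 χ)
  by_cases hf0 : f = 0
  · rw [hf0, Nat.cast_zero, zero_mul, add_zero] at hsplit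
    have h1 : Nat.card (orbit (stabilizer G a) b) = 0 := by exact_mod_cast hsplit
    rw [h1]
    exact dvd_zero f
  · apply dvd_of_isIntegral_natCast_div hf0
    have hf0' : (f : ℂ) ≠ 0 := by exact_mod_cast hf0
    have h1 : (Nat.card (orbit (stabilizer G a) b) : ℂ) / (f : ℂ) =
        -∑ χ ∈ Finset.univ.erase χ₀, s χ := by
      rw [div_eq_iff hf0']
      linear_combination hsplit
    rw [h1]
    exact IsIntegral.neg hS

end PermMod4

end Cfsg.Agent.Helper12
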