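import Mathlib
import Cfsg.Agent.Helper12.PermMod4

/-!
# Rank, subdegrees and multiplicities of a transitive permutation character (helper12)

* `classInner_perm_one`: the principal character has multiplicity one (transitive case).
* `card_orbitals_le`: the number of orbits on pairs is at most the number of suborbits.
* `sum_mult_sq`, `card_eq_sum_mult`, `card_eq_sum_suborbits`.
* `multFree_of_const_degree`: equal degrees of the non-principal constituents force a
  multiplicity-free character and equal subdegrees.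
* `multFree_of_rank_le_five`.
-/

set_option autoImplicit false

namespace Cfsg.Agent.Helper12

open scoped ComplexConjugate
open MulAction

section PermMod5

variable {G : Type*} [Group G] [Fintype G] {Ω : Type*} [Fintype Ω] [DecidableEq Ω]
  [MulAction G Ω]

theorem classInner_perm_one [IsPretransitive G Ω] [Nonempty Ω] :
    Cfsg.classInner (fun g : G => (Nat.card (fixedBy Ω g) : ℂ)) (fun _ => 1) = 1 := by
  unfold Cfsg.classInner
  have h := Cfsg.Agent.Helper3.sum_natCard_fixedBy G Ω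
  have h1 : Nat.card (orbitRel.Quotient G Ω) = 1 := by
    have hsub : Subsingleton (orbitRel.Quotient G Ω) :=
      (MulAction.pretransitive_iff_subsingleton_quotient G Ω).mp inferInstance
    have hne : Nonempty (orbitRel.Quotient G Ω) := ⟨Quotient.mk'' (Classical.arbitrary Ω)⟩
    exact Nat.card_eq_one_iff_unique.mpr ⟨hsub, hne⟩
  rw [h1, one_mul] at h
  have hG : (Nat.card G : ℂ) ≠ 0 := by exact_mod_cast Nat.card_pos.ne'
  simp only [map_one, mul_one]
  have h2 : ∑ g : G, (Nat.card (fixedBy Ω g) : ℂ) = (Nat.card G : ℂ) := by exact_mod_cast h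
  rw [h2]
  exact inv_mul_cancel₀ hG

theorem card_orbitals_le [IsPretransitive G Ω] (a : Ω) :
    Nat.card (orbitRel.Quotient G (Ω × Ω)) ≤
      Nat.card (orbitRel.Quotient (stabilizer G a) Ω) := by
  let f : orbitRel.Quotient (stabilizer G a) Ω → orbitRel.Quotient G (Ω × Ω) :=
    Quotient.map' (fun y => (a, y)) (by
      intro y y' h
      obtain ⟨k, hk⟩ := h
      refine ⟨k.1, ?_⟩
      show (k.1 • a, k.1 • y') = (a, y)
      rw [show k.1 • a = a from k.2]
      congr 1)
  apply Nat.card_le_card_of_surjective f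
  intro q
  induction q using Quotient.inductionOn' with
  | h p =>
    obtain ⟨x, y⟩ := p
    obtain ⟨g, hg⟩ := exists_smul_eq G a x
    refine ⟨Quotient.mk'' (g⁻¹ • y), ?_⟩
    show Quotient.mk'' (a, g⁻¹ • y) = Quotient.mk'' (x, y)
    apply Quotient.sound'
    refine ⟨g⁻¹, ?_⟩
    show (g⁻¹ • x, g⁻¹ • y) = (a, g⁻¹ • y)
    rw [← hg, inv_smul_smul]

theorem sum_mult_sq [Fintype (Cfsg.IrrCharacter G)] (mN : Cfsg.IrrCharacter G → ℕ)
    (hmN : ∀ χ : Cfsg.IrrCharacter G,
      Cfsg.classInner (fun g : G => (Nat.card (fixedBy Ω g) : ℂ)) (χ : G → ℂ) = (mN χ : ℂ)) :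
    ∑ χ : Cfsg.IrrCharacter G, (mN χ) ^ 2 = Nat.card (orbitRel.Quotient G (Ω × Ω)) := by
  have h1 := classInner_perm_self (G := G) (Ω := Ω)
  have hcl : Cfsg.IsClassFunction G (fun g : G => (Nat.card (fixedBy Ω g) : ℂ)) :=
    Cfsg.Agent.Helper79.isCharacter_isClassFunction perm_isCharacter
  rw [Cfsg.Agent.Helper15.classInner_eq_sum hcl] at h1
  simp_rw [hmN, Complex.conj_natCast] at h1
  have h2 : ((∑ χ : Cfsg.IrrCharacter G, (mN χ) ^ 2 : ℕ) : ℂ) =
      (Nat.card (orbitRel.Quotient G (Ω × Ω)) : ℂ) := by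
    rw [← h1]
    push_cast
    apply Finset.sum_congr rfl
    intro χ _
    ring
  exact_mod_cast h2

theorem card_eq_sum_mult [Fintype (Cfsg.IrrCharacter G)] (mN : Cfsg.IrrCharacter G → ℕ)
    (hmN : ∀ χ : Cfsg.IrrCharacter G,
      Cfsg.classInner (fun g : G => (Nat.card (fixedBy Ω g) : ℂ)) (χ : G → ℂ) = (mN χ : ℂ)) :
    (Fintype.card Ω : ℂ) = ∑ χ : Cfsg.IrrCharacter G, (mN χ : ℂ) * (χ : G → ℂ) 1 := by
  have hcl : Cfsg.IsClassFunction G (fun g : G => (Nat.card (fixedBy Ω g) : ℂ)) :=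
    Cfsg.Agent.Helper79.isCharacter_isClassFunction perm_isCharacter
  have h := congrFun (Cfsg.Agent.Helper15.classFun_eq_sum hcl) 1
  rw [Finset.sum_apply] at h
  simp only [Pi.smul_apply, smul_eq_mul, hmN] at h
  rw [← h]
  congr 1
  rw [← Nat.card_eq_fintype_card]
  symm
  apply Nat.card_congr
  exact Equiv.subtypeUnivEquiv (fun x => one_smul G x)

theorem card_eq_sum_suborbits (a : Ω) [Fintype (orbitRel.Quotient (stabilizer G a) Ω)] :
    Fintype.card Ω = ∑ q : orbitRel.Quotient (stabilizer G a) Ω,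
      Nat.card (orbit (stabilizer G a) q.out) := by
  rw [← Nat.card_eq_fintype_card,
    Nat.card_congr (MulAction.selfEquivSigmaOrbits (stabilizer G a) Ω), Nat.card_sigma]

theorem orbit_stabilizer_self (a : Ω) : orbit (stabilizer G a) a = {a} := by
  ext y
  constructor
  · rintro ⟨k, rfl⟩
    exact k.2
  · intro hy
    rw [Set.mem_singleton_iff] at hy
    rw [hy]
    exact mem_orbit_self a

/-- If all non-principal irreducible constituents of the permutation character of a transitive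
group have the same degree `f`, the character is multiplicity-free and all non-trivial
subdegrees equal `f`. -/
theorem multFree_of_const_degree [IsPretransitive G Ω] (a : Ω) (f : ℕ)
    (hf : ∀ χ : G → ℂ, Cfsg.IsIrrCharacter G χ → χ ≠ (fun _ => 1) →
      Cfsg.classInner (fun g : G => (Nat.card (fixedBy Ω g) : ℂ)) χ ≠ 0 → χ 1 = f) :
    (∀ χ : G → ℂ, Cfsg.IsIrrCharacter G χ →
      Cfsg.classInner (fun g : G => (Nat.card (fixedBy Ω g) : ℂ)) χ = 0 ∨
      Cfsg.classInner (fun g : G => (Nat.card (fixedBy Ω g) : ℂ)) χ = 1) ∧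
    ∀ b : Ω, b ≠ a → Nat.card (orbit (stabilizer G a) b) = f := by
  classical
  letI := Fintype.ofFinite (Cfsg.IrrCharacter G)
  letI : Fintype (orbitRel.Quotient (stabilizer G a) Ω) := Fintype.ofFinite _
  haveI : Nonempty Ω := ⟨a⟩
  have hex : ∀ χ : Cfsg.IrrCharacter G, ∃ n : ℕ,
      Cfsg.classInner (fun g : G => (Nat.card (fixedBy Ω g) : ℂ)) (χ : G → ℂ) = (n : ℂ) :=
    fun χ => Cfsg.Agent.Helper15.inner_nat perm_isCharacter
      (Cfsg.Agent.Helper79.irr_isCharacter χ)
  choose mN hmN using hex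
  have hres : ∀ (χ : G → ℂ) (hχ : Cfsg.IsIrrCharacter G χ), mN ⟨χ, hχ⟩ ≤ 1 →
      Cfsg.classInner (fun g : G => (Nat.card (fixedBy Ω g) : ℂ)) χ = 0 ∨
      Cfsg.classInner (fun g : G => (Nat.card (fixedBy Ω g) : ℂ)) χ = 1 := by
    intro χ hχ hle
    have h1 := hmN ⟨χ, hχ⟩
    have h2 : mN ⟨χ, hχ⟩ = 0 ∨ mN ⟨χ, hχ⟩ = 1 := by omega
    rcases h2 with h2 | h2
    · left
      rw [h2, Nat.cast_zero] at h1
      exact h1
    · right
      rw [h2, Nat.cast_one] at h1
      exact h1
  let χ₀ : Cfsg.IrrCharacter G := ⟨fun _ => 1, Cfsg.Agent.Helper79.isIrrCharacter_one⟩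
  have hm0 : mN χ₀ = 1 := by
    have h1 := hmN χ₀
    have h2 : Cfsg.classInner (fun g : G => (Nat.card (fixedBy Ω g) : ℂ)) (χ₀ : G → ℂ) = 1 :=
      classInner_perm_one
    rw [h2] at h1
    exact_mod_cast h1.symm
  have hdvd : ∀ b, b ≠ a → f ∣ Nat.card (orbit (stabilizer G a) b) :=
    fun b hb => subdegree_dvd f
      (fun χ hχ h1 h2 => ⟨1, by rw [hf χ hχ h1 h2, Nat.cast_one, mul_one]⟩) a b hb
  have hpos : ∀ b : Ω, 0 < Nat.card (orbit (stabilizer G a) b) := by
    intro b
    haveI : Nonempty (orbit (stabilizer G a) b) := ⟨⟨b, mem_orbit_self b⟩⟩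
    exact Nat.card_pos
  let q₀ : orbitRel.Quotient (stabilizer G a) Ω := Quotient.mk'' a
  have hout0 : q₀.out = a := by
    have h1 : q₀.out ∈ orbit (stabilizer G a) a :=
      Quotient.exact' (s₁ := orbitRel (stabilizer G a) Ω) (Quotient.out_eq' q₀)
    rw [orbit_stabilizer_self] at h1
    exact h1
  have houtne : ∀ q : orbitRel.Quotient (stabilizer G a) Ω, q ≠ q₀ → q.out ≠ a := by
    intro q hq h
    apply hq
    rw [← Quotient.out_eq' q, h]
  have hnq0 : Nat.card (orbit (stabilizer G a) q₀.out) = 1 := by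
    rw [hout0, orbit_stabilizer_self]
    simp
  have hcardΩ : Fintype.card Ω = 1 + ∑ q ∈ Finset.univ.erase q₀,
      Nat.card (orbit (stabilizer G a) q.out) := by
    rw [card_eq_sum_suborbits (G := G) a, ← Finset.add_sum_erase Finset.univ _ (Finset.mem_univ q₀), hnq0]
  have hsq := sum_mult_sq mN hmN
  have hle := card_orbitals_le (G := G) a
  have hsq' : ∑ χ : Cfsg.IrrCharacter G, mN χ ^ 2 =
      1 + ∑ χ ∈ Finset.univ.erase χ₀, mN χ ^ 2 := by
    rw [← Finset.add_sum_erase Finset.univ _ (Finset.mem_univ χ₀), hm0, one_pow]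
  have hdeg := card_eq_sum_mult mN hmN
  have hdeg' : Fintype.card Ω = 1 + f * ∑ χ ∈ Finset.univ.erase χ₀, mN χ := by
    have h1 : (Fintype.card Ω : ℂ) =
        ((1 + f * ∑ χ ∈ Finset.univ.erase χ₀, mN χ : ℕ) : ℂ) := by
      rw [hdeg, ← Finset.add_sum_erase Finset.univ _ (Finset.mem_univ χ₀), hm0]
      push_cast
      congr 1
      · show (1 : ℂ) * (1 : ℂ) = 1
        rw [mul_one]
      · rw [Finset.mul_sum]
        apply Finset.sum_congr rfl
        intro χ hχ
        by_cases h0 : mN χ = 0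
        · rw [h0, Nat.cast_zero, zero_mul, mul_zero]
        · have hne : (χ : G → ℂ) ≠ fun _ => 1 :=
            fun h => (Finset.ne_of_mem_erase hχ) (Subtype.ext h)
          have hm : Cfsg.classInner (fun g : G => (Nat.card (fixedBy Ω g) : ℂ)) (χ : G → ℂ)
              ≠ 0 := by
            rw [hmN]
            exact_mod_cast h0
          rw [hf χ.1 χ.2 hne hm, mul_comm]
    exact_mod_cast h1
  have hQcard : Nat.card (orbitRel.Quotient (stabilizer G a) Ω) =
      (Finset.univ.erase q₀).card + 1 := by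
    rw [Nat.card_eq_fintype_card, Finset.card_erase_of_mem (Finset.mem_univ _), Finset.card_univ]
    have h1 : 0 < Fintype.card (orbitRel.Quotient (stabilizer G a) Ω) :=
      Fintype.card_pos_iff.mpr ⟨q₀⟩
    omega
  by_cases hf0 : f = 0
  · have hall : ∀ b, b ≠ a → False := by
      intro b hb
      have h1 := hdvd b hb
      rw [hf0, zero_dvd_iff] at h1
      exact (hpos b).ne' h1
    constructor
    · have hQ1 : Nat.card (orbitRel.Quotient (stabilizer G a) Ω) ≤ 1 := by
        rw [hQcard]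
        have h1 : Finset.univ.erase q₀ = ∅ := by
          rw [Finset.eq_empty_iff_forall_notMem]
          intro q hq
          exact hall q.out (houtne q (Finset.ne_of_mem_erase hq))
        rw [h1, Finset.card_empty]
      intro χ hχ
      apply hres χ hχ
      have h1 : mN ⟨χ, hχ⟩ ^ 2 ≤ 1 := by
        calc mN ⟨χ, hχ⟩ ^ 2 ≤ ∑ χ : Cfsg.IrrCharacter G, mN χ ^ 2 :=
              Finset.single_le_sum (f := fun χ : Cfsg.IrrCharacter G => mN χ ^ 2)
                (fun _ _ => Nat.zero_le _) (Finset.mem_univ _)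
          _ ≤ 1 := by rw [hsq]; exact hle.trans hQ1
      nlinarith
    · intro b hb
      exact (hall b hb).elim
  · have hfpos : 0 < f := Nat.pos_of_ne_zero hf0
    have hge : ∀ q ∈ Finset.univ.erase q₀, f ≤ Nat.card (orbit (stabilizer G a) q.out) := by
      intro q hq
      exact Nat.le_of_dvd (hpos _) (hdvd _ (houtne q (Finset.ne_of_mem_erase hq)))
    have h1 : (Finset.univ.erase q₀).card * f ≤
        ∑ q ∈ Finset.univ.erase q₀, Nat.card (orbit (stabilizer G a) q.out) := by
      rw [← smul_eq_mul, ← Finset.sum_const]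
      exact Finset.sum_le_sum hge
    have h2 : ∀ χ ∈ Finset.univ.erase χ₀, mN χ ≤ mN χ ^ 2 :=
      fun χ _ => Nat.le_self_pow two_ne_zero _
    have h3 : ∑ χ ∈ Finset.univ.erase χ₀, mN χ ≤ ∑ χ ∈ Finset.univ.erase χ₀, mN χ ^ 2 :=
      Finset.sum_le_sum h2
    have hS2E : ∑ χ ∈ Finset.univ.erase χ₀, mN χ ^ 2 ≤ (Finset.univ.erase q₀).card := by
      omega
    have hchain : (∑ χ ∈ Finset.univ.erase χ₀, mN χ ^ 2) * f ≤
        f * ∑ χ ∈ Finset.univ.erase χ₀, mN χ := by
      calc (∑ χ ∈ Finset.univ.erase χ₀, mN χ ^ 2) * f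
          ≤ (Finset.univ.erase q₀).card * f := Nat.mul_le_mul_right f hS2E
        _ ≤ ∑ q ∈ Finset.univ.erase q₀, Nat.card (orbit (stabilizer G a) q.out) := h1
        _ = f * ∑ χ ∈ Finset.univ.erase χ₀, mN χ := by omega
    have hS : ∑ χ ∈ Finset.univ.erase χ₀, mN χ = ∑ χ ∈ Finset.univ.erase χ₀, mN χ ^ 2 := by
      apply le_antisymm h3
      rw [mul_comm] at hchain
      exact Nat.le_of_mul_le_mul_left hchain hfpos
    have hterm := (Finset.sum_eq_sum_iff_of_le h2).mp hS
    constructor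
    · intro χ hχ
      apply hres χ hχ
      by_cases hχ0 : (⟨χ, hχ⟩ : Cfsg.IrrCharacter G) = χ₀
      · rw [hχ0, hm0]
      · have h4 := hterm ⟨χ, hχ⟩ (Finset.mem_erase.mpr ⟨hχ0, Finset.mem_univ _⟩)
        nlinarith
    · have hsumeq : ∑ q ∈ Finset.univ.erase q₀, f =
          ∑ q ∈ Finset.univ.erase q₀, Nat.card (orbit (stabilizer G a) q.out) := by
        rw [Finset.sum_const, smul_eq_mul]
        apply le_antisymm h1
        calc ∑ q ∈ Finset.univ.erase q₀, Nat.card (orbit (stabilizer G a) q.out)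
            = f * ∑ χ ∈ Finset.univ.erase χ₀, mN χ := by omega
          _ = (∑ χ ∈ Finset.univ.erase χ₀, mN χ ^ 2) * f := by rw [hS, mul_comm]
          _ ≤ (Finset.univ.erase q₀).card * f := Nat.mul_le_mul_right f hS2E
      have hterm2 := (Finset.sum_eq_sum_iff_of_le hge).mp hsumeq
      intro b hb
      have hqb : (Quotient.mk'' b : orbitRel.Quotient (stabilizer G a) Ω) ≠ q₀ := by
        intro h
        have h5 : b ∈ orbit (stabilizer G a) a :=
          Quotient.exact' (s₁ := orbitRel (stabilizer G a) Ω) h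
        rw [orbit_stabilizer_self] at h5
        exact hb h5
      have horb : orbit (stabilizer G a)
          (Quotient.mk'' b : orbitRel.Quotient (stabilizer G a) Ω).out =
          orbit (stabilizer G a) b := by
        rw [MulAction.orbit_eq_iff]
        exact Quotient.exact' (s₁ := orbitRel (stabilizer G a) Ω) (Quotient.out_eq' _)
      have h6 := hterm2 _ (Finset.mem_erase.mpr ⟨hqb, Finset.mem_univ _⟩)
      rw [horb] at h6
      exact h6.symm

/-- A transitive group of rank at most 5 has a multiplicity-free permutation character. -/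
theorem multFree_of_rank_le_five [IsPretransitive G Ω] (a : Ω)
    (h5 : Nat.card (orbitRel.Quotient (stabilizer G a) Ω) ≤ 5) :
    ∀ χ : G → ℂ, Cfsg.IsIrrCharacter G χ →
      Cfsg.classInner (fun g : G => (Nat.card (fixedBy Ω g) : ℂ)) χ = 0 ∨
      Cfsg.classInner (fun g : G => (Nat.card (fixedBy Ω g) : ℂ)) χ = 1 := by
  classical
  letI := Fintype.ofFinite (Cfsg.IrrCharacter G)
  haveI : Nonempty Ω := ⟨a⟩
  have hex : ∀ χ : Cfsg.IrrCharacter G, ∃ n : ℕ,
      Cfsg.classInner (fun g : G => (Nat.card (fixedBy Ω g) : ℂ)) (χ : G → ℂ) = (n : ℂ) :=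
    fun χ => Cfsg.Agent.Helper15.inner_nat perm_isCharacter
      (Cfsg.Agent.Helper79.irr_isCharacter χ)
  choose mN hmN using hex
  let χ₀ : Cfsg.IrrCharacter G := ⟨fun _ => 1, Cfsg.Agent.Helper79.isIrrCharacter_one⟩
  have hm0 : mN χ₀ = 1 := by
    have h1 := hmN χ₀
    have h2 : Cfsg.classInner (fun g : G => (Nat.card (fixedBy Ω g) : ℂ)) (χ₀ : G → ℂ) = 1 :=
      classInner_perm_one
    rw [h2] at h1
    exact_mod_cast h1.symm
  have htot : ∑ χ : Cfsg.IrrCharacter G, mN χ ^ 2 ≤ 5 := by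
    rw [sum_mult_sq mN hmN]
    exact (card_orbitals_le (G := G) a).trans h5
  intro χ hχ
  by_contra hcon
  push Not at hcon
  have hm1 : 2 ≤ mN ⟨χ, hχ⟩ := by
    have h1 := hmN ⟨χ, hχ⟩
    by_contra hlt
    have h2 : mN ⟨χ, hχ⟩ = 0 ∨ mN ⟨χ, hχ⟩ = 1 := by omega
    rcases h2 with h2 | h2
    · rw [h2, Nat.cast_zero] at h1
      exact hcon.1 h1
    · rw [h2, Nat.cast_one] at h1
      exact hcon.2 h1
  have hne01 : (⟨χ, hχ⟩ : Cfsg.IrrCharacter G) ≠ χ₀ := by
    intro h
    rw [h, hm0] at hm1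
    omega
  have hothers : ∀ ψ : Cfsg.IrrCharacter G, ψ ≠ χ₀ → ψ ≠ ⟨χ, hχ⟩ → mN ψ = 0 := by
    intro ψ h0 h1
    have hsub : ({χ₀, ⟨χ, hχ⟩, ψ} : Finset (Cfsg.IrrCharacter G)) ⊆ Finset.univ :=
      Finset.subset_univ _
    have h2 := Finset.sum_le_sum_of_subset (f := fun χ : Cfsg.IrrCharacter G => mN χ ^ 2) hsub
    rw [Finset.sum_insert (by
        rw [Finset.mem_insert, Finset.mem_singleton]
        rintro (h | h)
        · exact hne01 h.symm
        · exact h0 h.symm),
      Finset.sum_insert (by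
        rw [Finset.mem_singleton]
        exact fun h => h1 h.symm), Finset.sum_singleton, hm0] at h2
    have h4 : 4 ≤ mN ⟨χ, hχ⟩ ^ 2 := by nlinarith
    have h5 : mN ψ ^ 2 = 0 := by omega
    exact pow_eq_zero_iff two_ne_zero |>.mp h5
  obtain ⟨n, ρ, hρ, hρχ⟩ := id hχ
  have hdeg : χ 1 = (n : ℂ) := by
    rw [← hρχ, Representation.char_one, Module.finrank_fin_fun]
  have key := (multFree_of_const_degree a n (by
    intro ψ hψ hψ1 hψm
    have h1 : (⟨ψ, hψ⟩ : Cfsg.IrrCharacter G) = ⟨χ, hχ⟩ := by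
      by_contra hne
      have h0 : (⟨ψ, hψ⟩ : Cfsg.IrrCharacter G) ≠ χ₀ := fun h => hψ1 (congrArg Subtype.val h)
      have h2 := hothers ⟨ψ, hψ⟩ h0 hne
      apply hψm
      have h3 := hmN ⟨ψ, hψ⟩
      rw [h2, Nat.cast_zero] at h3
      exact h3
    have h2 : ψ = χ := congrArg Subtype.val h1
    rw [h2, hdeg])).1 χ hχ
  rcases key with h | h
  · exact hcon.1 h
  · exact hcon.2 h

end PermMod5

end Cfsg.Agent.Helper12
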