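import Mathlib
import Cfsg.Agent.Helper12.PermMod5

/-!
# Rank 3 groups of Wielandt type (helper12)

* `stabilizer_fixes_all`: in a primitive group a point stabiliser fixing a second point is
  trivial on all points.
* `rank3_suborbits`: representatives of the two non-trivial suborbits of a rank 3 group.
* `rank3_eigen_eq`: the eigenvalue equations for permutation character `1 + χ₁ + χ₂` with
  degrees `m - 1` and `m`.
* `wielandt_arith`, `wielandt_rank3`: degree `2m = 2(2a² + 2a + 1)` and subdegrees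
  `a(2a+1)`, `(a+1)(2a+1)`.
-/

set_option autoImplicit false

namespace Cfsg.Agent.Helper12

open scoped ComplexConjugate
open MulAction

section PermMod6

variable {G : Type*} [Group G] [Fintype G] {Ω : Type*} [Fintype Ω] [DecidableEq Ω]
  [MulAction G Ω]

omit [Fintype G] [Fintype Ω] [DecidableEq Ω] in
theorem stabilizer_fixes_all [IsPreprimitive G Ω] {a b : Ω} (hab : b ≠ a)
    (hfix : ∀ h ∈ stabilizer G a, h • b = b) : ∀ x : Ω, ∀ h ∈ stabilizer G a, h • x = x := by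
  haveI : IsPretransitive G Ω := IsPreprimitive.toIsPretransitive
  haveI : Nontrivial Ω := ⟨⟨a, b, hab.symm⟩⟩
  have hco : IsCoatom (stabilizer G a) := IsPreprimitive.isCoatom_stabilizer_of_isPreprimitive G a
  have hle : stabilizer G a ≤ stabilizer G b := fun h hh => hfix h hh
  have hne : stabilizer G b ≠ ⊤ := by
    intro htop
    obtain ⟨g, hg⟩ := exists_smul_eq G b a
    have h1 : g ∈ stabilizer G b := by rw [htop]; trivial
    have h2 : g • b = b := h1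
    exact hab (by rw [← h2, hg])
  have heq : stabilizer G a = stabilizer G b := by
    by_contra hne'
    exact hne (hco.2 _ (lt_of_le_of_ne hle hne'))
  obtain ⟨g₀, hg₀⟩ := exists_smul_eq G a b
  have hnorm : g₀ ∈ Subgroup.normalizer (stabilizer G a : Set G) := by
    rw [Subgroup.mem_normalizer_iff]
    intro h
    constructor
    · intro hh
      have h1 : h • a = a := hh
      rw [heq]
      show (g₀ * h * g₀⁻¹) • b = b
      rw [mul_smul, mul_smul, ← hg₀, inv_smul_smul, h1]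
    · intro hh
      rw [heq] at hh
      have h1 : (g₀ * h * g₀⁻¹) • b = b := hh
      rw [mul_smul, mul_smul, ← hg₀, inv_smul_smul] at h1
      exact smul_left_cancel g₀ h1
  have hnotin : g₀ ∉ stabilizer G a := by
    intro h
    have h1 : g₀ • a = a := h
    exact hab (by rw [← hg₀, h1])
  have htop : Subgroup.normalizer (stabilizer G a : Set G) = ⊤ :=
    hco.2 _ (lt_of_le_of_ne Subgroup.le_normalizer (fun h => hnotin (h ▸ hnorm)))
  have hN : (stabilizer G a).Normal := Subgroup.normalizer_eq_top_iff.mp htop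
  intro x h hh
  obtain ⟨g, rfl⟩ := exists_smul_eq G a x
  have h1 : g⁻¹ * h * g ∈ stabilizer G a := by
    have h2 := hN.conj_mem h hh g⁻¹
    rwa [inv_inv] at h2
  have h2 : (g⁻¹ * h * g) • a = a := h1
  calc h • g • a = g • (g⁻¹ * h * g) • a := by
        rw [← mul_smul, ← mul_smul]
        congr 1
        group
    _ = g • a := by rw [h2]

theorem rank3_suborbits (a₀ : Ω)
    (hrank : Nat.card (orbitRel.Quotient (stabilizer G a₀) Ω) = 3) :
    ∃ b c : Ω, b ≠ a₀ ∧ c ≠ a₀ ∧ c ∉ orbit (stabilizer G a₀) b ∧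
      (∀ x : Ω, x ≠ a₀ → orbit (stabilizer G a₀) x = orbit (stabilizer G a₀) b ∨
        orbit (stabilizer G a₀) x = orbit (stabilizer G a₀) c) ∧
      Fintype.card Ω = 1 + Nat.card (orbit (stabilizer G a₀) b) +
        Nat.card (orbit (stabilizer G a₀) c) := by
  classical
  letI : Fintype (orbitRel.Quotient (stabilizer G a₀) Ω) := Fintype.ofFinite _
  let q₀ : orbitRel.Quotient (stabilizer G a₀) Ω := Quotient.mk'' a₀
  have hout0 : q₀.out = a₀ := by
    have h1 : q₀.out ∈ orbit (stabilizer G a₀) a₀ :=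
      Quotient.exact' (s₁ := orbitRel (stabilizer G a₀) Ω) (Quotient.out_eq' q₀)
    rw [orbit_stabilizer_self] at h1
    exact h1
  have houtne : ∀ q : orbitRel.Quotient (stabilizer G a₀) Ω, q ≠ q₀ → q.out ≠ a₀ := by
    intro q hq h
    apply hq
    rw [← Quotient.out_eq' q, h]
  have hcard2 : (Finset.univ.erase q₀).card = 2 := by
    rw [Finset.card_erase_of_mem (Finset.mem_univ _), Finset.card_univ,
      ← Nat.card_eq_fintype_card, hrank]
  obtain ⟨q₁, q₂, h12, hE⟩ := Finset.card_eq_two.mp hcard2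
  have hq1 : q₁ ≠ q₀ := by
    have h : q₁ ∈ Finset.univ.erase q₀ := by
      rw [hE]
      exact Finset.mem_insert_self _ _
    exact Finset.ne_of_mem_erase h
  have hq2 : q₂ ≠ q₀ := by
    have h : q₂ ∈ Finset.univ.erase q₀ := by
      rw [hE]
      exact Finset.mem_insert_of_mem (Finset.mem_singleton_self _)
    exact Finset.ne_of_mem_erase h
  refine ⟨q₁.out, q₂.out, houtne q₁ hq1, houtne q₂ hq2, ?_, ?_, ?_⟩
  · intro h
    apply h12
    rw [← Quotient.out_eq' q₁, ← Quotient.out_eq' q₂]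
    exact (Quotient.sound' (s₁ := orbitRel (stabilizer G a₀) Ω) h).symm
  · intro x hx
    have hqx : (Quotient.mk'' x : orbitRel.Quotient (stabilizer G a₀) Ω) ≠ q₀ := by
      intro h
      have h5 : x ∈ orbit (stabilizer G a₀) a₀ :=
        Quotient.exact' (s₁ := orbitRel (stabilizer G a₀) Ω) h
      rw [orbit_stabilizer_self] at h5
      exact hx h5
    have hmem : (Quotient.mk'' x : orbitRel.Quotient (stabilizer G a₀) Ω) ∈
        Finset.univ.erase q₀ := Finset.mem_erase.mpr ⟨hqx, Finset.mem_univ _⟩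
    rw [hE, Finset.mem_insert, Finset.mem_singleton] at hmem
    rcases hmem with h | h
    · left
      rw [MulAction.orbit_eq_iff]
      apply Quotient.exact' (s₁ := orbitRel (stabilizer G a₀) Ω)
      rw [Quotient.out_eq' q₁]
      exact h
    · right
      rw [MulAction.orbit_eq_iff]
      apply Quotient.exact' (s₁ := orbitRel (stabilizer G a₀) Ω)
      rw [Quotient.out_eq' q₂]
      exact h
  · rw [card_eq_sum_suborbits (G := G) a₀,
      ← Finset.add_sum_erase Finset.univ _ (Finset.mem_univ q₀), hE, Finset.sum_pair h12, hout0,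
      orbit_stabilizer_self]
    simp [add_assoc]

theorem wielandt_arith {m k l : ℕ} (hkl : 1 + k + l = 2 * m) (hk0 : 0 < k) (hl0 : 0 < l)
    (hk1 : k ≠ 1) (hl1 : l ≠ 1) (hm2 : 2 ≤ m) (s t : ℤ)
    (ht : t = -(k : ℤ) - ((m : ℤ) - 1) * s)
    (heq : (k : ℤ) ^ 2 + (s - t) ^ 2 * ((m : ℤ) - 1) + t ^ 2 * m = 2 * m * k) :
    ∃ a : ℕ, 0 < a ∧ m = 2 * a ^ 2 + 2 * a + 1 ∧
      ((k = a * (2 * a + 1) ∧ l = (a + 1) * (2 * a + 1)) ∨
        (k = (a + 1) * (2 * a + 1) ∧ l = a * (2 * a + 1))) := by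
  have hkz : (k : ℤ) = -t - ((m : ℤ) - 1) * s := by linarith
  have hklz : (1 : ℤ) + k + l = 2 * m := by exact_mod_cast hkl
  have hmain : 2 * t ^ 2 + 2 * t + ((m : ℤ) - 1) * (s ^ 2 + 2 * s) = 0 := by
    have h1 : (m : ℤ) * (2 * t ^ 2 + 2 * t + ((m : ℤ) - 1) * (s ^ 2 + 2 * s)) = 0 := by
      rw [hkz] at heq
      linear_combination heq
    have hm0 : (m : ℤ) ≠ 0 := by omega
    exact (mul_eq_zero.mp h1).resolve_left hm0
  have hM : (1 : ℤ) ≤ (m : ℤ) - 1 := by omega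
  have htt : 0 ≤ t ^ 2 + t := by
    rcases le_or_gt 0 t with h | h
    · nlinarith
    · nlinarith
  have hs : s ^ 2 + 2 * s ≤ 0 := by
    by_contra hpos
    push Not at hpos
    nlinarith
  have hs1 : -2 ≤ s := by nlinarith
  have hs2 : s ≤ 0 := by nlinarith
  have ht0 : s ^ 2 + 2 * s = 0 → t = 0 ∨ t = -1 := by
    intro h0
    rw [h0, mul_zero, add_zero] at hmain
    have h : t * (t + 1) = 0 := by linarith
    rcases mul_eq_zero.mp h with h | h
    · left; exact h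
    · right; omega
  interval_cases s
  · exfalso
    rcases ht0 (by norm_num) with h | h
    · rw [h] at hkz
      omega
    · rw [h] at hkz
      omega
  · have hm' : (m : ℤ) = 2 * t ^ 2 + 2 * t + 1 := by linear_combination -hmain
    have hk' : (k : ℤ) = 2 * t ^ 2 + t := by linear_combination hkz + hm'
    have hl' : (l : ℤ) = 2 * t ^ 2 + 3 * t + 1 := by linear_combination hklz + 2 * hm' - hk'
    by_cases ht1 : 1 ≤ t
    · obtain ⟨a, rfl⟩ := Int.eq_ofNat_of_zero_le (by omega : 0 ≤ t)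
      refine ⟨a, by omega, ?_, Or.inl ⟨?_, ?_⟩⟩
      · have h : (m : ℤ) = ((2 * a ^ 2 + 2 * a + 1 : ℕ) : ℤ) := by
          push_cast
          linear_combination hm'
        exact_mod_cast h
      · have h : (k : ℤ) = ((a * (2 * a + 1) : ℕ) : ℤ) := by
          push_cast
          linear_combination hk'
        exact_mod_cast h
      · have h : (l : ℤ) = (((a + 1) * (2 * a + 1) : ℕ) : ℤ) := by
          push_cast
          linear_combination hl'
        exact_mod_cast h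
    · by_cases ht2 : t ≤ -2
      · obtain ⟨a, ha⟩ : ∃ a : ℕ, (a : ℤ) = -t - 1 := ⟨(-t - 1).toNat, by omega⟩
        have hta : t = -(a : ℤ) - 1 := by omega
        rw [hta] at hm' hk' hl'
        refine ⟨a, by omega, ?_, Or.inr ⟨?_, ?_⟩⟩
        · have h : (m : ℤ) = ((2 * a ^ 2 + 2 * a + 1 : ℕ) : ℤ) := by
            push_cast
            linear_combination hm'
          exact_mod_cast h
        · have h : (k : ℤ) = (((a + 1) * (2 * a + 1) : ℕ) : ℤ) := by
            push_cast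
            linear_combination hk'
          exact_mod_cast h
        · have h : (l : ℤ) = ((a * (2 * a + 1) : ℕ) : ℤ) := by
            push_cast
            linear_combination hl'
          exact_mod_cast h
      · exfalso
        have h : t = 0 ∨ t = -1 := by omega
        rcases h with h | h
        · rw [h] at hk'
          norm_num at hk'
          omega
        · rw [h] at hk'
          norm_num at hk'
          omega
  · exfalso
    rcases ht0 (by norm_num) with h | h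
    · rw [h] at hkz
      omega
    · rw [h] at hkz
      omega

theorem rank3_eigen_eq [IsPretransitive G Ω] {m : ℕ} (hm : Fintype.card Ω = 2 * m)
    (a₀ b c : Ω) (hb : b ≠ a₀) (hc : c ≠ a₀) (hcb : c ∉ orbit (stabilizer G a₀) b)
    (χ₁ χ₂ : G → ℂ) (h₁ : Cfsg.IsIrrCharacter G χ₁) (h₂ : Cfsg.IsIrrCharacter G χ₂)
    (hπ : (fun g : G => (Nat.card (fixedBy Ω g) : ℂ)) = fun g => 1 + χ₁ g + χ₂ g)
    (hd₁ : χ₁ 1 = (m : ℂ) - 1) (hd₂ : χ₂ 1 = m) :
    ∃ s t : ℤ, t = -(Nat.card (orbit (stabilizer G a₀) b) : ℤ) - ((m : ℤ) - 1) * s ∧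
      (Nat.card (orbit (stabilizer G a₀) b) : ℤ) ^ 2 + (s - t) ^ 2 * ((m : ℤ) - 1) + t ^ 2 * m =
        2 * m * Nat.card (orbit (stabilizer G a₀) b) := by
  classical
  letI := Fintype.ofFinite (Cfsg.IrrCharacter G)
  haveI : Nonempty Ω := ⟨a₀⟩
  obtain ⟨k, hk⟩ : ∃ k : ℕ, k = Nat.card (orbit (stabilizer G a₀) b) := ⟨_, rfl⟩
  rw [← hk]
  have hm1 : (m : ℂ) - 1 ≠ 0 := by
    rw [← hd₁]
    exact Cfsg.Agent.Helper80.irr_one_ne_zero ⟨χ₁, h₁⟩
  have hmne : (m : ℂ) ≠ 0 := by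
    rw [← hd₂]
    exact Cfsg.Agent.Helper80.irr_one_ne_zero ⟨χ₂, h₂⟩
  have h0 : Cfsg.IsIrrCharacter G (fun _ => (1 : ℂ)) := Cfsg.Agent.Helper79.isIrrCharacter_one
  -- inner products
  have hin : ∀ ψ : G → ℂ, Cfsg.classInner (fun g : G => (Nat.card (fixedBy Ω g) : ℂ)) ψ =
      Cfsg.classInner (fun _ : G => (1 : ℂ)) ψ + Cfsg.classInner χ₁ ψ + Cfsg.classInner χ₂ ψ := by
    intro ψ
    rw [hπ]
    have e : (fun g => 1 + χ₁ g + χ₂ g) = (fun _ : G => (1 : ℂ)) + χ₁ + χ₂ := rfl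
    rw [e, Cfsg.Agent.Helper15.classInner_add_left, Cfsg.Agent.Helper15.classInner_add_left]
  have hne12 : χ₁ ≠ χ₂ := by
    intro h
    have h3 : χ₁ 1 = χ₂ 1 := by rw [h]
    rw [hd₁, hd₂] at h3
    exact one_ne_zero (by linear_combination -h3 : (1 : ℂ) = 0)
  have hne1 : χ₁ ≠ (fun _ => 1) ∧ χ₂ ≠ (fun _ => 1) := by
    have e := hin (fun _ => (1 : ℂ))
    rw [classInner_perm_one, Cfsg.Agent.Helper15.irr_inner_self h0] at e
    by_cases c1 : χ₁ = fun _ => 1
    · exfalso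
      rw [c1, Cfsg.Agent.Helper15.irr_inner_self h0] at e
      by_cases c2 : χ₂ = fun _ => 1
      · rw [c2, Cfsg.Agent.Helper15.irr_inner_self h0] at e
        norm_num at e
      · rw [Cfsg.Agent.Helper15.irr_inner_ne h₂ h0 c2] at e
        norm_num at e
    · by_cases c2 : χ₂ = fun _ => 1
      · exfalso
        rw [c2, Cfsg.Agent.Helper15.irr_inner_self h0,
          Cfsg.Agent.Helper15.irr_inner_ne h₁ h0 c1] at e
        norm_num at e
      · exact ⟨c1, c2⟩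
  have hin0 : Cfsg.classInner (fun g : G => (Nat.card (fixedBy Ω g) : ℂ)) (fun _ => 1) = 1 :=
    classInner_perm_one
  have hin1 : Cfsg.classInner (fun g : G => (Nat.card (fixedBy Ω g) : ℂ)) χ₁ = 1 := by
    rw [hin, Cfsg.Agent.Helper15.irr_inner_ne h0 h₁ (Ne.symm hne1.1),
      Cfsg.Agent.Helper15.irr_inner_self h₁,
      Cfsg.Agent.Helper15.irr_inner_ne h₂ h₁ (Ne.symm hne12)]
    ring
  have hin2 : Cfsg.classInner (fun g : G => (Nat.card (fixedBy Ω g) : ℂ)) χ₂ = 1 := by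
    rw [hin, Cfsg.Agent.Helper15.irr_inner_ne h0 h₂ (Ne.symm hne1.2),
      Cfsg.Agent.Helper15.irr_inner_self h₂, Cfsg.Agent.Helper15.irr_inner_ne h₁ h₂ hne12]
    ring
  have hinother : ∀ ψ : G → ℂ, Cfsg.IsIrrCharacter G ψ → ψ ≠ (fun _ => 1) → ψ ≠ χ₁ → ψ ≠ χ₂ →
      Cfsg.classInner (fun g : G => (Nat.card (fixedBy Ω g) : ℂ)) ψ = 0 := by
    intro ψ hψ n0 n1 n2
    rw [hin, Cfsg.Agent.Helper15.irr_inner_ne h0 hψ (Ne.symm n0),
      Cfsg.Agent.Helper15.irr_inner_ne h₁ hψ (Ne.symm n1),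
      Cfsg.Agent.Helper15.irr_inner_ne h₂ hψ (Ne.symm n2)]
    ring
  -- realness
  have hrealgen : ∀ χ : G → ℂ, Cfsg.IsIrrCharacter G χ → χ ≠ (fun _ => 1) →
      Cfsg.classInner (fun g : G => (Nat.card (fixedBy Ω g) : ℂ)) χ = 1 →
      (∀ ψ : G → ℂ, ψ = χ₁ ∨ ψ = χ₂ → ψ ≠ χ → χ 1 ≠ ψ 1) → (χ = χ₁ ∨ χ = χ₂) →
      ∀ g, conj (χ g) = χ g := by
    intro χ hχ hχ1 hinχ hdeg hχ12
    have hc := Cfsg.Agent.Helper79.isIrrCharacter_conj hχ
    have hch : Cfsg.IsCharacter G χ := Cfsg.Agent.Helper79.irr_isCharacter ⟨χ, hχ⟩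
    have hχd : χ 1 ≠ 0 := Cfsg.Agent.Helper80.irr_one_ne_zero ⟨χ, hχ⟩
    have hχreal : conj (χ 1) = χ 1 := by
      have h3 := Cfsg.Agent.Helper80.isCharacter_inv hch 1
      rw [inv_one] at h3
      exact h3.symm
    have htr : (proj Ω (fun g => conj (χ g))).trace ≠ 0 := by
      rw [← proj_transpose hch, Matrix.trace_transpose, trace_proj hch, hinχ, mul_one]
      exact hχd
    have hne : Cfsg.classInner (fun g : G => (Nat.card (fixedBy Ω g) : ℂ))
        (fun g => conj (χ g)) ≠ 0 := by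
      intro h
      apply htr
      rw [proj_eq_zero ⟨_, hc⟩ h, Matrix.trace_zero]
    by_contra hcon
    have n0 : (fun g => conj (χ g)) ≠ fun _ => 1 := by
      intro h
      apply hχ1
      funext g
      have h3 := congrArg conj (congrFun h g)
      simpa using h3
    have key : ∀ ψ : G → ℂ, ψ = χ₁ ∨ ψ = χ₂ → (fun g => conj (χ g)) ≠ ψ := by
      intro ψ hψ h
      by_cases hψχ : ψ = χ
      · apply hcon
        intro g
        exact congrFun (h.trans hψχ) g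
      · apply hdeg ψ hψ hψχ
        have h3 := congrFun h 1
        rw [← h3]
        exact hχreal.symm
    exact hne (hinother _ hc n0 (key χ₁ (Or.inl rfl)) (key χ₂ (Or.inr rfl)))
  have hreal1 : ∀ g, conj (χ₁ g) = χ₁ g := by
    apply hrealgen χ₁ h₁ hne1.1 hin1 _ (Or.inl rfl)
    rintro ψ (rfl | rfl) hψ
    · exact absurd rfl hψ
    · rw [hd₁, hd₂]
      intro h
      exact one_ne_zero (by linear_combination -h : (1 : ℂ) = 0)
  have hreal2 : ∀ g, conj (χ₂ g) = χ₂ g := by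
    apply hrealgen χ₂ h₂ hne1.2 hin2 _ (Or.inr rfl)
    rintro ψ (rfl | rfl) hψ
    · rw [hd₁, hd₂]
      intro h
      exact one_ne_zero (by linear_combination h : (1 : ℂ) = 0)
    · exact absurd rfl hψ
  have hreal : ∀ χ : G → ℂ, Cfsg.IsIrrCharacter G χ →
      Cfsg.classInner (fun g : G => (Nat.card (fixedBy Ω g) : ℂ)) χ ≠ 0 →
      Cfsg.classInner (fun g : G => (Nat.card (fixedBy Ω g) : ℂ)) χ = 1 ∧
        ∀ g : G, conj (χ g) = χ g := by
    intro χ hχ hne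
    by_cases c0 : χ = fun _ => 1
    · rw [c0]
      exact ⟨hin0, fun g => map_one _⟩
    · by_cases c1 : χ = χ₁
      · rw [c1]
        exact ⟨hin1, hreal1⟩
      · by_cases c2 : χ = χ₂
        · rw [c2]
          exact ⟨hin2, hreal2⟩
        · exact absurd (hinother χ hχ c0 c1 c2) hne
  have hmf : ∀ χ : G → ℂ, Cfsg.IsIrrCharacter G χ →
      Cfsg.classInner (fun g : G => (Nat.card (fixedBy Ω g) : ℂ)) χ = 0 ∨
      Cfsg.classInner (fun g : G => (Nat.card (fixedBy Ω g) : ℂ)) χ = 1 := by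
    intro χ hχ
    by_cases h : Cfsg.classInner (fun g : G => (Nat.card (fixedBy Ω g) : ℂ)) χ = 0
    · exact Or.inl h
    · exact Or.inr (hreal χ hχ h).1
  -- the orbital matrix
  obtain ⟨A, hAdef⟩ : ∃ A : Matrix Ω Ω ℂ, A = orb G a₀ b := ⟨_, rfl⟩
  have hAc : A ∈ cen G Ω := by
    rw [hAdef]
    exact orb_mem_cen a₀ b
  have hAt : A.transpose = A := cen_transpose_of_real hreal hAc
  obtain ⟨cc, hcc⟩ := mem_cen_multFree hmf hAc
  have d01 : (⟨fun _ => 1, h0⟩ : Cfsg.IrrCharacter G) ≠ ⟨χ₁, h₁⟩ :=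
    fun h => hne1.1 (congrArg Subtype.val h).symm
  have d02 : (⟨fun _ => 1, h0⟩ : Cfsg.IrrCharacter G) ≠ ⟨χ₂, h₂⟩ :=
    fun h => hne1.2 (congrArg Subtype.val h).symm
  have d12 : (⟨χ₁, h₁⟩ : Cfsg.IrrCharacter G) ≠ ⟨χ₂, h₂⟩ :=
    fun h => hne12 (congrArg Subtype.val h)
  have hsum3 : ∀ F : Cfsg.IrrCharacter G → Matrix Ω Ω ℂ,
      (∀ χ : Cfsg.IrrCharacter G, χ ≠ ⟨fun _ => 1, h0⟩ → χ ≠ ⟨χ₁, h₁⟩ → χ ≠ ⟨χ₂, h₂⟩ →
        F χ = 0) →
      ∑ χ : Cfsg.IrrCharacter G, F χ = F ⟨fun _ => 1, h0⟩ + F ⟨χ₁, h₁⟩ + F ⟨χ₂, h₂⟩ := by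
    intro F hF
    rw [← Finset.sum_subset (Finset.subset_univ
      ({⟨fun _ => 1, h0⟩, ⟨χ₁, h₁⟩, ⟨χ₂, h₂⟩} : Finset (Cfsg.IrrCharacter G)))]
    · rw [Finset.sum_insert (by
          rw [Finset.mem_insert, Finset.mem_singleton]
          rintro (h | h)
          · exact d01 h
          · exact d02 h), Finset.sum_pair d12, add_assoc]
    · intro χ _ hχ
      rw [Finset.mem_insert, Finset.mem_insert, Finset.mem_singleton] at hχ
      push Not at hχ
      exact hF χ hχ.1 hχ.2.1 hχ.2.2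
  have hPother : ∀ χ : Cfsg.IrrCharacter G, χ ≠ ⟨fun _ => 1, h0⟩ → χ ≠ ⟨χ₁, h₁⟩ →
      χ ≠ ⟨χ₂, h₂⟩ → proj Ω (χ : G → ℂ) = 0 := by
    intro χ n0 n1 n2
    apply proj_eq_zero
    exact hinother χ.1 χ.2 (fun h => n0 (Subtype.ext h)) (fun h => n1 (Subtype.ext h))
      (fun h => n2 (Subtype.ext h))
  obtain ⟨θ₀, hθ₀⟩ : ∃ θ₀ : ℂ, θ₀ = cc ⟨fun _ => 1, h0⟩ := ⟨_, rfl⟩
  obtain ⟨θ₁, hθ₁⟩ : ∃ θ₁ : ℂ, θ₁ = cc ⟨χ₁, h₁⟩ := ⟨_, rfl⟩
  obtain ⟨θ₂, hθ₂⟩ : ∃ θ₂ : ℂ, θ₂ = cc ⟨χ₂, h₂⟩ := ⟨_, rfl⟩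
  obtain ⟨P₀, hP₀⟩ : ∃ P₀ : Matrix Ω Ω ℂ, P₀ = proj Ω (fun _ : G => (1 : ℂ)) := ⟨_, rfl⟩
  obtain ⟨P₁, hP₁⟩ : ∃ P₁ : Matrix Ω Ω ℂ, P₁ = proj Ω χ₁ := ⟨_, rfl⟩
  obtain ⟨P₂, hP₂⟩ : ∃ P₂ : Matrix Ω Ω ℂ, P₂ = proj Ω χ₂ := ⟨_, rfl⟩
  have hA : A = θ₀ • P₀ + θ₁ • P₁ + θ₂ • P₂ := by
    rw [hθ₀, hθ₁, hθ₂, hP₀, hP₁, hP₂]
    refine hcc.trans ?_
    exact hsum3 (fun χ => cc χ • proj Ω (χ : G → ℂ))
      (fun χ n0 n1 n2 => by rw [hPother χ n0 n1 n2, smul_zero])
  have hone : (1 : Matrix Ω Ω ℂ) = P₀ + P₁ + P₂ := by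
    rw [hP₀, hP₁, hP₂, ← sum_proj (G := G) (Ω := Ω)]
    exact hsum3 (fun χ => proj Ω (χ : G → ℂ)) hPother
  have p00 : P₀ * P₀ = P₀ := by
    have h := proj_mul_self (Ω := Ω) ⟨fun _ => 1, h0⟩
    rw [hP₀]
    exact h
  have p11 : P₁ * P₁ = P₁ := by
    have h := proj_mul_self (Ω := Ω) ⟨χ₁, h₁⟩
    rw [hP₁]
    exact h
  have p22 : P₂ * P₂ = P₂ := by
    have h := proj_mul_self (Ω := Ω) ⟨χ₂, h₂⟩
    rw [hP₂]
    exact h
  have p01 : P₀ * P₁ = 0 := by
    have h := proj_mul_of_ne (Ω := Ω) d01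
    rw [hP₀, hP₁]
    exact h
  have p10 : P₁ * P₀ = 0 := by
    have h := proj_mul_of_ne (Ω := Ω) d01.symm
    rw [hP₀, hP₁]
    exact h
  have p02 : P₀ * P₂ = 0 := by
    have h := proj_mul_of_ne (Ω := Ω) d02
    rw [hP₀, hP₂]
    exact h
  have p20 : P₂ * P₀ = 0 := by
    have h := proj_mul_of_ne (Ω := Ω) d02.symm
    rw [hP₀, hP₂]
    exact h
  have p12 : P₁ * P₂ = 0 := by
    have h := proj_mul_of_ne (Ω := Ω) d12
    rw [hP₁, hP₂]
    exact h
  have p21 : P₂ * P₁ = 0 := by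
    have h := proj_mul_of_ne (Ω := Ω) d12.symm
    rw [hP₁, hP₂]
    exact h
  have t0 : P₀.trace = 1 := by
    rw [hP₀, trace_proj Cfsg.Agent.Helper79.isCharacter_one, hin0, mul_one]
  have t1 : P₁.trace = (m : ℂ) - 1 := by
    rw [hP₁, trace_proj (Cfsg.Agent.Helper79.irr_isCharacter ⟨χ₁, h₁⟩), hin1, mul_one]
    exact hd₁
  have t2 : P₂.trace = (m : ℂ) := by
    rw [hP₂, trace_proj (Cfsg.Agent.Helper79.irr_isCharacter ⟨χ₂, h₂⟩), hin2, mul_one]
    exact hd₂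
  have hAP0 : A * P₀ = θ₀ • P₀ := by
    rw [hA]
    simp only [Matrix.add_mul, Matrix.smul_mul, p00, p10, p20, smul_zero, add_zero]
  have hθ₀k : θ₀ = (k : ℂ) := by
    have e1 : (A * P₀).trace = (k : ℂ) := by
      rw [hP₀, trace_mul_proj_one hAc a₀, hAdef, sum_orb_row, hk]
    rw [hAP0, Matrix.trace_smul, t0, smul_eq_mul, mul_one] at e1
    exact e1
  have hAA : A * A = (θ₀ * θ₀) • P₀ + (θ₁ * θ₁) • P₁ + (θ₂ * θ₂) • P₂ := by
    rw [hA]
    simp only [Matrix.add_mul, Matrix.mul_add, Matrix.smul_mul, Matrix.mul_smul, p00, p01, p02,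
      p10, p11, p12, p20, p21, p22, smul_zero, add_zero, zero_add, smul_smul]
  have htrA : A.trace = 0 := by
    rw [hAdef]
    unfold Matrix.trace
    apply Finset.sum_eq_zero
    intro x _
    rw [Matrix.diag_apply, orb_diag hb]
  have eq1 : θ₀ + θ₁ * ((m : ℂ) - 1) + θ₂ * (m : ℂ) = 0 := by
    have h3 := htrA
    rw [hA, Matrix.trace_add, Matrix.trace_add, Matrix.trace_smul, Matrix.trace_smul,
      Matrix.trace_smul, t0, t1, t2, smul_eq_mul, smul_eq_mul, smul_eq_mul, mul_one] at h3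
    exact h3
  have hrow : ∀ x, ∑ y : Ω, A x y = (k : ℂ) := by
    intro x
    rw [row_sum_eq hAc x a₀, hAdef, sum_orb_row, hk]
  have h01 : ∀ x y, A x y * A x y = A x y := by
    intro x y
    rw [hAdef]
    by_cases h : ∃ g : G, g • a₀ = x ∧ g • b = y
    · rw [orb_apply_of h, mul_one]
    · rw [orb_apply_of_not h, mul_zero]
  have htrAA : (A * A).trace = 2 * (m : ℂ) * (k : ℂ) := by
    have h3 : ∀ x, (A * A) x x = (k : ℂ) := by
      intro x
      rw [Matrix.mul_apply, ← hrow x]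
      apply Finset.sum_congr rfl
      intro y _
      have h4 : A y x = A x y := by
        have h5 := congrFun (congrFun hAt x) y
        rw [Matrix.transpose_apply] at h5
        exact h5
      rw [h4, h01]
    unfold Matrix.trace
    simp_rw [Matrix.diag_apply, h3]
    rw [Finset.sum_const, Finset.card_univ, hm, nsmul_eq_mul]
    push_cast
    ring
  have eq2 : θ₀ * θ₀ + θ₁ * θ₁ * ((m : ℂ) - 1) + θ₂ * θ₂ * (m : ℂ) = 2 * (m : ℂ) * (k : ℂ) := by
    have h3 := htrAA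
    rw [hAA, Matrix.trace_add, Matrix.trace_add, Matrix.trace_smul, Matrix.trace_smul,
      Matrix.trace_smul, t0, t1, t2, smul_eq_mul, smul_eq_mul, smul_eq_mul, mul_one] at h3
    exact h3
  have key : ∀ x y, (A * A) x y - (θ₁ + θ₂) * A x y + θ₁ * θ₂ * (1 : Matrix Ω Ω ℂ) x y =
      (θ₀ - θ₁) * (θ₀ - θ₂) * (Fintype.card Ω : ℂ)⁻¹ := by
    intro x y
    have e1 := congrFun (congrFun hAA x) y
    have e2 := congrFun (congrFun hA x) y
    have e3 := congrFun (congrFun hone x) y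
    simp only [Matrix.add_apply, Matrix.smul_apply, smul_eq_mul] at e1 e2 e3
    have e4 : P₀ x y = (Fintype.card Ω : ℂ)⁻¹ := by
      rw [hP₀]
      exact proj_one_apply x y
    linear_combination e1 - (θ₁ + θ₂) * e2 + θ₁ * θ₂ * e3 + (θ₀ - θ₁) * (θ₀ - θ₂) * e4
  have eb := key a₀ b
  have ec := key a₀ c
  have hAb : A a₀ b = 1 := by
    rw [hAdef]
    exact orb_apply_of ⟨1, one_smul _ _, one_smul _ _⟩
  have hAc0 : A a₀ c = 0 := by
    rw [hAdef]
    apply orb_apply_of_not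
    rintro ⟨g, h1, h2⟩
    exact hcb ⟨⟨g, h1⟩, h2⟩
  rw [hAb, Matrix.one_apply_ne hb.symm] at eb
  rw [hAc0, Matrix.one_apply_ne hc.symm] at ec
  have hint : ∀ x y, ∃ z : ℤ, (A * A) x y = (z : ℂ) := by
    intro x y
    rw [Matrix.mul_apply]
    choose f hf using (fun j => orb_apply_int (G := G) a₀ b x j)
    choose g hg using (fun j => orb_apply_int (G := G) a₀ b j y)
    refine ⟨∑ j, f j * g j, ?_⟩
    push_cast
    apply Finset.sum_congr rfl
    intro j _
    rw [hAdef, hf, hg]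
  obtain ⟨lam, hlam⟩ := hint a₀ b
  obtain ⟨mu, hmu⟩ := hint a₀ c
  obtain ⟨s, hsdef⟩ : ∃ s : ℤ, s = lam - mu := ⟨_, rfl⟩
  obtain ⟨t, htdef⟩ : ∃ t : ℤ, t = -(k : ℤ) - ((m : ℤ) - 1) * s := ⟨_, rfl⟩
  have hs : θ₁ + θ₂ = (s : ℂ) := by
    rw [hsdef]
    push_cast
    rw [← hlam, ← hmu]
    linear_combination ec - eb
  have ht : θ₂ = (t : ℂ) := by
    rw [htdef]
    push_cast
    rw [hθ₀k] at eq1
    linear_combination eq1 - ((m : ℂ) - 1) * hs
  have ht1 : θ₁ = ((s - t : ℤ) : ℂ) := by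
    push_cast
    rw [← hs, ← ht]
    ring
  refine ⟨s, t, htdef, ?_⟩
  rw [hθ₀k, ht1, ht] at eq2
  have e3 : (((k : ℤ) ^ 2 + (s - t) ^ 2 * ((m : ℤ) - 1) + t ^ 2 * m : ℤ) : ℂ) =
      ((2 * m * k : ℤ) : ℂ) := by
    push_cast
    push_cast at eq2
    linear_combination eq2
  exact_mod_cast e3

/-- Groups of Wielandt type: a primitive rank 3 group of degree `2m` whose permutation character
is `1 + χ₁ + χ₂` with irreducible `χ₁, χ₂` of degrees `m - 1` and `m`. -/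
theorem wielandt_rank3 (hprim : IsPreprimitive G Ω) {m : ℕ} (hm : Fintype.card Ω = 2 * m)
    (a₀ : Ω) (hrank : Nat.card (orbitRel.Quotient (stabilizer G a₀) Ω) = 3) (χ₁ χ₂ : G → ℂ)
    (h₁ : Cfsg.IsIrrCharacter G χ₁) (h₂ : Cfsg.IsIrrCharacter G χ₂)
    (hπ : (fun g : G => (Nat.card (fixedBy Ω g) : ℂ)) = fun g => 1 + χ₁ g + χ₂ g)
    (hd₁ : χ₁ 1 = (m : ℂ) - 1) (hd₂ : χ₂ 1 = m) :
    ∃ a : ℕ, 0 < a ∧ m = 2 * a ^ 2 + 2 * a + 1 ∧ ∀ b : Ω, b ≠ a₀ →
      Nat.card (orbit (stabilizer G a₀) b) = a * (2 * a + 1) ∨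
      Nat.card (orbit (stabilizer G a₀) b) = (a + 1) * (2 * a + 1) := by
  classical
  haveI : IsPretransitive G Ω := hprim.toIsPretransitive
  obtain ⟨b, c, hb, hc, hcb, hall, hcard⟩ := rank3_suborbits a₀ hrank
  obtain ⟨s, t, ht, heq⟩ := rank3_eigen_eq hm a₀ b c hb hc hcb χ₁ χ₂ h₁ h₂ hπ hd₁ hd₂
  have hpos : ∀ x : Ω, 0 < Nat.card (orbit (stabilizer G a₀) x) := by
    intro x
    haveI : Nonempty (orbit (stabilizer G a₀) x) := ⟨⟨x, mem_orbit_self x⟩⟩
    exact Nat.card_pos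
  have hone : ∀ x y : Ω, x ≠ a₀ → Nat.card (orbit (stabilizer G a₀) x) = 1 →
      Nat.card (orbit (stabilizer G a₀) y) = 1 := by
    intro x y hx h1
    have hfix : ∀ h ∈ stabilizer G a₀, h • x = x := by
      intro h hh
      have hsub : Subsingleton (orbit (stabilizer G a₀) x) :=
        (Nat.card_eq_one_iff_unique.mp h1).1
      have h2 := Subsingleton.elim
        (⟨h • x, ⟨⟨h, hh⟩, rfl⟩⟩ : orbit (stabilizer G a₀) x) ⟨x, mem_orbit_self x⟩
      exact congrArg Subtype.val h2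
    have hall' := stabilizer_fixes_all hx hfix y
    have h3 : orbit (stabilizer G a₀) y = {y} := by
      ext z
      constructor
      · rintro ⟨k, rfl⟩
        exact hall' k.1 k.2
      · intro hz
        rw [Set.mem_singleton_iff] at hz
        rw [hz]
        exact mem_orbit_self y
    rw [h3]
    simp
  have hm2 : 2 ≤ m := by
    have h0 : m ≠ 0 := by
      intro h
      rw [h, mul_zero] at hm
      haveI : Nonempty Ω := ⟨a₀⟩
      exact Fintype.card_ne_zero hm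
    have h1 : m ≠ 1 := by
      intro h
      apply Cfsg.Agent.Helper80.irr_one_ne_zero ⟨χ₁, h₁⟩
      show χ₁ 1 = 0
      rw [hd₁, h]
      simp
    omega
  have hk1 : Nat.card (orbit (stabilizer G a₀) b) ≠ 1 := by
    intro h
    have h2 := hone b c hb h
    omega
  have hl1 : Nat.card (orbit (stabilizer G a₀) c) ≠ 1 := by
    intro h
    have h2 := hone c b hc h
    omega
  obtain ⟨a, ha, hma, hkl⟩ := wielandt_arith (by omega) (hpos b) (hpos c) hk1 hl1 hm2 s t ht heq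
  refine ⟨a, ha, hma, ?_⟩
  intro x hx
  rcases hall x hx with h | h
  · rw [h]
    rcases hkl with ⟨h1, _⟩ | ⟨h1, _⟩
    · left; exact h1
    · right; exact h1
  · rw [h]
    rcases hkl with ⟨_, h2⟩ | ⟨_, h2⟩
    · right; exact h2
    · left; exact h2

end PermMod6

end Cfsg.Agent.Helper12
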