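import Mathlib
import Cfsg.Agent.Helper8.S4504Defs
import Cfsg.Agent.Helper15.S4504Shape
import Cfsg.Agent.Helper15.B42Main

/-!
# CALL S4504S (helper15), piece NORMCARD (helper12, double)

`|N(⟨x⟩)| = p |F| |K|` for `C(x) = ⟨x⟩ × K` and `F` the units `u` with `x ~ x^u`.
-/

universe u
set_option autoImplicit false
open Cfsg Cfsg.Agent.Helper77 Cfsg.Agent.Helper15 Cfsg.Agent.Helper8
open scoped ComplexConjugate

namespace Cfsg.Agent.Helper12

variable {G : Type u} [Group G] [Finite G]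

/-- In a finite group, an element conjugating a subgroup into itself normalises it. -/
theorem s4504snc_mem_normalizer (K : Subgroup G) (t : G) (h : ∀ y ∈ K, t * y * t⁻¹ ∈ K) :
    t ∈ Subgroup.normalizer (K : Set G) := by
  rw [Subgroup.mem_normalizer_iff]
  intro y
  refine ⟨h y, fun hy => ?_⟩
  let f : K → K := fun y => ⟨t * y * t⁻¹, h y y.2⟩
  have hf : Function.Injective f := by
    intro a b hab
    have h1 : t * (a : G) * t⁻¹ = t * (b : G) * t⁻¹ := congrArg Subtype.val hab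
    exact Subtype.ext (mul_left_cancel (mul_right_cancel h1))
  obtain ⟨y', hy'⟩ := (Finite.injective_iff_surjective.mp hf) ⟨t * y * t⁻¹, hy⟩
  have h1 : t * (y' : G) * t⁻¹ = t * y * t⁻¹ := congrArg Subtype.val hy'
  have e : (y' : G) = y := mul_left_cancel (mul_right_cancel h1)
  rw [← e]
  exact y'.2

theorem s4504snc_mem_N_iff (x t : G) :
    t ∈ Subgroup.normalizer ((Subgroup.zpowers x : Subgroup G) : Set G) ↔
      t * x * t⁻¹ ∈ Subgroup.zpowers x := by
  constructor
  · intro h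
    exact (Subgroup.mem_normalizer_iff.mp h x).mp (Subgroup.mem_zpowers x)
  · intro h
    apply s4504snc_mem_normalizer
    intro y hy
    obtain ⟨k, rfl⟩ := Subgroup.mem_zpowers_iff.mp hy
    rw [← conj_zpow]
    exact zpow_mem h k

/-- `|C(x)| = p |K|`. -/
theorem s4504snc_cent_card (p : ℕ) [Fact p.Prime] (x : G) (K : Subgroup G) (h : D1Hyp p x K) :
    Nat.card {c : G // c * x = x * c} = p * Nat.card K := by
  classical
  have hp : p.Prime := Fact.out
  let f : Fin p × K → {c : G // c * x = x * c} := fun z =>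
    ⟨x ^ (z.1 : ℕ) * (z.2 : G), (h.hC _).mpr ⟨z.1, z.2, z.2.2, rfl⟩⟩
  have hinj : Function.Injective f := by
    rintro ⟨i, k⟩ ⟨j, k'⟩ hij
    have h1 : x ^ (i : ℕ) * (k : G) = x ^ (j : ℕ) * (k' : G) := congrArg Subtype.val hij
    have h2 : (x ^ (j : ℕ))⁻¹ * x ^ (i : ℕ) = (k' : G) * (k : G)⁻¹ := by
      have : x ^ (i : ℕ) = x ^ (j : ℕ) * (k' : G) * (k : G)⁻¹ := by rw [← h1]; group
      rw [this]; group
    have he1 : (x ^ (j : ℕ))⁻¹ * x ^ (i : ℕ) = 1 := by
      have hK : ((x ^ (j : ℕ))⁻¹ * x ^ (i : ℕ)) ^ Nat.card K = 1 := by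
        rw [h2]
        have h3 : ((k' * k⁻¹ : K) : G) ^ Nat.card K = 1 := by
          rw [← Subgroup.coe_pow, pow_card_eq_one', Subgroup.coe_one]
        simpa using h3
      have hP : ((x ^ (j : ℕ))⁻¹ * x ^ (i : ℕ)) ^ p = 1 := by
        have hmem : (x ^ (j : ℕ))⁻¹ * x ^ (i : ℕ) ∈ Subgroup.zpowers x :=
          mul_mem (inv_mem (pow_mem (Subgroup.mem_zpowers x) _))
            (pow_mem (Subgroup.mem_zpowers x) _)
        obtain ⟨m, hm⟩ := Subgroup.mem_zpowers_iff.mp hmem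
        rw [← hm, ← zpow_natCast, ← zpow_mul, mul_comm, zpow_mul, zpow_natCast, ← h.hx,
          pow_orderOf_eq_one, one_zpow]
      have hcop : Nat.Coprime p (Nat.card K) := (Nat.Prime.coprime_iff_not_dvd hp).mpr h.hK
      have h4 := Nat.dvd_gcd (orderOf_dvd_of_pow_eq_one hP) (orderOf_dvd_of_pow_eq_one hK)
      rw [Nat.Coprime] at hcop
      rw [hcop, Nat.dvd_one] at h4
      exact orderOf_eq_one_iff.mp h4
    have h3 : x ^ (i : ℕ) = x ^ (j : ℕ) := by
      rw [inv_mul_eq_one] at he1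
      exact he1.symm
    have h4 : (i : ℕ) = j :=
      pow_injOn_Iio_orderOf (by rw [Set.mem_Iio, h.hx]; exact i.2)
        (by rw [Set.mem_Iio, h.hx]; exact j.2) h3
    have h5 : i = j := Fin.ext h4
    subst h5
    have h6 : (k : G) = k' := mul_left_cancel h1
    exact Prod.ext rfl (Subtype.ext h6)
  have hsurj : Function.Surjective f := by
    rintro ⟨c, hc⟩
    obtain ⟨i, k, hk, rfl⟩ := (h.hC c).mp hc
    refine ⟨(⟨i % p, Nat.mod_lt _ hp.pos⟩, ⟨k, hk⟩), ?_⟩
    apply Subtype.ext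
    show x ^ (i % p) * k = x ^ i * k
    rw [← h.hx, pow_mod_orderOf]
  rw [← Nat.card_congr (Equiv.ofBijective f ⟨hinj, hsurj⟩), Nat.card_prod,
    Nat.card_eq_fintype_card, Fintype.card_fin]

/-- NORMCARD: the order of the normalizer of `⟨x⟩`. -/
theorem s4504s_normcard (p : ℕ) [Fact p.Prime] (x : G) (K : Subgroup G) (h : D1Hyp p x K)
    (F : Subgroup (ZMod p)ˣ) (hF : (F : Set (ZMod p)ˣ) = normUnits p x) :
    Nat.card (Subgroup.normalizer ((Subgroup.zpowers x : Subgroup G) : Set G))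
      = p * Nat.card F * Nat.card K := by
  classical
  have hp : p.Prime := Fact.out
  haveI : NeZero p := ⟨hp.ne_zero⟩
  have hx := h.hx
  have hx1 : x ≠ 1 := by
    intro h1
    rw [h1, orderOf_one] at hx
    exact hp.one_lt.ne hx
  have hmemF : ∀ u : (ZMod p)ˣ, u ∈ F ↔ ∃ n : G, n * x * n⁻¹ = x ^ (u : ZMod p).val :=
    fun u => by rw [← SetLike.mem_coe, hF]; rfl
  choose! rep hrep using fun u : (ZMod p)ˣ => (hmemF u).mp
  have hconj : ∀ (u : F) (c : {c : G // c * x = x * c}),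
      rep u * (c : G) * x * (rep u * (c : G))⁻¹ = x ^ ((u : (ZMod p)ˣ) : ZMod p).val := by
    intro u c
    have h1 := c.2
    rw [mul_assoc (rep (u : (ZMod p)ˣ)), h1, ← hrep _ u.2]
    group
  let f : F × {c : G // c * x = x * c} →
      Subgroup.normalizer ((Subgroup.zpowers x : Subgroup G) : Set G) := fun z =>
    ⟨rep z.1 * (z.2 : G), by
      rw [s4504snc_mem_N_iff, hconj]
      exact pow_mem (Subgroup.mem_zpowers x) _⟩
  have hinj : Function.Injective f := by
    rintro ⟨u, c⟩ ⟨u', c'⟩ huu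
    have h0 : rep u * (c : G) = rep u' * (c' : G) := congrArg Subtype.val huu
    have h1 := hconj u c
    have h2 := hconj u' c'
    rw [h0, h2] at h1
    have h4 : ((u' : (ZMod p)ˣ) : ZMod p).val = ((u : (ZMod p)ˣ) : ZMod p).val :=
      pow_injOn_Iio_orderOf (by rw [Set.mem_Iio, hx]; exact ZMod.val_lt _)
        (by rw [Set.mem_Iio, hx]; exact ZMod.val_lt _) h1
    have h5 : u = u' := Subtype.ext (Units.ext (ZMod.val_injective p h4.symm))
    subst h5
    exact Prod.ext rfl (Subtype.ext (mul_left_cancel h0))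
  have hsurj : Function.Surjective f := by
    rintro ⟨n, hn⟩
    have hn' := (s4504snc_mem_N_iff x n).mp hn
    obtain ⟨j, hj⟩ := Subgroup.mem_zpowers_iff.mp hn'
    obtain ⟨b, hb, hbp⟩ : ∃ b : ℕ, x ^ b = n * x * n⁻¹ ∧ b < p := by
      refine ⟨(j % (p : ℤ)).toNat, ?_, ?_⟩
      · rw [← hj, ← zpow_natCast,
          Int.toNat_of_nonneg (Int.emod_nonneg _ (by exact_mod_cast hp.ne_zero)), ← hx,
          zpow_mod_orderOf]
      · have h1 := Int.emod_lt_of_pos j (by exact_mod_cast hp.pos : (0 : ℤ) < p)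
        have h2 := Int.emod_nonneg j (by exact_mod_cast hp.ne_zero : (p : ℤ) ≠ 0)
        omega
    have hbne : ((b : ℕ) : ZMod p) ≠ 0 := by
      intro h0
      rw [ZMod.natCast_eq_zero_iff] at h0
      have h1 : x ^ b = 1 := by
        rw [← hx] at h0
        exact orderOf_dvd_iff_pow_eq_one.mp h0
      rw [hb] at h1
      apply hx1
      have h2 : x = n⁻¹ * (n * x * n⁻¹) * n := by group
      rw [h2, h1]
      group
    have huval : ((Units.mk0 ((b : ℕ) : ZMod p) hbne : (ZMod p)ˣ) : ZMod p).val = b := by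
      show ((b : ℕ) : ZMod p).val = b
      rw [ZMod.val_natCast, Nat.mod_eq_of_lt hbp]
    have huF : Units.mk0 ((b : ℕ) : ZMod p) hbne ∈ F :=
      (hmemF _).mpr ⟨n, by rw [huval]; exact hb.symm⟩
    have hc : (rep (Units.mk0 ((b : ℕ) : ZMod p) hbne))⁻¹ * n * x =
        x * ((rep (Units.mk0 ((b : ℕ) : ZMod p) hbne))⁻¹ * n) := by
      have h1 := hrep _ huF
      rw [huval, hb] at h1
      have h2 : n * x = rep (Units.mk0 ((b : ℕ) : ZMod p) hbne) * x *
          (rep (Units.mk0 ((b : ℕ) : ZMod p) hbne))⁻¹ * n := by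
        rw [h1]; group
      rw [mul_assoc, h2]
      group
    refine ⟨(⟨_, huF⟩, ⟨_, hc⟩), Subtype.ext ?_⟩
    show rep (Units.mk0 ((b : ℕ) : ZMod p) hbne) *
      ((rep (Units.mk0 ((b : ℕ) : ZMod p) hbne))⁻¹ * n) = n
    group
  rw [← Nat.card_congr (Equiv.ofBijective f ⟨hinj, hsurj⟩), Nat.card_prod,
    s4504snc_cent_card p x K h]
  ring

end Cfsg.Agent.Helper12
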