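import Mathlib
import Cfsg.Prelude.Def_Characters
import Cfsg.Prelude.Def_Blocks
import Cfsg.Agent.Helper3.Burnside
import Cfsg.Agent.Helper3.Burnside2
import Cfsg.Agent.Helper81.CharBasic

/-!
CALL S0997 (helper79) -- PIECE INT (helper12): an irreducible character of 2-power degree `≥ 2`
of a non-abelian simple group vanishes at a 2-central involution.
-/

set_option autoImplicit false
open Cfsg
open scoped ComplexConjugate

universe u

namespace Cfsg.Agent.Helper12

/-- In a non-abelian simple group, an irreducible representation of degree `≠ 1` has no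
non-identity element acting as a scalar. -/
theorem s997_no_scalar {G : Type u} [Group G] [Finite G] [IsSimpleGroup G]
    (hnc : ¬ ∀ a b : G, a * b = b * a) {n : ℕ} (ρ : Representation ℂ G (Fin n → ℂ))
    [ρ.IsIrreducible] (hdeg : Module.finrank ℂ (Fin n → ℂ) ≠ 1) (g : G) (hg : g ≠ 1)
    (ω : ℂ) (hω : ρ g = ω • (LinearMap.id : (Fin n → ℂ) →ₗ[ℂ] (Fin n → ℂ))) : False := by
  classical
  have : Fintype G := Fintype.ofFinite G
  rcases IsSimpleGroup.eq_bot_or_eq_top_of_normal (MonoidHom.ker ρ) inferInstance with hK | hK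
  · -- faithful: then `g` is central
    have hcen : g ∈ Subgroup.center G := by
      rw [Subgroup.mem_center_iff]
      intro h
      have h1 : ρ (h * g) = ρ (g * h) := by
        rw [map_mul, map_mul, hω]
        ext v
        simp
      have h2 : (h * g) * (g * h)⁻¹ ∈ MonoidHom.ker ρ := by
        rw [MonoidHom.mem_ker, map_mul, h1, ← map_mul, mul_inv_cancel, map_one]
      rw [hK, Subgroup.mem_bot] at h2
      exact mul_inv_eq_one.mp h2
    rcases IsSimpleGroup.eq_bot_or_eq_top_of_normal (Subgroup.center G) inferInstance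
      with hZ | hZ
    · rw [hZ, Subgroup.mem_bot] at hcen
      exact hg hcen
    · apply hnc
      intro a b
      have ha : a ∈ Subgroup.center G := by rw [hZ]; trivial
      exact (Subgroup.mem_center_iff.mp ha b).symm
  · -- trivial action: then the degree is 1
    have htriv : ∀ h : G, ρ h = 1 := by
      intro h
      have : h ∈ MonoidHom.ker ρ := by rw [hK]; trivial
      exact MonoidHom.mem_ker.mp this
    have hconst : ∀ h : G, ρ.character h = (Module.finrank ℂ (Fin n → ℂ) : ℂ) := by
      intro h
      rw [Representation.character, htriv h]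
      exact LinearMap.trace_one ℂ _
    have hsum := Helper3.sum_character_mul_inv ρ
    simp only [hconst] at hsum
    rw [Finset.sum_const, Finset.card_univ, nsmul_eq_mul, Nat.card_eq_fintype_card] at hsum
    have hG : (Fintype.card G : ℂ) ≠ 0 := by exact_mod_cast Fintype.card_ne_zero
    have hd : (Module.finrank ℂ (Fin n → ℂ) : ℂ) * (Module.finrank ℂ (Fin n → ℂ) : ℂ) = 1 := by
      have := mul_left_cancel₀ hG (hsum.trans (mul_one _).symm)
      exact this
    have hd' : Module.finrank ℂ (Fin n → ℂ) * Module.finrank ℂ (Fin n → ℂ) = 1 := by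
      exact_mod_cast hd
    exact hdeg (Nat.eq_one_of_mul_eq_one_left hd')

/-- INT -/
theorem s997_int_zero {G : Type u} [Group G] [Finite G] [IsSimpleGroup G]
    (hnc : ¬ ∀ a b : G, a * b = b * a) (b m k : ℕ) (hcard : Nat.card G = 2 ^ b * m)
    (hm : ¬ 2 ∣ m) (z : G) (hz : orderOf z = 2)
    (hzC : 2 ^ b ∣ Nat.card (Subgroup.centralizer ({z} : Set G)))
    (ψ : Cfsg.IrrCharacter G) (hdeg : Cfsg.charDegree (ψ : G → ℂ) = 2 ^ k) (hk : 1 ≤ k) :
    (ψ : G → ℂ) z = 0 := by
  classical
  have : Fintype G := Fintype.ofFinite G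
  have hz1 : z ≠ 1 := by
    rintro rfl
    rw [orderOf_one] at hz
    omega
  obtain ⟨n, ρ, hρ, hχeq⟩ := ψ.2
  have := hρ
  -- the degree
  have hfin : Module.finrank ℂ (Fin n → ℂ) = 2 ^ k := by
    have h1 : (ψ : G → ℂ) 1 = (Module.finrank ℂ (Fin n → ℂ) : ℂ) := by
      rw [← hχeq, Representation.char_one]
    have h2 := Helper81.irr_one_eq_charDegree ψ
    rw [h1, hdeg] at h2
    exact_mod_cast h2
  -- the class of `z` has odd size
  have hidx : ¬ 2 ∣ (Subgroup.centralizer ({z} : Set G)).index := by
    intro h2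
    obtain ⟨c, hc⟩ := hzC
    have hmul := Subgroup.card_mul_index (Subgroup.centralizer ({z} : Set G))
    rw [hcard, hc] at hmul
    have hpos : 0 < 2 ^ b := by positivity
    have h3 : c * (Subgroup.centralizer ({z} : Set G)).index = m := by
      have : 2 ^ b * (c * (Subgroup.centralizer ({z} : Set G)).index) = 2 ^ b * m := by
        rw [← hmul]; ring
      exact Nat.eq_of_mul_eq_mul_left hpos this
    exact hm (h3 ▸ Dvd.dvd.mul_left h2 c)
  have hcop : Nat.Coprime (Module.finrank ℂ (Fin n → ℂ))
      (Subgroup.centralizer ({z} : Set G)).index := by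
    rw [hfin]
    apply Nat.Coprime.pow_left
    exact (Nat.Prime.coprime_iff_not_dvd Nat.prime_two).2 hidx
  rcases Helper3.burnside_coprime ρ z hcop with h0 | hnorm
  · rw [← hχeq]; exact h0
  · exfalso
    obtain ⟨ω, hω⟩ := Helper3.rep_scalar_of_norm_eq ρ z hnorm
    have hne : Module.finrank ℂ (Fin n → ℂ) ≠ 1 := by
      rw [hfin]
      have : 2 ^ 1 ≤ 2 ^ k := Nat.pow_le_pow_right (by norm_num) hk
      omega
    exact s997_no_scalar hnc ρ hne z hz1 ω hω

end Cfsg.Agent.Helper12
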