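import Mathlib

/-!
CALL S0997 (helper79) -- PIECE NB0 (helper12, double of helper41): arithmetic of case (β), `q = 2`.
-/

set_option autoImplicit false

namespace Cfsg.Agent.Helper12

/-- NB0 -/
theorem s997_num_beta_q {ι : Type*} (X1 X2 : Finset ι) (d : ι → ℕ) (p q e f t b g₀ n : ℕ)
    (hp : p.Prime) (hq : q.Prime) (he2 : 2 ≤ e) (hef : e + f = p) (het : e * t = p - 1)
    (ht : 2 ≤ t) (hfg : f ∣ g₀) (hg : g₀ < p - 1)
    (hord : q ^ b * g₀ = e * (1 + n * p))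
    (hq1 : ∀ χ ∈ X1, q ∣ d χ) (hq2 : ∀ χ ∈ X2, q ∣ d χ)
    (hrel : -(f : ℤ) = 1 + ∑ χ ∈ X1, (d χ : ℤ) - ∑ χ ∈ X2, (d χ : ℤ)) :
    q = 2 ∧ g₀ = f ∧ ∃ c : ℕ, 1 ≤ c ∧ e = 2 ^ c := by
  have hp2 := hp.two_le
  -- `2 e ≤ p - 1`
  have h2e : 2 * e ≤ p - 1 := by
    rw [← het]
    calc 2 * e = e * 2 := by ring
      _ ≤ e * t := Nat.mul_le_mul_left e ht
  -- `g₀ > 0`
  have hg0 : 0 < g₀ := by
    rcases Nat.eq_zero_or_pos g₀ with h | h
    · exfalso
      rw [h, mul_zero] at hord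
      have : 0 < e * (1 + n * p) := by positivity
      omega
    · exact h
  -- `g₀ = f`
  have hgf : g₀ = f := by
    obtain ⟨k, hk⟩ := hfg
    have hk1 : 1 ≤ k := by
      rcases Nat.eq_zero_or_pos k with h | h
      · rw [h, mul_zero] at hk; omega
      · exact h
    have hk2 : k < 2 := by
      by_contra hcon
      have h2 : 2 ≤ k := by omega
      have : f * 2 ≤ f * k := Nat.mul_le_mul_left f h2
      omega
    have : k = 1 := by omega
    rw [hk, this, mul_one]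
  -- `e ∣ q ^ b`
  have hcop_ep : Nat.Coprime e p := by
    rw [Nat.coprime_comm]
    apply (Nat.Prime.coprime_iff_not_dvd hp).2
    intro h
    have := Nat.le_of_dvd (by omega) h
    omega
  have hcop_ef : Nat.Coprime e f := by
    have h1 : Nat.Coprime e (e + f) := by rw [hef]; exact hcop_ep
    rwa [Nat.coprime_self_add_right] at h1
  have hedvd : e ∣ q ^ b := by
    have h1 : e ∣ q ^ b * f := by
      rw [← hgf, hord]; exact dvd_mul_right _ _
    exact hcop_ef.dvd_of_dvd_mul_right h1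
  obtain ⟨c, hcb, hec⟩ := (Nat.dvd_prime_pow hq).mp hedvd
  have hc1 : 1 ≤ c := by
    rcases Nat.eq_zero_or_pos c with h | h
    · rw [h, pow_zero] at hec; omega
    · exact h
  have hqe : q ∣ e := by
    rw [hec]; exact dvd_pow_self q (by omega)
  -- `q ∣ f + 1`
  have hqf1 : (q : ℤ) ∣ (f : ℤ) + 1 := by
    have h1 : (q : ℤ) ∣ ∑ χ ∈ X1, (d χ : ℤ) :=
      Finset.dvd_sum (fun χ hχ => by exact_mod_cast hq1 χ hχ)
    have h2 : (q : ℤ) ∣ ∑ χ ∈ X2, (d χ : ℤ) :=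
      Finset.dvd_sum (fun χ hχ => by exact_mod_cast hq2 χ hχ)
    have h3 : (f : ℤ) + 1 = ∑ χ ∈ X2, (d χ : ℤ) - ∑ χ ∈ X1, (d χ : ℤ) := by
      linarith
    rw [h3]
    exact dvd_sub h2 h1
  have hqf1' : q ∣ f + 1 := by exact_mod_cast hqf1
  -- `q ∣ p - 1` and `q ∣ p + 1`
  have hqpm : q ∣ p - 1 := by
    rw [← het]; exact Dvd.dvd.mul_right hqe t
  have hqpp : q ∣ p + 1 := by
    have h1 : p + 1 = (f + 1) + e := by omega
    rw [h1]; exact dvd_add hqf1' hqe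
  have hq2' : q ∣ 2 := by
    have h1 : p + 1 = (p - 1) + 2 := by omega
    rw [h1] at hqpp
    exact (Nat.dvd_add_right hqpm).mp hqpp
  have hq2'' : q = 2 := (Nat.prime_dvd_prime_iff_eq hq Nat.prime_two).mp hq2'
  refine ⟨hq2'', hgf, c, hc1, ?_⟩
  rw [hec, hq2'']

end Cfsg.Agent.Helper12
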