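import Mathlib
import Cfsg.Agent.Helper9.BRDefs
import Cfsg.Agent.Helper75.BRT1
import Cfsg.Agent.Helper81.CharBasic

/-!
CALL S0997 (helper79) -- PIECE PB2 (helper12): case (β2) of Brauer-Tuan, the 2-part bound `b ≤ m`.
-/

set_option autoImplicit false
open Cfsg
open scoped ComplexConjugate

universe u

namespace Cfsg.Agent.Helper12

/-- PB2 -/
theorem s997_beta_two {G : Type u} [Group G] [Fintype G] {p : ℕ} [Fact p.Prime]
    {M : Ideal Cfsg.AlgInt} (hM : Cfsg.IsPModular p M) (P : Sylow p G)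
    (T : Cfsg.Agent.Helper9.BRTab p M P 2) (hε : T.ε = -1) (hodd : p ≠ 2)
    (f b m : ℕ) (hfp : f + 2 = p) (hf : ∀ θ ∈ T.Y, Cfsg.charDegree (θ : G → ℂ) = f)
    (hYne : T.Y.Nonempty) (hX1 : T.X1 = ∅) (χ₂ : Cfsg.IrrCharacter G) (hX2 : T.X2 = {χ₂})
    (hpm : p - 1 = 2 ^ m) (hcard : Nat.card G = p * 2 ^ b * f)
    (y : G) (hy : y ∈ (P : Subgroup G)) (hy1 : y ≠ 1) (z : G) (hz : orderOf z = 2)
    (hzC : 2 ^ b ∣ Nat.card (Subgroup.centralizer ({z} : Set G)))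
    (hχz : (χ₂ : G → ℂ) z = 0)
    (hfree : Nat.card (Subgroup.centralizer ({z} : Set G)) ^ 2 ∣
      Nat.card {gh : G × G // gh.1 * z * gh.1⁻¹ * (gh.2 * z * gh.2⁻¹) = y})
    (hcc : (Nat.card {gh : G × G // gh.1 * z * gh.1⁻¹ * (gh.2 * z * gh.2⁻¹) = y} : ℂ)
      = (Nat.card G : ℂ) * (1
          + ∑ ψ ∈ T.X1, (ψ : G → ℂ) z ^ 2 / (ψ : G → ℂ) 1
          - ∑ ψ ∈ T.X2, (ψ : G → ℂ) z ^ 2 / (ψ : G → ℂ) 1
          + ∑ θ ∈ T.Y, (θ : G → ℂ) z ^ 2 * conj ((θ : G → ℂ) y) / (θ : G → ℂ) 1)) :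
    b ≤ m := by
  classical
  have hp : p.Prime := Fact.out
  have hp3 : 3 ≤ p := by
    have := hp.two_le
    omega
  have hf1 : 1 ≤ f := by omega
  -- `z` is `p`-regular
  have hzreg : ¬ p ∣ orderOf z := by
    rw [hz]
    intro h
    have := Nat.le_of_dvd (by norm_num) h
    omega
  -- value of the exceptional characters at `z`
  have hτ : ∀ θ ∈ T.Y, (θ : G → ℂ) z = -1 := by
    intro θ hθ
    have h := T.hrel θ hθ z hzreg
    rw [hX1, hX2, hε] at h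
    simp only [Finset.sum_empty, Finset.sum_singleton, hχz] at h
    have h2 : -(θ : G → ℂ) z = 1 := by
      have : ((-1 : ℤ) : ℂ) = -1 := by norm_num
      rw [this] at h
      linear_combination h
    linear_combination -h2
  have hsum : ∑ θ ∈ T.Y, (θ : G → ℂ) y = 1 := by
    have h := Helper75.br_theta_sum hM T hYne y hy hy1
    rw [hε] at h
    rw [h]; norm_num
  have hfC : (f : ℂ) ≠ 0 := by
    exact_mod_cast (by omega : f ≠ 0)
  -- the exceptional sum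
  have hY : ∑ θ ∈ T.Y, (θ : G → ℂ) z ^ 2 * conj ((θ : G → ℂ) y) / (θ : G → ℂ) 1
      = 1 / (f : ℂ) := by
    have h1 : ∀ θ ∈ T.Y, (θ : G → ℂ) z ^ 2 * conj ((θ : G → ℂ) y) / (θ : G → ℂ) 1
        = conj ((θ : G → ℂ) y) / (f : ℂ) := by
      intro θ hθ
      rw [hτ θ hθ, Helper81.irr_one_eq_charDegree, hf θ hθ]
      ring
    rw [Finset.sum_congr rfl h1, ← Finset.sum_div, ← map_sum, hsum, map_one]
  rw [hX1, hX2, hY] at hcc
  simp only [Finset.sum_empty, Finset.sum_singleton, hχz] at hcc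
  set N := Nat.card {gh : G × G // gh.1 * z * gh.1⁻¹ * (gh.2 * z * gh.2⁻¹) = y} with hN
  -- `N = p * 2 ^ (b + m)`
  have hNval : N = p * 2 ^ (b + m) := by
    have hpm' : f + 1 = 2 ^ m := by omega
    have h1 : (N : ℂ) = ((p * 2 ^ b * (f + 1) : ℕ) : ℂ) := by
      rw [hcc, hcard]
      push_cast
      field_simp
      ring
    have h2 : N = p * 2 ^ b * (f + 1) := by exact_mod_cast h1
    rw [h2, hpm', pow_add]; ring
  -- divisibility
  have hdvd : (2 ^ b) ^ 2 ∣ p * 2 ^ (b + m) := by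
    rw [← hNval]
    exact dvd_trans (pow_dvd_pow_of_dvd hzC 2) hfree
  have hcop : Nat.Coprime ((2 ^ b) ^ 2) p := by
    apply Nat.Coprime.pow_left
    apply Nat.Coprime.pow_left
    rw [Nat.coprime_primes Nat.prime_two hp]
    exact fun h => hodd h.symm
  have hdvd2 : (2 ^ b) ^ 2 ∣ 2 ^ (b + m) := hcop.dvd_of_dvd_mul_left hdvd
  rw [← pow_mul] at hdvd2
  have := (Nat.pow_dvd_pow_iff_le_right (by norm_num : 1 < 2)).mp hdvd2
  omega

end Cfsg.Agent.Helper12
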