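import Mathlib
import Cfsg.Agent.Helper71.SQMain
import Cfsg.Agent.Helper71.SGDefs

/-!
# CALL S5666, piece TY3 (helper12): no conjugate of a transvection `t_a(c) ⊗ 1` is of the form
`1 ⊗ (1 + N)` with `N ≠ 0`, `N * N = 0`.
-/

set_option autoImplicit false
set_option linter.unusedVariables false

namespace Cfsg.Agent.Helper12.SGTY3

open Matrix Cfsg.Agent.Helper71.T4 Cfsg.Agent.Helper71.SO Cfsg.Agent.Helper71.SQ
open Cfsg.Agent.Helper71.SG
open scoped Kronecker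
open Cfsg.Agent.Helper11.SORT
open Cfsg.Agent.Helper53.SQET (tac_mulVec eay_mulVec troot_inM et_bl_skew et_bl_self)
open Cfsg.Agent.Helper53.SQTA (alt_partner alt_partner2)
open Cfsg.Agent.Helper96.T5 (bf pt_add_left pt_add_right pt_smul_left pt_smul_right pt_zero_right)

variable {F : Type*} [Field F] {m n : ℕ}

/-- entries of `(1 ⊗ B) v`, row by row -/
theorem ty3_one_kron (B : Matrix (Fin n) (Fin n) F) (v : Fin m × Fin n → F) (i : Fin m)
    (k : Fin n) :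
    (((1 : Matrix (Fin m) (Fin m) F) ⊗ₖ B) *ᵥ v) (i, k) = (B *ᵥ fun l => v (i, l)) k := by
  classical
  simp only [Matrix.mulVec, dotProduct, Fintype.sum_prod_type, Matrix.kroneckerMap_apply,
    Matrix.one_apply]
  rw [Finset.sum_eq_single i]
  · simp
  · intro j _ hj
    simp [Ne.symm hj]
  · intro h
    exact absurd (Finset.mem_univ _) h

/-- the form `OmG J S` vanishes on two vectors whose rows are pairwise `S`-orthogonal -/
theorem ty3_om_rows (J : Matrix (Fin m) (Fin m) F) (S : Matrix (Fin n) (Fin n) F)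
    (X X' : Fin m × Fin n → F)
    (h : ∀ i i', bl S (fun l => X (i, l)) (fun l => X' (i', l)) = 0) :
    bf (OmG J S) X X' = 0 := by
  have key : bf (OmG J S) X X' =
      ∑ i, ∑ i', J i i' * bl S (fun l => X (i, l)) (fun l => X' (i', l)) := by
    unfold bf OmG bl
    simp only [dotProduct, Matrix.mulVec, Fintype.sum_prod_type, Matrix.kroneckerMap_apply,
      Finset.mul_sum]
    refine Finset.sum_congr rfl fun i _ => ?_
    rw [Finset.sum_comm]
    refine Finset.sum_congr rfl fun i' _ => ?_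
    refine Finset.sum_congr rfl fun j _ => ?_
    refine Finset.sum_congr rfl fun j' _ => ?_
    ring
  rw [key]
  simp [h]

/-- `t_a(c) ⊗ 1` on a general vector -/
theorem ty3_tac_kron (J : Matrix (Fin m) (Fin m) F) (a : Fin m → F) (c : F)
    (v : Fin m × Fin n → F) :
    (Tac J a c ⊗ₖ (1 : Matrix (Fin n) (Fin n) F)) *ᵥ v =
      v + c • pt a (fun k => bl J (fun i => v (i, k)) a) := by
  ext ⟨i, k⟩
  rw [Cfsg.Agent.Helper4.SQFX.kron_one_mulVec_apply, tac_mulVec]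
  simp [pt]
  ring

theorem ty3_exists_perp (hm : 3 ≤ m) (J : Matrix (Fin m) (Fin m) F) (hJ : Jᵀ = -J)
    (hdet : J.det ≠ 0) (a : Fin m → F) (ha : a ≠ 0) :
    ∃ y : Fin m → F, bl J a y = 0 ∧ ∀ l : F, y ≠ l • a := by
  obtain ⟨a₁, ha₁⟩ := alt_partner J hdet a ha
  obtain ⟨β, hβ, h1, h2⟩ := exists_perp2 hm (J *ᵥ a) (J *ᵥ a₁)
  refine ⟨β, ?_, ?_⟩
  · rw [et_bl_skew J hJ]
    show -(β ⬝ᵥ J *ᵥ a) = 0
    rw [h1, neg_zero]
  · intro l hl
    have h3 : bl J β a₁ = 0 := h2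
    rw [hl, bl_smul_left, ha₁, mul_one] at h3
    apply hβ
    rw [hl, h3, zero_smul]

theorem ty3_nonsing (h2 : (2 : F) ≠ 0) (S : Matrix (Fin n) (Fin n) F) (hS : Sᵀ = S)
    (hdet : S.det ≠ 0) (u : Fin n → F) (hu : u ≠ 0) : ∃ w₀ : Fin n → F, bl S w₀ w₀ ≠ 0 := by
  by_contra hcon
  push Not at hcon
  obtain ⟨x, hx⟩ := Cfsg.Agent.Helper11.SOTR.exists_bl_ne S hdet u hu
  have h := hcon (u + x)
  rw [bl_add_left, bl_add_right, bl_add_right, hcon u, hcon x, bl_comm S hS x u] at h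
  apply hx
  have : 2 * bl S u x = 0 := by linear_combination h
  exact (mul_eq_zero.mp this).resolve_left h2

/-! ## Piece TY3 -/
theorem no_type3 (hm : 4 ≤ m) (h2 : (2 : F) ≠ 0) (J : Matrix (Fin m) (Fin m) F)
    (hJ : Jᵀ = -J) (hdetJ : J.det ≠ 0) (S : Matrix (Fin n) (Fin n) F) (hS : Sᵀ = S)
    (hdetS : S.det ≠ 0)
    (M : Subgroup (GL (Fin m × Fin n) F)) (hSp : SpLEG J S M) (hH : HasHG J S M)
    (a : Fin m → F) (ha : a ≠ 0)
    (hrad : ∀ ρ : GL (Fin m × Fin n) F, ρ ∈ M →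
      (∀ b : Fin n → F, (ρ : Matrix (Fin m × Fin n) (Fin m × Fin n) F) *ᵥ pt a b = pt a b) →
      (∀ (y : Fin m → F) (b : Fin n → F), bl J a y = 0 → ∃ b' : Fin n → F,
        (ρ : Matrix (Fin m × Fin n) (Fin m × Fin n) F) *ᵥ pt y b = pt y b + pt a b') →
      ∃ y₀ : Fin m → F, bl J a y₀ = 0 ∧ (ρ : Matrix (Fin m × Fin n) (Fin m × Fin n) F)
        = Eay J a y₀ ⊗ₖ (1 : Matrix (Fin n) (Fin n) F))
    (g : GL (Fin m × Fin n) F) (hg : g ∈ M) (c : F) (hc : c ≠ 0)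
    (N : Matrix (Fin n) (Fin n) F) (hN : N ≠ 0) (hNN : N * N = 0)
    (hconj : (g : Matrix (Fin m × Fin n) (Fin m × Fin n) F)
        * (Tac J a c ⊗ₖ (1 : Matrix (Fin n) (Fin n) F))
        * ((g⁻¹ : GL (Fin m × Fin n) F) : Matrix (Fin m × Fin n) (Fin m × Fin n) F)
      = (1 : Matrix (Fin m) (Fin m) F) ⊗ₖ (1 + N)) : False := by
  classical
  -- notation
  obtain ⟨G, hGdef⟩ : ∃ G : Matrix (Fin m × Fin n) (Fin m × Fin n) F,
      G = (g : Matrix (Fin m × Fin n) (Fin m × Fin n) F) := ⟨_, rfl⟩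
  obtain ⟨G', hG'def⟩ : ∃ G' : Matrix (Fin m × Fin n) (Fin m × Fin n) F,
      G' = ((g⁻¹ : GL (Fin m × Fin n) F) : Matrix (Fin m × Fin n) (Fin m × Fin n) F) := ⟨_, rfl⟩
  have hGG' : G * G' = 1 := by
    rw [hGdef, hG'def, ← Units.val_mul, mul_inv_cancel, Units.val_one]
  have hG'G : G' * G = 1 := by
    rw [hGdef, hG'def, ← Units.val_mul, inv_mul_cancel, Units.val_one]
  rw [← hGdef, ← hG'def] at hconj
  obtain ⟨T, hTdef⟩ : ∃ T : Matrix (Fin m × Fin n) (Fin m × Fin n) F,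
      T = Tac J a c ⊗ₖ (1 : Matrix (Fin n) (Fin n) F) := ⟨_, rfl⟩
  obtain ⟨E, hEdef⟩ : ∃ E : Matrix (Fin m × Fin n) (Fin m × Fin n) F,
      E = (1 : Matrix (Fin m) (Fin m) F) ⊗ₖ N := ⟨_, rfl⟩
  have hone : (1 : Matrix (Fin m) (Fin m) F) ⊗ₖ (1 + N) = 1 + E := by
    rw [hEdef, Matrix.kronecker_add, Matrix.one_kronecker_one]
  rw [← hTdef, hone] at hconj
  have hGT : G * T = (1 + E) * G := by
    rw [← hconj, Matrix.mul_assoc, hG'G, Matrix.mul_one]
  have hTG' : T * G' = G' * (1 + E) := by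
    rw [← hconj, ← Matrix.mul_assoc, ← Matrix.mul_assoc, hG'G, Matrix.one_mul]
  have hTv : ∀ v : Fin m × Fin n → F,
      T *ᵥ v = v + c • pt a (fun k => bl J (fun i => v (i, k)) a) := by
    intro v
    rw [hTdef]
    exact ty3_tac_kron J a c v
  have hTpt : ∀ (y : Fin m → F) (z : Fin n → F),
      T *ᵥ pt y z = pt y z + (c * bl J y a) • pt a z := by
    intro y z
    rw [hTdef, kron_mulVec_pt, tac_mulVec, Matrix.one_mulVec, pt_add_left, pt_smul_left]
  have hEv : ∀ (v : Fin m × Fin n → F) (i : Fin m) (k : Fin n),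
      (E *ᵥ v) (i, k) = (N *ᵥ fun l => v (i, l)) k := by
    intro v i k
    rw [hEdef]
    exact ty3_one_kron N v i k
  -- the element `1 + E` is in `M`, hence symplectic
  obtain ⟨t, htM, ht⟩ := troot_inM h2 J hJ S M hH a c
  have hspE : IsSpG J S (1 + E) := by
    have h := hSp _ (M.mul_mem (M.mul_mem hg htM) (M.inv_mem hg))
    rw [Units.val_mul, Units.val_mul, ht, ← hGdef, ← hG'def, ← hTdef, hconj] at h
    exact h
  -- `1 + N` is an `S`-isometry
  obtain ⟨a₁, ha₁⟩ := alt_partner J hdetJ a ha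
  have hiso : ∀ x y : Fin n → F, bl S ((1 + N) *ᵥ x) ((1 + N) *ᵥ y) = bl S x y := by
    intro x y
    have h := Cfsg.Agent.Helper51.SQZA.za_om_isom J S (1 + E) hspE (pt a x) (pt a₁ y)
    rw [← hone, kron_mulVec_pt, kron_mulVec_pt, Matrix.one_mulVec, Matrix.one_mulVec,
      Cfsg.Agent.Helper51.SQZA.za_om_pt, Cfsg.Agent.Helper51.SQZA.za_om_pt, ha₁, one_mul,
      one_mul] at h
    exact h
  have hNv : ∀ x : Fin n → F, N *ᵥ (N *ᵥ x) = 0 := by
    intro x
    rw [Matrix.mulVec_mulVec, hNN, Matrix.zero_mulVec]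
  have hadd : ∀ x : Fin n → F, (1 + N) *ᵥ x = x + N *ᵥ x := by
    intro x
    rw [Matrix.add_mulVec, Matrix.one_mulVec]
  have hNNbl : ∀ x y : Fin n → F, bl S (N *ᵥ x) (N *ᵥ y) = 0 := by
    intro x y
    have h := hiso x (N *ᵥ y)
    rw [hadd, hadd, hNv, add_zero, bl_add_left] at h
    linear_combination h
  have hskew : ∀ x y : Fin n → F, bl S (N *ᵥ x) y = - bl S x (N *ᵥ y) := by
    intro x y
    have h := hiso x y
    rw [hadd, hadd, bl_add_left, bl_add_right, bl_add_right, hNNbl] at h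
    linear_combination h
  obtain ⟨x₀, hx₀⟩ : ∃ x₀ : Fin n → F, N *ᵥ x₀ ≠ 0 := by
    by_contra hcon
    push Not at hcon
    apply hN
    apply mv_ext
    intro x
    rw [hcon x, Matrix.zero_mulVec]
  have hbl_a : ∀ y : Fin m → F, bl J a y = 0 → bl J y a = 0 := by
    intro y hy
    rw [et_bl_skew J hJ, hy, neg_zero]
  -- (1) a non-singular vector in the kernel of `N`
  obtain ⟨w, hNw, hww⟩ : ∃ w : Fin n → F, N *ᵥ w = 0 ∧ bl S w w ≠ 0 := by
    by_contra hcon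
    push Not at hcon
    have hker : ∀ w w' : Fin n → F, N *ᵥ w = 0 → N *ᵥ w' = 0 → bl S w w' = 0 := by
      intro w w' hw hw'
      have h := hcon (w + w') (by rw [Matrix.mulVec_add, hw, hw', add_zero])
      rw [bl_add_left, bl_add_right, bl_add_right, hcon w hw, hcon w' hw',
        bl_comm S hS w' w] at h
      have : 2 * bl S w w' = 0 := by linear_combination h
      exact (mul_eq_zero.mp this).resolve_left h2
    obtain ⟨y, hay, hy⟩ := ty3_exists_perp (by omega) J hJ hdetJ a ha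
    obtain ⟨-, y', hay', hyy'⟩ := alt_partner2 h2 J hJ hdetJ a y ha hay hy
    obtain ⟨w₀, hw₀⟩ := ty3_nonsing h2 S hS hdetS (N *ᵥ x₀) hx₀
    have hrow : ∀ y : Fin m → F, bl J a y = 0 →
        ∀ i, N *ᵥ (fun l => (G *ᵥ pt y w₀) (i, l)) = 0 := by
      intro y hy i
      have h1 : (1 + E) *ᵥ (G *ᵥ pt y w₀) = G *ᵥ pt y w₀ := by
        rw [Matrix.mulVec_mulVec, ← hGT, ← Matrix.mulVec_mulVec, hTpt, hbl_a y hy, mul_zero,
          zero_smul, add_zero]
      rw [Matrix.add_mulVec, Matrix.one_mulVec] at h1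
      have h3 : E *ᵥ (G *ᵥ pt y w₀) = 0 :=
        add_left_cancel (a := G *ᵥ pt y w₀) (by rw [h1, add_zero])
      funext k
      rw [← hEv, h3]
      rfl
    have h0 : bf (OmG J S) (G *ᵥ pt y w₀) (G *ᵥ pt y' w₀) = 0 :=
      ty3_om_rows J S _ _ (fun i i' => hker _ _ (hrow y hay i) (hrow y' hay' i'))
    have hspG : IsSpG J S G := by
      rw [hGdef]
      exact hSp g hg
    rw [Cfsg.Agent.Helper51.SQZA.za_om_isom J S G hspG, Cfsg.Agent.Helper51.SQZA.za_om_pt,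
      hyy', one_mul] at h0
    exact hw₀ h0
  -- (2) the root element
  obtain ⟨u, hudef⟩ : ∃ u : Fin n → F, u = N *ᵥ x₀ := ⟨_, rfl⟩
  have hu0 : u ≠ 0 := by
    rw [hudef]
    exact hx₀
  have huu : bl S u u = 0 := by
    rw [hudef]
    exact hNNbl x₀ x₀
  have huw : bl S u w = 0 := by
    rw [hudef, hskew, hNw, bl_zero_right, neg_zero]
  have hwu : bl S w u = 0 := by
    rw [bl_comm S hS, huw]
  obtain ⟨r, hrdef⟩ : ∃ r : Matrix (Fin n) (Fin n) F, r = ruw S u w := ⟨_, rfl⟩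
  have hrv : ∀ x : Fin n → F,
      r *ᵥ x = x + (bl S x w - 2⁻¹ * bl S w w * bl S x u) • u - bl S x u • w := by
    intro x
    rw [hrdef]
    exact ruw_mulVec h2 S hS u w x huu huw
  have hrN : ∀ x : Fin n → F, r *ᵥ (N *ᵥ x) = N *ᵥ x := by
    intro x
    have h1 : bl S (N *ᵥ x) w = 0 := by
      rw [hskew, hNw, bl_zero_right, neg_zero]
    have h2' : bl S (N *ᵥ x) u = 0 := by
      rw [hudef]
      exact hNNbl x x₀
    rw [hrv, h1, h2']
    simp
  have hrK : ∀ x : Fin n → F, N *ᵥ x = 0 → r *ᵥ x = x + N *ᵥ (bl S x w • x₀) := by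
    intro x hx
    have h1 : bl S x u = 0 := by
      rw [hudef, bl_comm S hS, hskew, hx, bl_zero_right, neg_zero]
    rw [hrv, h1, Matrix.mulVec_smul, ← hudef]
    simp
  obtain ⟨ρ, hρM, hρ⟩ := hH 1 r 1 1
    (by rw [Matrix.transpose_one, Matrix.one_mul, Matrix.mul_one, one_smul])
    (by rw [hrdef, ruw_isom h2 S hS u w huu huw, one_smul]) (by rw [mul_one])
  obtain ⟨R, hRdef⟩ : ∃ R : Matrix (Fin m × Fin n) (Fin m × Fin n) F,
      R = (1 : Matrix (Fin m) (Fin m) F) ⊗ₖ r := ⟨_, rfl⟩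
  rw [← hRdef] at hρ
  have hRv : ∀ (v : Fin m × Fin n → F) (i : Fin m) (k : Fin n),
      (R *ᵥ v) (i, k) = (r *ᵥ fun l => v (i, l)) k := by
    intro v i k
    rw [hRdef]
    exact ty3_one_kron r v i k
  have hRE : ∀ v : Fin m × Fin n → F, R *ᵥ (E *ᵥ v) = E *ᵥ v := by
    intro v
    ext ⟨i, k⟩
    rw [hRv]
    have : (fun l => (E *ᵥ v) (i, l)) = N *ᵥ fun l => v (i, l) := by
      funext l
      exact hEv v i l
    rw [this, hrN, hEv]
  have hσM : g⁻¹ * ρ * g ∈ M := M.mul_mem (M.mul_mem (M.inv_mem hg) hρM) hg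
  have hσ : ((g⁻¹ * ρ * g : GL (Fin m × Fin n) F) :
      Matrix (Fin m × Fin n) (Fin m × Fin n) F) = G' * R * G := by
    rw [Units.val_mul, Units.val_mul, hρ, ← hGdef, ← hG'def]
  have hGE : ∀ v : Fin m × Fin n → F,
      G' *ᵥ (E *ᵥ v) = c • pt a (fun k => bl J (fun i => (G' *ᵥ v) (i, k)) a) := by
    intro v
    have h1 : T *ᵥ (G' *ᵥ v) = G' *ᵥ ((1 + E) *ᵥ v) := by
      rw [Matrix.mulVec_mulVec, hTG', ← Matrix.mulVec_mulVec]
    rw [hTv, Matrix.add_mulVec, Matrix.one_mulVec, Matrix.mulVec_add] at h1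
    exact (add_left_cancel h1).symm
  obtain ⟨y₀, hy₀, hσeq⟩ := hrad (g⁻¹ * ρ * g) hσM (by
      intro b
      rw [hσ]
      have hb : G *ᵥ pt a b = E *ᵥ (G *ᵥ pt (-a₁) (c⁻¹ • b)) := by
        have h1 : T *ᵥ pt (-a₁) (c⁻¹ • b) = pt (-a₁) (c⁻¹ • b) + pt a b := by
          rw [hTpt, bl_neg_left, et_bl_skew J hJ a₁ a, ha₁, neg_neg, mul_one,
            pt_smul_right c⁻¹ a b, smul_smul, mul_inv_cancel₀ hc, one_smul]
        have h2' : G *ᵥ (T *ᵥ pt (-a₁) (c⁻¹ • b)) = (1 + E) *ᵥ (G *ᵥ pt (-a₁) (c⁻¹ • b)) := by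
          rw [Matrix.mulVec_mulVec, hGT, ← Matrix.mulVec_mulVec]
        rw [h1, Matrix.mulVec_add, Matrix.add_mulVec, Matrix.one_mulVec] at h2'
        exact add_left_cancel h2'
      rw [← Matrix.mulVec_mulVec, ← Matrix.mulVec_mulVec, hb, hRE, ← hb, Matrix.mulVec_mulVec,
        hG'G, Matrix.one_mulVec])
    (by
      intro y b hy
      rw [hσ]
      obtain ⟨X, hXdef⟩ : ∃ X : Fin m × Fin n → F, X = G *ᵥ pt y b := ⟨_, rfl⟩
      have hEX : E *ᵥ X = 0 := by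
        have h1 : (1 + E) *ᵥ X = X := by
          rw [hXdef, Matrix.mulVec_mulVec, ← hGT, ← Matrix.mulVec_mulVec, hTpt, hbl_a y hy,
            mul_zero, zero_smul, add_zero]
        rw [Matrix.add_mulVec, Matrix.one_mulVec] at h1
        exact add_left_cancel (a := X) (by rw [h1, add_zero])
      have hrowX : ∀ i, N *ᵥ (fun l => X (i, l)) = 0 := by
        intro i
        funext k
        rw [← hEv, hEX]
        rfl
      obtain ⟨Y, hYdef⟩ : ∃ Y : Fin m × Fin n → F,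
          Y = pt (fun i => bl S (fun l => X (i, l)) w) x₀ := ⟨_, rfl⟩
      have hRX : R *ᵥ X = X + E *ᵥ Y := by
        ext ⟨i, k⟩
        rw [hRv, hrK _ (hrowX i), Pi.add_apply, Pi.add_apply, hEv]
        congr 2
        rw [hYdef]
        funext l
        simp [pt]
      refine ⟨c • (fun k => bl J (fun i => (G' *ᵥ Y) (i, k)) a), ?_⟩
      rw [← Matrix.mulVec_mulVec, ← Matrix.mulVec_mulVec, ← hXdef, hRX, Matrix.mulVec_add, hGE,
        hXdef, Matrix.mulVec_mulVec, hG'G, Matrix.one_mulVec, pt_smul_right])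
  -- (3) `(σ - 1)² = 0`, hence `(R - 1)² = 0`
  rw [hσ] at hσeq
  obtain ⟨Ey, hEydef⟩ : ∃ Ey : Matrix (Fin m) (Fin m) F, Ey = Eay J a y₀ := ⟨_, rfl⟩
  rw [← hEydef] at hσeq
  have hEy : ∀ x : Fin m → F, Ey *ᵥ x = x + bl J x a • y₀ + bl J x y₀ • a := by
    intro x
    rw [hEydef]
    exact eay_mulVec J a y₀ x
  have hR : R = G * (Ey ⊗ₖ (1 : Matrix (Fin n) (Fin n) F)) * G' := by
    rw [← hσeq]
    simp only [Matrix.mul_assoc]
    rw [hGG', Matrix.mul_one, ← Matrix.mul_assoc, hGG', Matrix.one_mul]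
  have hD : ∀ x : Fin m → F, (Ey - 1) *ᵥ x = bl J x a • y₀ + bl J x y₀ • a := by
    intro x
    rw [Matrix.sub_mulVec, Matrix.one_mulVec, hEy]
    abel
  have hDD : (Ey - 1) * (Ey - 1) = 0 := by
    apply mv_ext
    intro x
    rw [← Matrix.mulVec_mulVec, hD, hD, Matrix.zero_mulVec, bl_add_left, bl_add_left,
      bl_smul_left, bl_smul_left, bl_smul_left, bl_smul_left, hbl_a y₀ hy₀,
      et_bl_self h2 J hJ a, et_bl_self h2 J hJ y₀, hy₀]
    simp
  have hR1 : (R - 1) * (R - 1) = 0 := by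
    have e1 : Ey ⊗ₖ (1 : Matrix (Fin n) (Fin n) F)
        = (Ey - 1) ⊗ₖ (1 : Matrix (Fin n) (Fin n) F) + 1 := by
      have : ((Ey - 1) + 1) ⊗ₖ (1 : Matrix (Fin n) (Fin n) F)
          = (Ey - 1) ⊗ₖ (1 : Matrix (Fin n) (Fin n) F)
            + (1 : Matrix (Fin m) (Fin m) F) ⊗ₖ (1 : Matrix (Fin n) (Fin n) F) :=
        Matrix.add_kronecker _ _ _
      rw [sub_add_cancel, Matrix.one_kronecker_one] at this
      exact this
    have h1 : R - 1 = G * ((Ey - 1) ⊗ₖ (1 : Matrix (Fin n) (Fin n) F)) * G' := by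
      rw [hR, e1, Matrix.mul_add, Matrix.add_mul, Matrix.mul_one, hGG', add_sub_cancel_right]
    rw [h1]
    calc G * ((Ey - 1) ⊗ₖ (1 : Matrix (Fin n) (Fin n) F)) * G'
          * (G * ((Ey - 1) ⊗ₖ (1 : Matrix (Fin n) (Fin n) F)) * G')
        = G * (((Ey - 1) ⊗ₖ (1 : Matrix (Fin n) (Fin n) F)) * (G' * G)
            * ((Ey - 1) ⊗ₖ (1 : Matrix (Fin n) (Fin n) F))) * G' := by
          simp only [Matrix.mul_assoc]
      _ = G * (((Ey - 1) * (Ey - 1)) ⊗ₖ ((1 : Matrix (Fin n) (Fin n) F) * 1)) * G' := by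
          rw [hG'G, Matrix.mul_one, Matrix.mul_kronecker_mul]
      _ = 0 := by
          rw [hDD, Matrix.zero_kronecker, Matrix.mul_zero, Matrix.zero_mul]
  obtain ⟨x, hx⟩ := Cfsg.Agent.Helper11.SOTR.exists_bl_ne S hdetS u hu0
  have hxu : bl S x u ≠ 0 := by rwa [bl_comm S hS]
  have hRpt : ∀ z : Fin n → F, (R - 1) *ᵥ pt a z = pt a (r *ᵥ z - z) := by
    intro z
    rw [Matrix.sub_mulVec, Matrix.one_mulVec, hRdef, kron_mulVec_pt, Matrix.one_mulVec]
    ext ⟨i, k⟩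
    simp [pt]
    ring
  have h0 : (R - 1) *ᵥ ((R - 1) *ᵥ pt a x) = 0 := by
    rw [Matrix.mulVec_mulVec, hR1, Matrix.zero_mulVec]
  rw [hRpt, hRpt] at h0
  have hd : ∀ z : Fin n → F,
      r *ᵥ z - z = (bl S z w - 2⁻¹ * bl S w w * bl S z u) • u - bl S z u • w := by
    intro z
    rw [hrv]
    abel
  have hru : r *ᵥ u = u := by
    have := hd u
    rw [huw, huu] at this
    simp at this
    exact sub_eq_zero.mp this
  have hrw : r *ᵥ w = w + bl S w w • u := by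
    have := hd w
    rw [hwu] at this
    simp at this
    rw [← this]
    abel
  have hdd : r *ᵥ (r *ᵥ x - x) - (r *ᵥ x - x) = (-(bl S x u * bl S w w)) • u := by
    rw [hd x, Matrix.mulVec_sub, Matrix.mulVec_smul, Matrix.mulVec_smul, hru, hrw]
    simp only [smul_add, smul_smul, neg_smul]
    abel
  rw [hdd] at h0
  have h1 : pt a ((-(bl S x u * bl S w w)) • u) = pt a 0 := by
    rw [h0, pt_zero_right]
  have h3 := Cfsg.Agent.Helper51.SQZA.za_pt_right_inj a ha _ _ h1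
  rcases smul_eq_zero.mp h3 with h | h
  · exact mul_ne_zero hxu hww (neg_eq_zero.mp h)
  · exact hu0 h

end Cfsg.Agent.Helper12.SGTY3
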