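import Mathlib
import Cfsg.Agent.Helper44.SPUDefs

/-!
# CALL S2316, piece CONJ (helper12, double)

The `p`-elements fixing a totally isotropic `k`-space pointwise are as many as the `p`-elements of
the pointwise stabiliser `Qs hk F 0` of the standard one (Witt).
-/

set_option autoImplicit false
open Classical

namespace Cfsg.Agent.Helper12.SPUCONJ

open Matrix Cfsg.Agent.Helper44.SPU

variable {F : Type*} [Field F] [Fintype F] {m : ℕ}

theorem spuconj_orderOf {G : Type*} [Group G] (a g : G) : orderOf (a⁻¹ * g * a) = orderOf g := by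
  have := orderOf_injective (MulAut.conj a⁻¹).toMonoidHom (MulAut.conj a⁻¹).injective g
  simpa using this

theorem spuconj_S0_sum {k : ℕ} (hk : k ≤ m) (u : Fin m ⊕ Fin m → F)
    (hu : u ∈ Cfsg.Agent.Helper13.S0 F m k) :
    u = ∑ i : Fin k, u (Sum.inl (Fin.castLE hk i)) • Cfsg.Agent.Helper13.eV hk F i := by
  funext a
  rw [Finset.sum_apply]
  by_cases ha : ∃ i : Fin k, a = Sum.inl (Fin.castLE hk i)
  · obtain ⟨i, rfl⟩ := ha
    rw [Finset.sum_eq_single i]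
    · simp [Cfsg.Agent.Helper13.eV]
    · intro j _ hji
      have : (Sum.inl (Fin.castLE hk i) : Fin m ⊕ Fin m) ≠ Sum.inl (Fin.castLE hk j) := by
        intro h
        apply hji
        have h2 := Sum.inl.inj h
        exact (Fin.castLE_injective hk h2).symm
      simp [Cfsg.Agent.Helper13.eV, Pi.single_apply, this]
    · intro h
      exact absurd (Finset.mem_univ i) h
  · push Not at ha
    rw [Cfsg.Agent.Helper13.S0_supp hk u hu a ha]
    symm
    apply Finset.sum_eq_zero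
    intro i _
    simp [Cfsg.Agent.Helper13.eV, Pi.single_apply, ha i]

theorem spuconj_fix {k : ℕ} (hk : k ≤ m) (M : Matrix (Fin m ⊕ Fin m) (Fin m ⊕ Fin m) F)
    (hM : ∀ i : Fin k, M *ᵥ Cfsg.Agent.Helper13.eV hk F i = Cfsg.Agent.Helper13.eV hk F i)
    (u : Fin m ⊕ Fin m → F) (hu : u ∈ Cfsg.Agent.Helper13.S0 F m k) : M *ᵥ u = u := by
  conv_lhs => rw [spuconj_S0_sum hk u hu]
  conv_rhs => rw [spuconj_S0_sum hk u hu]
  rw [Matrix.mulVec_sum]
  apply Finset.sum_congr rfl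
  intro i _
  rw [Matrix.mulVec_smul, hM i]

theorem spuconj_key {k : ℕ} (hk : k ≤ m) (W : Submodule F (Fin m ⊕ Fin m → F))
    (P : Matrix.symplecticGroup (Fin m) F)
    (hP : ∀ v, v ∈ Cfsg.Agent.Helper13.S0 F m k ↔
      (P : Matrix (Fin m ⊕ Fin m) (Fin m ⊕ Fin m) F) *ᵥ v ∈ W)
    (g : Matrix.symplecticGroup (Fin m) F) :
    (∀ v ∈ W, (g : Matrix (Fin m ⊕ Fin m) (Fin m ⊕ Fin m) F) *ᵥ v = v) ↔
      P⁻¹ * g * P ∈ Cfsg.Agent.Helper13.Qs hk F 0 := by
  rw [Cfsg.Agent.Helper13.mem_Qs]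
  constructor
  · intro h
    refine ⟨fun i => ?_, fun i hi => absurd hi (Nat.not_lt_zero _)⟩
    rw [Cfsg.Agent.Helper5.sp_mul_mulVec, Cfsg.Agent.Helper5.sp_mul_mulVec,
      h _ ((hP _).mp (Cfsg.Agent.Helper13.eV_mem_S0 hk i)), Cfsg.Agent.Helper5.sp_inv_mulVec]
  · rintro ⟨h, -⟩ v hv
    have hu : ((P⁻¹ : Matrix.symplecticGroup (Fin m) F) :
        Matrix (Fin m ⊕ Fin m) (Fin m ⊕ Fin m) F) *ᵥ v ∈ Cfsg.Agent.Helper13.S0 F m k := by
      rw [hP, Cfsg.Agent.Helper5.sp_mulVec_inv]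
      exact hv
    have h2 := spuconj_fix hk _ h _ hu
    rw [Cfsg.Agent.Helper5.sp_mul_mulVec, Cfsg.Agent.Helper5.sp_mul_mulVec,
      Cfsg.Agent.Helper5.sp_mulVec_inv] at h2
    have h3 := congrArg (fun x => (P : Matrix (Fin m ⊕ Fin m) (Fin m ⊕ Fin m) F) *ᵥ x) h2
    simp only [Cfsg.Agent.Helper5.sp_mulVec_inv] at h3
    exact h3

/-- CONJ: the `p`-elements fixing a totally isotropic `k`-space pointwise are as many as the
`p`-elements of the pointwise stabiliser `Qs hk F 0` of the standard one (Witt). -/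
theorem spu_conj (p : ℕ) {k : ℕ} (hk : k ≤ m) (W : Submodule F (Fin m ⊕ Fin m → F))
    (hWk : Module.finrank F W = k) (hW : Iso m F W) :
    Nat.card {g : Matrix.symplecticGroup (Fin m) F // (∃ j : ℕ, orderOf g = p ^ j) ∧
        ∀ v ∈ W, (g : Matrix (Fin m ⊕ Fin m) (Fin m ⊕ Fin m) F) *ᵥ v = v} =
      Nat.card {g : ↥(Cfsg.Agent.Helper13.Qs hk F 0) // ∃ j : ℕ, orderOf g = p ^ j} := by
  obtain ⟨P, hP⟩ := Cfsg.Agent.Helper13.exists_sp_isotropic hk W hWk hW
  apply Nat.card_congr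
  refine
    { toFun := fun g => ⟨⟨P⁻¹ * g.1 * P, (spuconj_key hk W P hP g.1).mp g.2.2⟩, ?_⟩
      invFun := fun h => ⟨P * h.1.1 * P⁻¹, ?_, ?_⟩
      left_inv := ?_
      right_inv := ?_ }
  · obtain ⟨j, hj⟩ := g.2.1
    exact ⟨j, by rw [Subgroup.orderOf_mk, spuconj_orderOf, hj]⟩
  · obtain ⟨j, hj⟩ := h.2
    refine ⟨j, ?_⟩
    rw [← hj, ← Subgroup.orderOf_coe]
    have := spuconj_orderOf P⁻¹ h.1.1
    rw [inv_inv] at this
    exact this
  · rw [spuconj_key hk W P hP]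
    have : P⁻¹ * (P * h.1.1 * P⁻¹) * P = h.1.1 := by group
    rw [this]
    exact h.1.2
  · intro g
    apply Subtype.ext
    show P * (P⁻¹ * g.1 * P) * P⁻¹ = g.1
    group
  · intro h
    apply Subtype.ext
    apply Subtype.ext
    show P⁻¹ * (P * h.1.1 * P⁻¹) * P = h.1.1
    group

end Cfsg.Agent.Helper12.SPUCONJ
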