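import Cfsg.Agent.Helper40.SUDefs
import Cfsg.Agent.Helper40.DZP

set_option autoImplicit false

/-!
CALL S2318 (helper40), piece BRU: the rank-one Bruhat dichotomy in a Chevalley group.
-/

namespace Cfsg.Agent.Helper12.SU

open Cfsg Cfsg.Lie Cfsg.Agent.Helper36 Cfsg.Agent.Helper40.DZ Cfsg.Agent.Helper40.SU

variable {D : ChevalleyDatum} {F : Type*} [Field F] {η : ℕ → ℕ → ℤ}

/-- BRU (see the proof of `BRel.mul_mem_union`: write `g = u (h n') b₂`; if `n''⁻¹ X_p n''` is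
positive take `m = n''`, else `m = n_p⁻¹ n''`). -/
theorem chev_bruhat (R : BRel D F η)
    (hG : ∀ g ∈ D.group F, ∃ b₁ ∈ D.borelSubgroup F, ∃ n ∈ D.monomialSubgroup F,
      ∃ b₂ ∈ D.borelSubgroup F, g = b₁ * n * b₂) {i : ℕ} (hi : i < D.rank) :
    ∀ g ∈ D.group F, ∃ u ∈ D.posUnipotent F, ∃ b ∈ D.borelSubgroup F, ∃ m ∈ D.group F,
      (g = u * m * b ∨ g = u * R.n i * m * b) ∧
        ∀ c : F, m⁻¹ * xGL R.xadd (D.simple i) c * m ∈ D.posUnipotent F := by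
  intro g hg
  obtain ⟨b₁, hb₁, n', hn', b₂, hb₂, rfl⟩ := hG g hg
  obtain ⟨u, hu, h, hh, rfl⟩ := Cfsg.Agent.Helper40.BNSt.exists_uh R hb₁
  have hHN : D.diagonalSubgroup F ≤ D.monomialSubgroup F := le_sup_left
  have hn : h * n' ∈ D.monomialSubgroup F := mul_mem (hHN hh) hn'
  have hp := R.wf.simple_lt i hi
  obtain ⟨L, hL, hroot⟩ := R.exists_root (h * n')⁻¹ (inv_mem hn)
  have hβ := R.wf.wW_lt hL hp
  rcases R.wf.pos_xor _ hβ with h1 | h1
  · refine ⟨u, hu, b₂, hb₂, h * n', monomialSubgroup_le_group R.xadd hn, Or.inl (by group), ?_⟩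
    intro c
    obtain ⟨c', hc'⟩ := hroot _ hp
    have := hc' c
    rw [inv_inv] at this
    rw [this]
    exact xGL_mem_posUnipotent _ h1.1 _
  · have hposβ : D.IsPosRoot (D.neg (wW D L (D.simple i))) := by
      rw [R.wf.pos_iff_neg _ (R.wf.neg_lt _ hβ), R.wf.neg_neg _ hβ]
      exact h1.2
    refine ⟨u, hu, b₂, hb₂, (R.n i)⁻¹ * (h * n'),
      mul_mem (inv_mem (n_mem_group R i)) (monomialSubgroup_le_group R.xadd hn),
      Or.inr (by group), ?_⟩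
    intro t
    have e : ((R.n i)⁻¹ * (h * n'))⁻¹ * xGL R.xadd (D.simple i) t * ((R.n i)⁻¹ * (h * n')) =
        (h * n')⁻¹ * (R.n i * xGL R.xadd (D.simple i) t * (R.n i)⁻¹) * (h * n')⁻¹⁻¹ := by group
    rw [e, R.conj_x hi hp, R.wf.refl_simple i hi]
    obtain ⟨c, hc⟩ := hroot _ (R.wf.neg_lt _ hp)
    rw [hc, R.wf.wW_neg hL hp]
    exact xGL_mem_posUnipotent _ hposβ _

end Cfsg.Agent.Helper12.SU
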