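import Cfsg.Agent.Helper40.SUDefs
import Cfsg.Agent.Helper40.DZP

set_option autoImplicit false

/-!
CALL S2318 (helper40), piece CARD: `|U| = q |U_p|` in a Chevalley group.
-/

namespace Cfsg.Agent.Helper12.SU

open Cfsg Cfsg.Lie Cfsg.Agent.Helper36 Cfsg.Agent.Helper40.DZ Cfsg.Agent.Helper40.SU

variable {D : ChevalleyDatum} {F : Type*} [Field F] {η : ℕ → ℕ → ℤ}

/-- `X_p ∩ U_p = 1`. -/
theorem x_mem_up_zero (R : BRel D F η) {i : ℕ} (hi : i < D.rank) (s : F)
    (hs : xGL R.xadd (D.simple i) s ∈ Subgroup.closure (upGens D F i)) : s = 0 := by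
  have hp := R.wf.simple_lt i hi
  have h1 := R.n_conj_up hi _ hs
  rw [R.conj_x hi hp, R.wf.refl_simple i hi] at h1
  have hneg : D.IsNegRoot (D.neg (D.simple i)) :=
    (R.wf.pos_iff_neg _ hp).mp (R.wf.simple_pos i hi)
  have h2 : xGL R.xadd (D.neg (D.simple i)) ((η i (D.simple i) : F) * s) ∈
      D.borelSubgroup F ⊓ D.negUnipotent F :=
    ⟨BRel.U_le_B D F (R.up_le_U hi h1), xGL_mem_negUnipotent _ hneg _⟩
  rw [R.bv, Subgroup.mem_bot] at h2
  have h3 := congrArg (fun g : GL D.Idx F => (g : Matrix D.Idx D.Idx F)) h2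
  simp only [xGL_val, Units.val_one] at h3
  have h4 := R.xinj _ (R.wf.neg_lt _ hp) _ h3
  have h5 := R.eta_mul_self (F := F) hi hp
  have h6 : s = ((η i (D.simple i) : ℤ) : F) * (((η i (D.simple i) : ℤ) : F) * s) := by
    rw [← mul_assoc, h5, one_mul]
  rw [h6, h4, mul_zero]

/-- CARD: `|U| = q |U_p|`. -/
theorem chev_card [Finite F] (R : BRel D F η) {i : ℕ} (hi : i < D.rank) :
    Nat.card (D.posUnipotent F) =
      Nat.card F * Nat.card (Subgroup.closure (upGens D F i)) := by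
  have hpos := R.wf.simple_pos i hi
  let f : F × (Subgroup.closure (upGens D F i)) → D.posUnipotent F := fun z =>
    ⟨(z.2 : GL D.Idx F) * xGL R.xadd (D.simple i) z.1,
      mul_mem (R.up_le_U hi z.2.2) (xGL_mem_posUnipotent _ hpos _)⟩
  have hinj : Function.Injective f := by
    rintro ⟨t, u⟩ ⟨t', u'⟩ h
    have h1 : (u : GL D.Idx F) * xGL R.xadd (D.simple i) t =
        (u' : GL D.Idx F) * xGL R.xadd (D.simple i) t' := congrArg Subtype.val h
    have h2 : xGL R.xadd (D.simple i) (t - t') = (u : GL D.Idx F)⁻¹ * (u' : GL D.Idx F) := by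
      rw [sub_eq_add_neg, ← xGL_mul, ← xGL_inv, mul_inv_eq_iff_eq_mul, mul_assoc, ← h1]
      group
    have h3 : t - t' = 0 :=
      x_mem_up_zero R hi _ (by rw [h2]; exact mul_mem (inv_mem u.2) u'.2)
    have h4 : t = t' := sub_eq_zero.mp h3
    subst h4
    have h5 : (u : GL D.Idx F) = u' := mul_right_cancel h1
    exact Prod.ext rfl (Subtype.ext h5)
  have hsurj : Function.Surjective f := by
    rintro ⟨u, hu⟩
    obtain ⟨h1, h2⟩ := up_main R.xadd R.cf R.up hi
    have hu' : u ∈ ((Subgroup.closure (upGens D F i) ⊔ D.rootSubgroup F (D.simple i) :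
        Subgroup (GL D.Idx F)) : Set (GL D.Idx F)) := by
      rw [h2]; exact hu
    rw [Subgroup.coe_mul_of_right_le_normalizer_left _ _ (le_sup_left.trans h1)] at hu'
    obtain ⟨u₁, hu₁, x, hx, rfl⟩ := hu'
    obtain ⟨t, rfl⟩ := (mem_rootSubgroup_iff R.xadd _ x).mp hx
    exact ⟨(t, ⟨u₁, hu₁⟩), rfl⟩
  rw [← Nat.card_congr (Equiv.ofBijective f ⟨hinj, hsurj⟩), Nat.card_prod]

end Cfsg.Agent.Helper12.SU
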