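import Mathlib
import Cfsg.Agent.Helper65.SUGDefs

/-!
# CALL S2412A, piece SHIFT (helper12)
-/

set_option autoImplicit false

namespace Cfsg.Agent.Helper12

open Matrix
open Cfsg.Agent.Helper5 (frobQ frobQ_apply frobQ_frobQ)
open Cfsg.Agent.Helper13
open Cfsg.Agent.Helper65

variable {F : Type*} [Field F] [Fintype F] {q n : ℕ}

/-- SHIFT: a signed cyclic shift of the standard basis in `SU_n(q)`. -/
theorem sug_shift (hF : Fintype.card F = q ^ 2) (hn : 2 ≤ n) :
    ∃ w : ↥(Cfsg.SU n F q), ∀ i : ℕ, i + 1 < n → uact w (sugE F n i) = sugE F n (i + 1) := by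
  classical
  obtain ⟨m, rfl⟩ : ∃ m, n = m + 2 := ⟨n - 2, by omega⟩
  obtain ⟨σ, hσ⟩ : ∃ σ : Equiv.Perm (Fin (m + 2)), σ = (finRotate (m + 2))⁻¹ := ⟨_, rfl⟩
  obtain ⟨s, hs, hsdef⟩ : ∃ s : F, (s = 1 ∨ s = -1) ∧
      s = ((Equiv.Perm.sign σ : ℤˣ) : ℤ) := by
    refine ⟨_, ?_, rfl⟩
    rcases Int.units_eq_one_or (Equiv.Perm.sign σ) with h | h
    · left; rw [h]; simp
    · right; rw [h]; simp
  have hss : s * s = 1 := by rcases hs with h | h <;> rw [h] <;> ring
  have hsq : s ^ q = s := by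
    rw [← frobQ_apply hF]
    rcases hs with h | h
    · rw [h, map_one]
    · rw [h, map_neg, map_one]
  obtain ⟨d, hd⟩ : ∃ d : Fin (m + 2) → F, ∀ j, d j = if j.val = m + 1 then s else 1 :=
    ⟨_, fun _ => rfl⟩
  have hdd : ∀ j, d j * d j ^ q = 1 := by
    intro j
    rw [hd]
    split_ifs
    · rw [hsq, hss]
    · rw [one_pow, one_mul]
  obtain ⟨M, hM⟩ : ∃ M : Matrix (Fin (m + 2)) (Fin (m + 2)) F,
      M = σ.permMatrix F * Matrix.diagonal d := ⟨_, rfl⟩
  have hMv : ∀ x : Fin (m + 2) → F, ∀ j, (M *ᵥ x) j = d (σ j) * x (σ j) := by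
    intro x j
    rw [hM, ← Matrix.mulVec_mulVec, Matrix.permMatrix_mulVec]
    simp only [Function.comp_apply, Matrix.mulVec_diagonal]
  have hdet : M.det = 1 := by
    rw [hM, Matrix.det_mul, Matrix.det_permutation, Matrix.det_diagonal]
    have hprod : ∏ j, d j = s := by
      rw [Finset.prod_eq_single (Fin.last (m + 1))]
      · rw [hd, if_pos (Fin.val_last (m + 1))]
      · intro j _ hj
        rw [hd, if_neg]
        intro h
        exact hj (Fin.ext h)
      · intro h; exact absurd (Finset.mem_univ _) h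
    rw [hprod, ← hsdef, hss]
  have hiso : ∀ x y, Cfsg.hermForm (m + 2) F q (M *ᵥ x) (M *ᵥ y) =
      Cfsg.hermForm (m + 2) F q x y := by
    intro x y
    unfold Cfsg.hermForm
    rw [← Equiv.sum_comp σ (fun k => x k * y k ^ q)]
    apply Finset.sum_congr rfl
    intro j _
    rw [hMv, hMv, mul_pow]
    calc d (σ j) * x (σ j) * (d (σ j) ^ q * y (σ j) ^ q)
        = (d (σ j) * d (σ j) ^ q) * (x (σ j) * y (σ j) ^ q) := by ring
      _ = x (σ j) * y (σ j) ^ q := by rw [hdd, one_mul]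
  refine ⟨Cfsg.Agent.Helper44.PSUn.mkSU M hdet hiso, ?_⟩
  intro i hi
  rw [Cfsg.Agent.Helper44.PSUn.uact_mkSU]
  funext j
  rw [hMv, sugE_apply, sugE_apply]
  have hrot : ∀ (k : Fin (m + 2)), k.val = i → (finRotate (m + 2) k).val = i + 1 := by
    intro k hk
    have hne : k ≠ Fin.last (m + 1) := by
      intro h
      rw [h, Fin.val_last] at hk
      omega
    rw [coe_finRotate_of_ne_last hne, hk]
  by_cases hj : j.val = i + 1
  · have hσj : σ j = ⟨i, by omega⟩ := by
      rw [hσ, Equiv.Perm.inv_eq_iff_eq]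
      apply Fin.ext
      rw [hrot ⟨i, by omega⟩ rfl, hj]
    rw [hσj, if_pos rfl, if_pos hj, mul_one, hd, if_neg]
    show ¬ i = m + 1
    omega
  · have hne : (σ j).val ≠ i := by
      intro h
      apply hj
      have h1 := hrot (σ j) h
      have h2 : finRotate (m + 2) (σ j) = j := by
        rw [hσ]
        simp
      rw [h2] at h1
      exact h1
    rw [if_neg hne, if_neg hj, mul_zero]

end Cfsg.Agent.Helper12
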