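import Mathlib
import Cfsg.Agent.Helper12.Sharp3
import Cfsg.Agent.S1230
import Cfsg.Agent.S0250

set_option autoImplicit false

namespace Cfsg.Agent.Helper12

open MulAction

section Sharp3Iso

theorem two_eq_zero_of_card {F : Type*} [Field F] [Fintype F] {f : ℕ} (hf : 1 ≤ f)
    (hF : Fintype.card F = 2 ^ f) : (2 : F) = 0 := by
  have h := FiniteField.cast_card_eq_zero F
  rw [hF] at h
  push_cast at h
  exact (pow_eq_zero_iff (by omega)).mp h

theorem nonempty_psl_equiv_sl {F : Type*} [Field F] (h2 : (2 : F) = 0) :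
    Nonempty (Matrix.ProjectiveSpecialLinearGroup (Fin 2) F ≃*
      Matrix.SpecialLinearGroup (Fin 2) F) :=
  ⟨(QuotientGroup.quotientMulEquivOfEq (Cfsg.Agent.Helper5.center_SL2_eq_bot h2)).trans
    QuotientGroup.quotientBot⟩

theorem nonempty_sl_equiv_pgl {F : Type*} [Field F] [Fintype F] {f : ℕ} (hf : 1 ≤ f)
    (hF : Fintype.card F = 2 ^ f) :
    Nonempty (Matrix.SpecialLinearGroup (Fin 2) F ≃* Matrix.ProjGenLinGroup (Fin 2) F) := by
  have h2 : (2 : F) = 0 := two_eq_zero_of_card hf hF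
  have hroots : ∀ r : Fˣ, ∃ k : Fˣ, k ^ Fintype.card (Fin 2) = r := by
    intro r
    refine ⟨r ^ 2 ^ (f - 1), ?_⟩
    rw [Fintype.card_fin, ← pow_mul]
    have h1 : 2 ^ (f - 1) * 2 = Fintype.card F := by
      rw [hF, ← pow_succ]
      congr 1
      omega
    rw [h1]
    apply Units.ext
    rw [Units.val_pow_eq_pow_val]
    exact FiniteField.pow_card (r : F)
  have e1 : Matrix.ProjectiveSpecialLinearGroup (Fin 2) F ≃* Matrix.ProjGenLinGroup (Fin 2) F :=
    MulEquiv.ofBijective Matrix.ProjectiveSpecialLinearGroup.toPGL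
      ⟨Matrix.ProjectiveSpecialLinearGroup.toPGL_injective,
       Matrix.ProjectiveSpecialLinearGroup.toPGL_surj_of_roots hroots⟩
  obtain ⟨e2⟩ := nonempty_psl_equiv_sl h2
  exact ⟨e2.symm.trans e1⟩

/-- Zassenhaus: a sharply 3-transitive permutation group of odd degree is `SL(2, 2^f)` in
degree `2^f + 1`. -/
theorem sharp3_iso_SL {α : Type*} [Fintype α] [DecidableEq α] (G : Subgroup (Equiv.Perm α))
    (h3 : IsMultiplyPretransitive G α 3) (hsharp : ∀ x : Fin 3 ↪ α, stabilizer G x = ⊥)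
    (hodd : Odd (Fintype.card α)) (hm : 3 ≤ Fintype.card α) :
    ∃ f : ℕ, 1 ≤ f ∧ Fintype.card α = 2 ^ f + 1 ∧ ∃ (F : Type) (_ : Field F) (_ : Fintype F),
      Fintype.card F = 2 ^ f ∧ Nonempty (G ≃* Matrix.SpecialLinearGroup (Fin 2) F) := by
  classical
  obtain ⟨f, hf, hcard, hG, hSyl, hCent⟩ := sharp3_odd h3 hsharp hodd hm
  refine ⟨f, hf, hcard, ?_⟩
  rcases Nat.lt_or_ge f 2 with hf2 | hf2
  · have hf1 : f = 1 := by omega
    subst hf1
    have hc3 : Fintype.card α = 3 := by rw [hcard]; norm_num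
    have hG6 : Nat.card G = 6 := by rw [hG]; norm_num
    have htop : G = ⊤ := by
      apply Subgroup.eq_top_of_card_eq
      rw [hG6, Nat.card_eq_fintype_card, Fintype.card_perm, hc3]
      rfl
    have e1 : G ≃* Equiv.Perm α := (MulEquiv.subgroupCongr htop).trans Subgroup.topEquiv
    have e2 : Equiv.Perm α ≃* Equiv.Perm (Fin 3) := (Fintype.equivFinOfCardEq hc3).permCongrHom
    have : Fact (Nat.Prime 2) := ⟨Nat.prime_two⟩
    obtain ⟨e3⟩ := Cfsg.Agent.S0250.result (F := ZMod 2) (by rw [ZMod.card])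
    exact ⟨ZMod 2, inferInstance, inferInstance, by rw [ZMod.card]; norm_num,
      ⟨(e1.trans e2).trans e3.symm⟩⟩
  · obtain ⟨T⟩ : Nonempty (Sylow 2 G) := inferInstance
    obtain ⟨hTc, hTe, hTn⟩ := hSyl T
    have hnc : ¬ IsCyclic (T : Subgroup G) := by
      intro hcyc
      have h1 : Monoid.exponent (T : Subgroup G) = Nat.card (T : Subgroup G) :=
        IsCyclic.exponent_eq_card
      have h2 : Monoid.exponent (T : Subgroup G) ∣ 2 := by
        apply Monoid.exponent_dvd_of_forall_pow_eq_one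
        intro g
        apply Subtype.ext
        rw [Subgroup.coe_pow]
        exact hTe g g.2
      rw [h1, hTc] at h2
      have h4 : 4 ≤ 2 ^ f := by
        calc 4 = 2 ^ 2 := rfl
          _ ≤ 2 ^ f := Nat.pow_le_pow_right (by norm_num) hf2
      have := Nat.le_of_dvd (by norm_num) h2
      omega
    obtain ⟨F, iF, iFT, hFc, ⟨e⟩⟩ := Cfsg.Agent.S1230.result T hnc hTn
      (fun t ht => ⟨⟨⟨fun x y => Subtype.ext ((hCent t ht x x.2).2 y y.2)⟩⟩,
        fun c hc => (hCent t ht c hc).1⟩)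
    have hF2 : Fintype.card F = 2 ^ f := by rw [hFc, hTc]
    have h2 : (2 : F) = 0 := two_eq_zero_of_card hf hF2
    obtain ⟨e'⟩ := nonempty_psl_equiv_sl h2
    exact ⟨F, iF, iFT, hF2, ⟨e.trans e'⟩⟩

end Sharp3Iso

end Cfsg.Agent.Helper12
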