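import Mathlib
import Cfsg.Agent.Helper12.SharpK2

set_option autoImplicit false

namespace Cfsg.Agent.Helper12

open MulAction

section SharpK3

universe u v

/-- There is no sharply 6-transitive group of degree 13. -/
theorem sharp6_card13_false {G : Type u} [Group G] {α : Type v} [MulAction G α] [Fintype α]
    (h6 : IsMultiplyPretransitive G α 6) (hsharp : ∀ x : Fin 6 ↪ α, stabilizer G x = ⊥)
    (hn : Fintype.card α = 13) : False := by
  classical
  obtain ⟨e⟩ : Nonempty (Fin 6 ↪ α) := Function.Embedding.nonempty_of_card_le (by simp [hn])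
  have hfix6 : ∀ g : G, 6 ≤ (Finset.univ.filter (fun y : α => g • y = y)).card → g = 1 := by
    intro g hg
    obtain ⟨u⟩ : Nonempty (Fin 6 ↪ {y // y ∈ Finset.univ.filter (fun y : α => g • y = y)}) :=
      Function.Embedding.nonempty_of_card_le (by rw [Fintype.card_fin, Fintype.card_coe]; exact hg)
    apply sharpK_eq hsharp (fun i => (u i).1) (fun i j h => u.injective (Subtype.ext h))
    intro i
    have h1 := (u i).2
    simp only [Finset.mem_filter, Finset.mem_univ, true_and] at h1
    rw [h1, one_smul]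
  have hne : ∀ i j : Fin 6, i ≠ j → e i ≠ e j := fun i j h h' => h (e.injective h')
  obtain ⟨t, ht⟩ := sharpK_ex h6 e (e ∘ Equiv.swap 0 1) e.injective
    (e.injective.comp (Equiv.swap 0 1).injective)
  have ht0 : t • e 0 = e 1 := by simpa using ht 0
  have ht1 : t • e 1 = e 0 := by simpa using ht 1
  have hti : ∀ i : Fin 6, i ≠ 0 → i ≠ 1 → t • e i = e i := by
    intro i h0 h1
    have h2 := ht i
    simpa [Equiv.swap_apply_of_ne_of_ne h0 h1] using h2
  have htt : t * t = 1 := by
    apply sharpK_eq hsharp e e.injective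
    intro i
    rw [mul_smul, one_smul]
    by_cases h0 : i = 0
    · subst h0; rw [ht0, ht1]
    by_cases h1 : i = 1
    · subst h1; rw [ht1, ht0]
    rw [hti i h0 h1, hti i h0 h1]
  have htinv : ∀ y : α, t • t • y = y := fun y => by rw [← mul_smul, htt, one_smul]
  have ht1' : t ≠ 1 := by
    rintro rfl
    rw [one_smul] at ht0
    exact hne 0 1 (by decide) ht0
  obtain ⟨Ft, hFt⟩ : ∃ Ft : Finset α, Ft = Finset.univ.filter (fun y : α => t • y = y) :=
    ⟨_, rfl⟩
  have hFtm : ∀ y, y ∈ Ft ↔ t • y = y := by intro y; rw [hFt]; simp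
  have hpar := card_filter_fixed_modEq (α := α) t 2 (by rw [pow_two]; exact htt)
  rw [← hFt] at hpar
  have hFt5 : Ft.card ≤ 5 := by
    by_contra h
    exact ht1' (hfix6 t (by rw [← hFt]; omega))
  have hFt4 : ({e 2, e 3, e 4, e 5} : Finset α) ⊆ Ft := by
    intro y hy
    simp only [Finset.mem_insert, Finset.mem_singleton] at hy
    rw [hFtm]
    rcases hy with rfl | rfl | rfl | rfl <;> exact hti _ (by decide) (by decide)
  have hc4 : ({e 2, e 3, e 4, e 5} : Finset α).card = 4 := by
    rw [Finset.card_insert_of_notMem, Finset.card_insert_of_notMem, Finset.card_pair]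
    · exact hne 4 5 (by decide)
    · simp only [Finset.mem_insert, Finset.mem_singleton, not_or]
      exact ⟨hne 3 4 (by decide), hne 3 5 (by decide)⟩
    · simp only [Finset.mem_insert, Finset.mem_singleton, not_or]
      exact ⟨hne 2 3 (by decide), hne 2 4 (by decide), hne 2 5 (by decide)⟩
  have hFtcard : Ft.card = 5 := by
    have h8 := Finset.card_le_card hFt4
    have h7 := hpar
    unfold Nat.ModEq at h7
    rw [hn] at h7
    omega
  obtain ⟨s₅, hs₅, hs₅n⟩ : ∃ s ∈ Ft, s ∉ ({e 2, e 3, e 4, e 5} : Finset α) :=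
    Finset.exists_mem_notMem_of_card_lt_card (by rw [hc4, hFtcard]; norm_num)
  have hFt_eq : ∀ y, t • y = y → y = s₅ ∨ y = e 2 ∨ y = e 3 ∨ y = e 4 ∨ y = e 5 := by
    have h9 : insert s₅ ({e 2, e 3, e 4, e 5} : Finset α) = Ft := by
      apply Finset.eq_of_subset_of_card_le
      · intro y hy
        rw [Finset.mem_insert] at hy
        rcases hy with rfl | hy
        · exact hs₅
        · exact hFt4 hy
      · rw [Finset.card_insert_of_notMem hs₅n, hc4, hFtcard]
    intro y hy
    have h10 : y ∈ insert s₅ ({e 2, e 3, e 4, e 5} : Finset α) := by rw [h9, hFtm]; exact hy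
    simpa using h10
  have hs₅t : t • s₅ = s₅ := (hFtm s₅).mp hs₅
  simp only [Finset.mem_insert, Finset.mem_singleton, not_or] at hs₅n
  obtain ⟨n2, n3, n4, n5⟩ := hs₅n
  have n0 : s₅ ≠ e 0 := by
    rintro rfl
    rw [ht0] at hs₅t
    exact hne 1 0 (by decide) hs₅t
  have n1 : s₅ ≠ e 1 := by
    rintro rfl
    rw [ht1] at hs₅t
    exact hne 0 1 (by decide) hs₅t
  -- the element of order five
  have hf : Function.Injective ![e 2, e 3, e 4, e 5, e 0, e 1] := by
    intro i j hij
    fin_cases i <;> fin_cases j <;>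
      first
      | rfl
      | (exfalso; simp at hij)
  have hf' : Function.Injective ![e 3, e 4, e 5, s₅, e 0, e 1] := by
    intro i j hij
    fin_cases i <;> fin_cases j <;>
      first
      | rfl
      | (exfalso; simp at hij; done)
      | (exfalso; simp at hij; simp_all)
  obtain ⟨σ, hσ⟩ := sharpK_ex h6 _ _ hf hf'
  have σ2 : σ • e 2 = e 3 := hσ 0
  have σ3 : σ • e 3 = e 4 := hσ 1
  have σ4 : σ • e 4 = e 5 := hσ 2
  have σ5 : σ • e 5 = s₅ := hσ 3
  have σ0 : σ • e 0 = e 0 := hσ 4
  have σ1 : σ • e 1 = e 1 := hσ 5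
  have hσt : σ * t = t * σ := by
    apply sharpK_eq hsharp _ hf
    intro i
    fin_cases i
    · change (σ * t) • e 2 = (t * σ) • e 2
      rw [mul_smul, mul_smul, hti 2 (by decide) (by decide), σ2, hti 3 (by decide) (by decide)]
    · change (σ * t) • e 3 = (t * σ) • e 3
      rw [mul_smul, mul_smul, hti 3 (by decide) (by decide), σ3, hti 4 (by decide) (by decide)]
    · change (σ * t) • e 4 = (t * σ) • e 4
      rw [mul_smul, mul_smul, hti 4 (by decide) (by decide), σ4, hti 5 (by decide) (by decide)]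
    · change (σ * t) • e 5 = (t * σ) • e 5
      rw [mul_smul, mul_smul, hti 5 (by decide) (by decide), σ5, hs₅t]
    · change (σ * t) • e 0 = (t * σ) • e 0
      rw [mul_smul, mul_smul, ht0, σ1, σ0, ht0]
    · change (σ * t) • e 1 = (t * σ) • e 1
      rw [mul_smul, mul_smul, ht1, σ0, σ1, ht1]
  have σs : σ • s₅ = e 2 := by
    have h1 : t • (σ • s₅) = σ • s₅ := by
      rw [← mul_smul, ← hσt, mul_smul, hs₅t]
    rcases hFt_eq _ h1 with h | h | h | h | h
    · have h' : σ • s₅ = σ • e 5 := by rw [h, σ5]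
      exact absurd (smul_left_cancel σ h') n5
    · exact h
    · rw [← σ2] at h
      exact absurd (smul_left_cancel σ h) n2
    · rw [← σ3] at h
      exact absurd (smul_left_cancel σ h) n3
    · rw [← σ4] at h
      exact absurd (smul_left_cancel σ h) n4
  have hpow : ∀ y : α, σ ^ 5 • y = σ • σ • σ • σ • σ • y := by
    intro y
    simp only [pow_succ, pow_zero, one_mul, mul_smul]
  have σ5' : σ ^ 5 = 1 := by
    apply sharpK_eq hsharp _ hf
    intro i
    fin_cases i
    · change σ ^ 5 • e 2 = (1 : G) • e 2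
      rw [hpow, σ2, σ3, σ4, σ5, σs, one_smul]
    · change σ ^ 5 • e 3 = (1 : G) • e 3
      rw [hpow, σ3, σ4, σ5, σs, σ2, one_smul]
    · change σ ^ 5 • e 4 = (1 : G) • e 4
      rw [hpow, σ4, σ5, σs, σ2, σ3, one_smul]
    · change σ ^ 5 • e 5 = (1 : G) • e 5
      rw [hpow, σ5, σs, σ2, σ3, σ4, one_smul]
    · change σ ^ 5 • e 0 = (1 : G) • e 0
      rw [hpow, σ0, σ0, σ0, σ0, σ0, one_smul]
    · change σ ^ 5 • e 1 = (1 : G) • e 1
      rw [hpow, σ1, σ1, σ1, σ1, σ1, one_smul]
  have σn : σ ≠ 1 := by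
    rintro rfl
    rw [one_smul] at σ2
    exact hne 2 3 (by decide) σ2
  have : Fact (Nat.Prime 5) := ⟨by norm_num⟩
  have hmod5 := card_filter_fixed_modEq (α := α) σ 5 σ5'
  obtain ⟨Fs, hFs⟩ : ∃ Fs : Finset α, Fs = Finset.univ.filter (fun y : α => σ • y = y) :=
    ⟨_, rfl⟩
  have hFsm : ∀ y, y ∈ Fs ↔ σ • y = y := by intro y; rw [hFs]; simp
  rw [← hFs] at hmod5
  have hFs5 : Fs.card ≤ 5 := by
    by_contra h
    exact σn (hfix6 σ (by rw [← hFs]; omega))
  have hFs3 : Fs.card = 3 := by
    have h7 := hmod5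
    unfold Nat.ModEq at h7
    rw [hn] at h7
    omega
  have h0m : e 0 ∈ Fs := (hFsm _).mpr σ0
  have h1m : e 1 ∈ Fs.erase (e 0) :=
    Finset.mem_erase.mpr ⟨hne 1 0 (by decide), (hFsm _).mpr σ1⟩
  have hc1 : ((Fs.erase (e 0)).erase (e 1)).card = 1 := by
    rw [Finset.card_erase_of_mem h1m, Finset.card_erase_of_mem h0m, hFs3]
  obtain ⟨y, hy⟩ := Finset.card_eq_one.mp hc1
  have hym : y ∈ (Fs.erase (e 0)).erase (e 1) := by rw [hy]; exact Finset.mem_singleton_self y
  rw [Finset.mem_erase, Finset.mem_erase, hFsm] at hym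
  obtain ⟨hy1, hy0, hσy⟩ := hym
  have htym : t • y ∈ (Fs.erase (e 0)).erase (e 1) := by
    rw [Finset.mem_erase, Finset.mem_erase, hFsm]
    refine ⟨?_, ?_, ?_⟩
    · intro h
      apply hy0
      have h2 : t • (t • y) = t • e 1 := congrArg (fun z => t • z) h
      rw [htinv, ht1] at h2
      exact h2
    · intro h
      apply hy1
      have h2 : t • (t • y) = t • e 0 := congrArg (fun z => t • z) h
      rw [htinv, ht0] at h2
      exact h2
    · rw [← mul_smul, hσt, mul_smul, hσy]
  rw [hy, Finset.mem_singleton] at htym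
  rcases hFt_eq y htym with h | h | h | h | h
  · rw [h, σs] at hσy; exact n2 hσy.symm
  · rw [h, σ2] at hσy; exact hne 3 2 (by decide) hσy
  · rw [h, σ3] at hσy; exact hne 4 3 (by decide) hσy
  · rw [h, σ4] at hσy; exact hne 5 4 (by decide) hσy
  · rw [h, σ5] at hσy; exact n5 hσy

/-- Jordan: for `k ≥ 5`, a finite sharply `k`-transitive group has degree `k`, `k+1`, `k+2`,
or `k = 5` and degree 12. -/
theorem sharpK_card (k : ℕ) : ∀ (G : Type u) [Group G] (α : Type v) [MulAction G α] [Finite α],
    5 ≤ k → IsMultiplyPretransitive G α k → (∀ x : Fin k ↪ α, stabilizer G x = ⊥) →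
    k ≤ Nat.card α →
    Nat.card α = k ∨ Nat.card α = k + 1 ∨ Nat.card α = k + 2 ∨ (k = 5 ∧ Nat.card α = 12) := by
  induction k with
  | zero => intro G _ α _ _ h; omega
  | succ k ih =>
    intro G _ α _ _ hk5 hk hsharp hn
    have hfin := Fintype.ofFinite α
    have hcard : Nat.card α = Fintype.card α := Nat.card_eq_fintype_card
    rcases Nat.lt_or_ge k 5 with hk4 | hk5'
    · have hk4' : k = 4 := by omega
      subst hk4'
      have := sharp5_card hk hsharp (by omega)
      omega
    · have htr : IsPretransitive G α := isPretransitive_of_multTrans (k := k + 1) (by omega)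
        hn hk
      have hne : Nonempty α := by
        rw [← Finite.card_pos_iff]; omega
      obtain ⟨a⟩ := hne
      obtain ⟨h4, hs4⟩ := sharp_ofStabilizer (k := k) hk hsharp a
      have hc := SubMulAction.nat_card_ofStabilizer_eq G a
      have h1 := ih (stabilizer G a) (SubMulAction.ofStabilizer G a) hk5' h4 hs4 (by omega)
      rcases h1 with h1 | h1 | h1 | ⟨h1, h2⟩
      · left; omega
      · right; left; omega
      · right; right; left; omega
      · exfalso
        subst h1
        exact sharp6_card13_false hk hsharp (by omega)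

end SharpK3

end Cfsg.Agent.Helper12
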