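import Mathlib
import Cfsg.Agent.Helper95.SpBNDefs
import Cfsg.Agent.S0245
import Cfsg.Agent.Helper44.SpB

set_option autoImplicit false

/-!
CALL S2545 piece PCARD (helper12): the `p`-part of `|PSp_{2m}(q)|` is `q ^ (m ^ 2)`.
-/

namespace Cfsg.Agent.Helper12.SpBN

open Matrix Cfsg.Agent.Helper13 Cfsg.Agent.Helper95.SpBN

-- === PIECE PCARD ===
theorem p_PCARD {F : Type*} [Field F] [Fintype F] (p : ℕ) [Fact p.Prime] [CharP F p] (m : ℕ)
    (hm : 1 ≤ m) :
    ∃ m' : ℕ, Nat.card (Cfsg.PSp m F) = Fintype.card F ^ (m ^ 2) * m' ∧ ¬ p ∣ m' := by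
  classical
  have hp : p.Prime := Fact.out
  obtain ⟨f, -, hqf⟩ := FiniteField.card F p
  have hq1 : 1 ≤ Fintype.card F := Fintype.card_pos
  have hpq : p ∣ Fintype.card F := by
    rw [hqf]; exact dvd_pow_self p f.ne_zero
  have hcard := Cfsg.Agent.S0245.result (F := F) rfl m
  have h3 := Subgroup.card_eq_card_quotient_mul_card_subgroup
    (Subgroup.center (Matrix.symplecticGroup (Fin m) F))
  -- `p` does not divide the product
  have hR : ¬ p ∣ ∏ i ∈ Finset.range m, (Fintype.card F ^ (2 * (i + 1)) - 1) := by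
    intro hdvd
    obtain ⟨i, -, hi⟩ := (Prime.dvd_finset_prod_iff hp.prime _).1 hdvd
    have h1 : p ∣ Fintype.card F ^ (2 * (i + 1)) := dvd_pow hpq (by omega)
    have h2 : 1 ≤ Fintype.card F ^ (2 * (i + 1)) := Nat.one_le_pow _ _ hq1
    have h4 : p ∣ 1 := by
      have h5 := Nat.dvd_sub h1 hi
      rwa [Nat.sub_sub_self h2] at h5
    exact hp.one_lt.ne' (Nat.dvd_one.1 h4)
  -- `p` does not divide the order of the centre
  have hZ : ¬ p ∣ Nat.card (Subgroup.center (Matrix.symplecticGroup (Fin m) F)) := by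
    intro hdvd
    obtain ⟨z, hz⟩ := exists_prime_orderOf_dvd_card' p hdvd
    have hk : (z : Matrix.symplecticGroup (Fin m) F) ^ (p ^ 1) = 1 := by
      rw [pow_one, ← Subgroup.coe_pow, ← hz, pow_orderOf_eq_one, Subgroup.coe_one]
    have he0 : (Pi.single (Sum.inl ⟨0, hm⟩) 1 : Fin m ⊕ Fin m → F) ≠ 0 := by
      intro h0
      have := congrFun h0 (Sum.inl ⟨0, hm⟩)
      simp at this
    have h1 := Cfsg.Agent.Helper44.PSpn.sp_center_p p _ he0
      (z : Matrix.symplecticGroup (Fin m) F) z.2 1 hk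
    have h2 : z = 1 := Subtype.ext h1
    rw [h2, orderOf_one] at hz
    exact hp.one_lt.ne' hz.symm
  have hcop : Nat.Coprime (Fintype.card F ^ (m ^ 2))
      (Nat.card (Subgroup.center (Matrix.symplecticGroup (Fin m) F))) := by
    apply Nat.Coprime.pow_left
    rw [hqf]
    apply Nat.Coprime.pow_left
    exact (Nat.Prime.coprime_iff_not_dvd hp).mpr hZ
  have hdvd : Fintype.card F ^ (m ^ 2) ∣
      Nat.card (Matrix.symplecticGroup (Fin m) F ⧸
        Subgroup.center (Matrix.symplecticGroup (Fin m) F)) := by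
    apply hcop.dvd_of_dvd_mul_right
    rw [← h3, hcard]
    exact dvd_mul_right _ _
  obtain ⟨m', hm'⟩ := hdvd
  refine ⟨m', hm', ?_⟩
  intro hpm
  apply hR
  have h5 : Fintype.card F ^ (m ^ 2) * (m' *
      Nat.card (Subgroup.center (Matrix.symplecticGroup (Fin m) F))) =
      Fintype.card F ^ (m ^ 2) * ∏ i ∈ Finset.range m, (Fintype.card F ^ (2 * (i + 1)) - 1) := by
    rw [← hcard, h3, hm', mul_assoc]
  have h6 := Nat.eq_of_mul_eq_mul_left (pow_pos hq1 _) h5
  rw [← h6]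
  exact Dvd.dvd.mul_right hpm _

end Cfsg.Agent.Helper12.SpBN
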