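import Mathlib
import Cfsg.Prelude.Def_GeometricClasses
import Cfsg.Agent.Helper71.T4Defs
import Cfsg.Agent.Helper71.T4Main
import Cfsg.Agent.Helper97.OForm
import Cfsg.Agent.Helper96.T5Defs
import Cfsg.Agent.Helper4.T4CRCore

/-!
CALL S5704 piece CC (helper12): an element conjugating the root element `1 ⊗ t_w(1)` to a
Kronecker product maps `U ⊗ w` onto some `U ⊗ e`.
-/

set_option autoImplicit false
set_option linter.unusedVariables false

namespace Cfsg.Agent.Helper12.T5CC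

open Matrix Cfsg Cfsg.Geo Cfsg.Agent.Helper71.T4 Cfsg.Agent.Helper96.T5
open scoped Kronecker

variable {F : Type*} [Field F] {a b : ℕ}

variable {J₁ : Matrix (Fin a) (Fin a) F} {J₂ : Matrix (Fin b) (Fin b) F}
  {Q : (Fin a × Fin b → F) → F}

/-- the core of CC, in terms of `β` with `β w = 0` -/
theorem cc_core (ha : 1 ≤ a) (hab : a < b) (G Gi : Matrix (Fin a × Fin b) (Fin a × Fin b) F)
    (hGGi : G * Gi = 1) (hGiG : Gi * G = 1) (w β : Fin b → F) (hw : w ≠ 0) (hβ : β ≠ 0)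
    (h : β ⬝ᵥ w = 0)
    (hk : IsKron (G * (1 + (1 : Matrix (Fin a) (Fin a) F) ⊗ₖ vecMulVec w β) * Gi)) :
    ∃ e : Fin b → F, e ≠ 0 ∧ ∀ u : Fin a → F, ∃ u' : Fin a → F, G *ᵥ pt u w = pt u' e := by
  classical
  haveI : Nonempty (Fin a) := ⟨⟨0, ha⟩⟩
  haveI : Nonempty (Fin b) := ⟨⟨0, by omega⟩⟩
  obtain ⟨A, B, hAB⟩ := hk
  have hNN : ((1 : Matrix (Fin a) (Fin a) F) ⊗ₖ vecMulVec w β) *
      ((1 : Matrix (Fin a) (Fin a) F) ⊗ₖ vecMulVec w β) = 0 := by
    rw [← Matrix.mul_kronecker_mul, vecMulVec_sq w β h, Matrix.kronecker_zero]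
  generalize hN : (1 : Matrix (Fin a) (Fin a) F) ⊗ₖ vecMulVec w β = N at hAB hNN
  have hconj : G * N * Gi = A ⊗ₖ B - 1 := by
    have h1 : G * (1 + N) * Gi = G * N * Gi + 1 := by
      rw [mul_add, mul_one, add_mul, hGGi, add_comm]
    rw [h1] at hAB
    exact eq_sub_of_add_eq hAB
  have hE : ∀ β' w'' : Fin b → F, blk G β' w * blk Gi β w'' =
      (β' ⬝ᵥ B *ᵥ w'') • A - (β' ⬝ᵥ w'') • (1 : Matrix (Fin a) (Fin a) F) := by
    intro β' w''
    rw [← blk_mul_vmv_mul, hN, hconj, Cfsg.Agent.Helper4.T4CRCore.blk_sub_mat, blk_kron, blk_one]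
  by_cases hsc : ∃ c : F, A = c • (1 : Matrix (Fin a) (Fin a) F)
  · obtain ⟨c, rfl⟩ := hsc
    -- `T := c • B - 1`
    have hE' : ∀ β' w'' : Fin b → F, blk G β' w * blk Gi β w'' =
        (β' ⬝ᵥ (c • B - 1) *ᵥ w'') • (1 : Matrix (Fin a) (Fin a) F) := by
      intro β' w''
      rw [hE, Matrix.sub_mulVec, Matrix.smul_mulVec, Matrix.one_mulVec, dotProduct_sub,
        dotProduct_smul, sub_smul, smul_smul, smul_eq_mul, mul_comm]
    generalize hT : c • B - 1 = T at hE'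
    have hTne : T ≠ 0 := by
      intro hT0
      have h1 : ∀ β' w'' : Fin b → F, blk G β' w * blk Gi β w'' = 0 := by
        intro β' w''
        rw [hE', hT0, Matrix.zero_mulVec, dotProduct_zero, zero_smul]
      -- then `blk G β' w = 0` for all `β'`, so `G (pt u w) = 0`, impossible
      obtain ⟨wβ, hwβ⟩ := exists_dot_eq_one β hβ
      have hzero : ∀ β' : Fin b → F, blk G β' w = 0 := by
        intro β'
        have h2 : blk G β' w = blk G β' w * blk (Gi * G) β wβ := by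
          rw [hGiG, blk_one, hwβ, one_smul, mul_one]
        rw [h2, blk_mul, Finset.mul_sum]
        apply Finset.sum_eq_zero
        intro l _
        rw [← mul_assoc, h1, zero_mul]
      have h3 : G *ᵥ pt (fun _ : Fin a => (1 : F)) w = 0 := by
        ext ⟨i, k⟩
        rw [mulVec_pt, hzero, Matrix.zero_mulVec]
        rfl
      have h4 : pt (fun _ : Fin a => (1 : F)) w = 0 := by
        have h5 : Gi *ᵥ (G *ᵥ pt (fun _ : Fin a => (1 : F)) w) = 0 := by
          rw [h3, Matrix.mulVec_zero]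
        rwa [Matrix.mulVec_mulVec, hGiG, Matrix.one_mulVec] at h5
      apply hw
      funext k
      have h6 := congrFun h4 (⟨0, ha⟩, k)
      simpa [pt] using h6
    obtain ⟨k₀, l₀, hkl⟩ : ∃ k l, T k l ≠ 0 := by
      by_contra hcon
      push Not at hcon
      exact hTne (Matrix.ext hcon)
    -- `β₀`, `w₀` with `β₀ T w₀ = 1`
    have hτ : (Pi.single k₀ (T k₀ l₀)⁻¹ : Fin b → F) ⬝ᵥ T *ᵥ (Pi.single l₀ 1 : Fin b → F) = 1 := by
      rw [Matrix.mulVec_single_one, single_dotProduct]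
      simp only [Matrix.col_apply]
      exact inv_mul_cancel₀ hkl
    have hPR : blk G (Pi.single k₀ (T k₀ l₀)⁻¹) w * blk Gi β (Pi.single l₀ 1) = 1 := by
      rw [hE', hτ, one_smul]
    have hRP : blk Gi β (Pi.single l₀ 1) * blk G (Pi.single k₀ (T k₀ l₀)⁻¹) w = 1 :=
      _root_.mul_eq_one_comm.mp hPR
    have hP : ∀ β' : Fin b → F, blk G β' w =
        (β' ⬝ᵥ T *ᵥ (Pi.single l₀ 1 : Fin b → F)) • blk G (Pi.single k₀ (T k₀ l₀)⁻¹) w := by
      intro β'
      have h1 : blk G β' w = blk G β' w * (blk Gi β (Pi.single l₀ 1) *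
          blk G (Pi.single k₀ (T k₀ l₀)⁻¹) w) := by rw [hRP, mul_one]
      rw [h1, ← mul_assoc, hE', smul_mul_assoc, one_mul]
    refine ⟨T *ᵥ (Pi.single l₀ 1 : Fin b → F), ?_, ?_⟩
    · intro h0
      rw [h0, dotProduct_zero] at hτ
      exact zero_ne_one hτ
    · intro u
      refine ⟨blk G (Pi.single k₀ (T k₀ l₀)⁻¹) w *ᵥ u, ?_⟩
      ext ⟨i, k⟩
      rw [mulVec_pt, hP, Matrix.smul_mulVec]
      simp only [pt, Pi.smul_apply, smul_eq_mul, single_dotProduct, one_mul]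
      ring
  · exfalso
    obtain ⟨u, α, hαu, hαAu⟩ := Cfsg.Agent.Helper4.T4CRCore.exists_of_not_scalar ha A hsc
    have hB : ∀ k l : Fin b, B k l =
        α ⬝ᵥ ((blk G (Pi.single k 1) w * blk Gi β (Pi.single l 1)) *ᵥ u) := by
      intro k l
      rw [hE, Matrix.sub_mulVec, Matrix.smul_mulVec, Matrix.smul_mulVec, Matrix.one_mulVec,
        dotProduct_sub, dotProduct_smul, dotProduct_smul, hαu, hαAu]
      simp
    obtain ⟨v, hv0, hv⟩ := Cfsg.Agent.Helper4.T4CRCore.exists_ker hab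
      (Matrix.of fun (i : Fin a) (l : Fin b) => (blk Gi β (Pi.single l 1) *ᵥ u) i)
    have hBv : B *ᵥ v = 0 := by
      ext k
      have h1 : (B *ᵥ v) k = α ⬝ᵥ (blk G (Pi.single k 1) w *ᵥ
          ((Matrix.of fun (i : Fin a) (l : Fin b) => (blk Gi β (Pi.single l 1) *ᵥ u) i) *ᵥ v)) := by
        have hGmv : (Matrix.of fun (i : Fin a) (l : Fin b) =>
            (blk Gi β (Pi.single l 1) *ᵥ u) i) *ᵥ v =
            ∑ l, v l • (blk Gi β (Pi.single l 1) *ᵥ u) := by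
          ext i
          simp only [Matrix.mulVec, dotProduct, Matrix.of_apply, Finset.sum_apply, Pi.smul_apply,
            smul_eq_mul]
          exact Finset.sum_congr rfl fun l _ => mul_comm _ _
        rw [hGmv, Matrix.mulVec_sum, dotProduct_sum]
        simp only [Matrix.mulVec_smul, dotProduct_smul, Matrix.mulVec_mulVec, smul_eq_mul]
        show ∑ l, B k l * v l = _
        refine Finset.sum_congr rfl fun l _ => ?_
        rw [hB k l, mul_comm]
      rw [h1, hv, Matrix.mulVec_zero, dotProduct_zero, Pi.zero_apply]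
    have hdetB : B.det = 0 := Matrix.exists_mulVec_eq_zero_iff.mp ⟨v, hv0, hBv⟩
    have hdet : (A ⊗ₖ B).det = 0 := by
      rw [Matrix.det_kronecker, hdetB]
      simp only [Fintype.card_fin]
      rw [zero_pow (by omega), mul_zero]
    have hunit : (A ⊗ₖ B).det ≠ 0 := by
      rw [← hAB, Matrix.det_mul, Matrix.det_mul]
      have h1 : G.det * Gi.det = 1 := by rw [← Matrix.det_mul, hGGi, Matrix.det_one]
      have h2 : (1 + N).det * (1 - N).det = 1 := by
        rw [← Matrix.det_mul]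
        have : (1 + N) * (1 - N) = 1 := by
          rw [add_mul, mul_sub, mul_sub, hNN]
          simp
        rw [this, Matrix.det_one]
      intro h0
      have h3 : G.det ≠ 0 := left_ne_zero_of_mul_eq_one h1
      have h4 : Gi.det ≠ 0 := right_ne_zero_of_mul_eq_one h1
      have h5 : (1 + N).det ≠ 0 := left_ne_zero_of_mul_eq_one h2
      exact mul_ne_zero (mul_ne_zero h3 h5) h4 h0
    exact hunit hdet

/-- PIECE CC -/
theorem cc (hT : TQ J₁ J₂ Q) (ha : 1 ≤ a) (hab : a < b) (x : GL (Fin a × Fin b) F)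
    (w : Fin b → F) (hw : w ≠ 0)
    (hk : IsKron (x.1 * ((1 : Matrix (Fin a) (Fin a) F) ⊗ₖ tv J₂ w 1) * (x⁻¹).1)) :
    ∃ e : Fin b → F, e ≠ 0 ∧ ∀ u : Fin a → F, ∃ u' : Fin a → F, x.1 *ᵥ pt u w = pt u' e := by
  have hGGi : x.1 * (x⁻¹).1 = 1 := by
    rw [← Units.val_mul, mul_inv_cancel, Units.val_one]
  have hGiG : (x⁻¹).1 * x.1 = 1 := by
    rw [← Units.val_mul, inv_mul_cancel, Units.val_one]
  have hβ : J₂ *ᵥ w ≠ 0 := by
    intro h0
    apply hw
    have h1 : J₂⁻¹ *ᵥ (J₂ *ᵥ w) = 0 := by rw [h0, Matrix.mulVec_zero]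
    rwa [Matrix.mulVec_mulVec, Matrix.nonsing_inv_mul _ (isUnit_iff_ne_zero.mpr hT.det₂),
      Matrix.one_mulVec] at h1
  have hβw : (J₂ *ᵥ w) ⬝ᵥ w = 0 := by
    have h1 := hT.alt₂ w
    rw [bf, dotProduct_comm] at h1
    exact h1
  have hrw : (1 : Matrix (Fin a) (Fin a) F) ⊗ₖ tv J₂ w 1 =
      1 + (1 : Matrix (Fin a) (Fin a) F) ⊗ₖ vecMulVec w (J₂ *ᵥ w) := by
    rw [tv, one_smul, rk, Matrix.kronecker_add, Matrix.one_kronecker_one]
  rw [hrw] at hk
  exact cc_core ha hab x.1 (x⁻¹).1 hGGi hGiG w (J₂ *ᵥ w) hw hβ hβw hk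

end Cfsg.Agent.Helper12.T5CC
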