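import Cfsg.Agent.Helper12.W2pHat

/-!
# Wielandt's theorem on primitive groups of degree `2p`: the trichotomy for the kernel `E`.
-/

namespace Cfsg.Agent.Helper12

open Finset

namespace W2pCtx

variable {α : Type*} [Fintype α] [DecidableEq α] {p : ℕ} [hp : Fact p.Prime] (C : W2pCtx α p)
variable (ψ : AddChar (ZMod p) ℂ)

/-- The "trace" coefficients of `E`. -/
noncomputable def eps (j : ZMod p) : ℚ := C.E (C.a 0) (C.φ (j, 0)) + C.E (C.a 1) (C.φ (j, 1))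

theorem eps_zero : C.eps 0 = 2 := by
  simp only [eps, φ_zero, E_self]; norm_num

theorem hatE_sq (k : ZMod p) : C.hat ψ C.E k * C.hat ψ C.E k = (C.s : ℂ) • C.hat ψ C.E k := by
  rw [← C.hat_mul ψ C.E C.E_Inv, ← C.hat_smul]
  congr 1
  funext β δ
  exact C.EE β δ

theorem hatE_herm (k : ZMod p) : (C.hat ψ C.E k).conjTranspose = C.hat ψ C.E k :=
  C.hat_herm ψ C.E_Inv C.E_symm k

theorem hatE_trace (k : ZMod p) :
    (C.hat ψ C.E k).trace = ∑ j : ZMod p, (C.eps j : ℂ) * ψ (k * j) := C.hat_trace ψ C.E k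

theorem sum_split {M : α → α → ℚ} (hM : C.Inv M) (r : ℚ) (hrow : ∀ β, ∑ γ, M β γ = r) (c : Fin 2) :
    ∑ j : ZMod p, M (C.a c) (C.φ (j, 0)) = (r + C.rho M * C.v (C.a c)) / 2 ∧
    ∑ j : ZMod p, M (C.a c) (C.φ (j, 1)) = (r - C.rho M * C.v (C.a c)) / 2 := by
  have h1 := hrow (C.a c)
  have h2 := C.eigen hM (C.a c)
  rw [C.sum_φ] at h1 h2
  have h2' : ∑ j : ZMod p, (M (C.a c) (C.φ (j, 0)) - M (C.a c) (C.φ (j, 1)))
      = C.rho M * C.v (C.a c) := by
    rw [← h2]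
    refine Finset.sum_congr rfl fun j _ => ?_
    rw [v_φ, v_φ]
    simp
    ring
  rw [Finset.sum_sub_distrib] at h2'
  rw [Finset.sum_add_distrib] at h1
  constructor <;> linarith

theorem sumE_diag0 : ∑ j : ZMod p, C.E (C.a 0) (C.φ (j, 0)) = C.s / 2 := by
  have := (C.sum_split C.E_Inv 0 C.E_row 0).1
  rw [C.v_a0] at this
  rw [this]; unfold s; ring

theorem sumE_off0 : ∑ j : ZMod p, C.E (C.a 0) (C.φ (j, 1)) = - C.s / 2 := by
  have := (C.sum_split C.E_Inv 0 C.E_row 0).2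
  rw [C.v_a0] at this
  rw [this]; unfold s; ring

theorem sumE_diag1 : ∑ j : ZMod p, C.E (C.a 1) (C.φ (j, 1)) = C.s / 2 := by
  have := (C.sum_split C.E_Inv 0 C.E_row 1).2
  rw [C.v_a1] at this
  rw [this]; unfold s; ring

theorem sum_eps : ∑ j : ZMod p, C.eps j = C.s := by
  unfold eps
  rw [Finset.sum_add_distrib, C.sumE_diag0, C.sumE_diag1]; ring

theorem sum_const_off {f : ZMod p → ℚ} {c : ℚ} (hc : ∀ j : ZMod p, j ≠ 0 → f j = c) :
    ∑ j : ZMod p, f j = f 0 + (p - 1) * c := by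
  rw [← Finset.add_sum_erase Finset.univ f (Finset.mem_univ 0)]
  congr 1
  rw [Finset.sum_congr rfl (fun j hj => hc j (Finset.ne_of_mem_erase hj)), Finset.sum_const,
    Finset.card_erase_of_mem (Finset.mem_univ 0), Finset.card_univ, ZMod.card, nsmul_eq_mul,
    Nat.cast_sub hp.out.one_lt.le]
  simp

theorem hatE_cases (k : ZMod p) :
    C.hat ψ C.E k = 0 ∨ (C.hat ψ C.E k).trace = C.s ∨
      C.hat ψ C.E k = (C.s : ℂ) • (1 : Matrix (Fin 2) (Fin 2) ℂ) := by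
  have hs : (C.s : ℂ) ≠ 0 := by exact_mod_cast C.s_pos.ne'
  have hsq := C.hatE_sq ψ k
  obtain ⟨H, hH⟩ : ∃ H, H = C.hat ψ C.E k := ⟨_, rfl⟩
  rw [← hH] at hsq ⊢
  have he : ((C.s : ℂ)⁻¹ • H) * ((C.s : ℂ)⁻¹ • H) = (C.s : ℂ)⁻¹ • H := by
    rw [Matrix.smul_mul, Matrix.mul_smul, hsq, smul_smul, smul_smul]
    congr 1
    field_simp
  rcases w2p_idem_cases _ he with h | h | h
  · left
    have := congrArg (fun X => (C.s : ℂ) • X) h
    simpa [smul_smul, hs] using this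
  · right; left
    rw [Matrix.trace_smul, smul_eq_mul] at h
    field_simp at h
    exact h
  · right; right
    have := congrArg (fun X => (C.s : ℂ) • X) h
    simpa [smul_smul, hs] using this

theorem φ_one_zero : C.φ (1, 0) = C.x (C.a 0) := by
  rw [← C.φ_zero 0, C.x_φ, zero_add]

/-- The trichotomy. -/
theorem tri {ζ : ℂ} (hζ : IsPrimitiveRoot ζ p) (hψζ : ∀ j : ZMod p, ψ j = ζ ^ j.val) :
    C.E (C.a 0) (C.x (C.a 0)) = 1 ∨ (C.s = 2 ∧ ∀ j : ZMod p, j ≠ 0 → C.eps j = 0) ∨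
      C.hat ψ C.E 1 = (C.s : ℂ) • (1 : Matrix (Fin 2) (Fin 2) ℂ) := by
  have h1 : (1 : ZMod p) ≠ 0 := one_ne_zero
  rcases C.hatE_cases ψ 1 with h | h | h
  · left
    have ht : ∑ j : ZMod p, (C.eps j : ℂ) * ψ (1 * j) = ((0 : ℚ) : ℂ) := by
      rw [← C.hatE_trace, h]; simp
    obtain ⟨c, hc, hc0⟩ := w2p_indep_char hζ ψ hψζ C.eps 0 1 h1 ht
    have h2 : C.eps 1 = 2 := by
      rw [hc 1 h1]; rw [C.eps_zero] at hc0; linarith
    unfold eps at h2
    have h3 := C.E_le_one (C.a 0) (C.φ (1, 0))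
    have h4 := C.E_le_one (C.a 1) (C.φ (1, 1))
    rw [← C.φ_one_zero]
    linarith
  · right; left
    have ht : ∑ j : ZMod p, (C.eps j : ℂ) * ψ (1 * j) = ((C.s : ℚ) : ℂ) := by
      rw [← C.hatE_trace, h]
    obtain ⟨c, hc, hc0⟩ := w2p_indep_char hζ ψ hψζ C.eps C.s 1 h1 ht
    have hsum := C.sum_eps
    rw [sum_const_off hc, C.eps_zero] at hsum
    rw [C.eps_zero] at hc0
    have hp0 : (p : ℚ) ≠ 0 := by exact_mod_cast hp.out.ne_zero
    have hc' : c = 0 := by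
      have : (p : ℚ) * c = 0 := by linarith
      exact (mul_eq_zero.mp this).resolve_left hp0
    refine ⟨by rw [hc'] at hc0; linarith, fun j hj => by rw [hc j hj, hc']⟩
  · right; right; exact h

/-- Third case of the trichotomy: `E` is constant off the diagonal. -/
theorem caseC {ζ : ℂ} (hζ : IsPrimitiveRoot ζ p) (hψζ : ∀ j : ZMod p, ψ j = ζ ^ j.val)
    (h : C.hat ψ C.E 1 = (C.s : ℂ) • (1 : Matrix (Fin 2) (Fin 2) ℂ)) :
    ∀ γ, γ ≠ C.a 0 → C.E (C.a 0) γ = -1 / (2 * p - 1) := by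
  have h1 : (1 : ZMod p) ≠ 0 := one_ne_zero
  have e00 : ∑ j : ZMod p, ((C.E (C.a 0) (C.φ (j, 0)) : ℚ) : ℂ) * ψ (1 * j) = ((C.s : ℚ) : ℂ) := by
    have := congrFun (congrFun h 0) 0
    rw [hat_apply] at this
    rw [this]; simp
  have e01 : ∑ j : ZMod p, ((C.E (C.a 0) (C.φ (j, 1)) : ℚ) : ℂ) * ψ (1 * j) = ((0 : ℚ) : ℂ) := by
    have := congrFun (congrFun h 0) 1
    rw [hat_apply] at this
    rw [this]; simp
  obtain ⟨c', hc', hc'0⟩ := w2p_indep_char hζ ψ hψζ (fun j => C.E (C.a 0) (C.φ (j, 0))) C.s 1 h1 e00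
  obtain ⟨c'', hc'', hc''0⟩ := w2p_indep_char hζ ψ hψζ (fun j => C.E (C.a 0) (C.φ (j, 1))) 0 1 h1 e01
  simp only [φ_zero, E_self] at hc'0 hc''0
  have s0 := C.sumE_diag0
  have s1 := C.sumE_off0
  rw [sum_const_off hc'] at s0
  rw [sum_const_off hc''] at s1
  simp only [φ_zero, E_self] at s0 s1
  have hp1 : (1 : ℚ) < p := by exact_mod_cast hp.out.one_lt
  have hd : (2 * (p : ℚ) - 1) ≠ 0 := by linarith
  have hs : C.s = 2 * p / (2 * p - 1) := by
    rw [eq_div_iff hd]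
    have : c' = 1 - C.s := by linarith
    rw [this] at s0
    linarith
  have hc'v : c' = -1 / (2 * p - 1) := by
    have : c' = 1 - C.s := by linarith
    rw [this, hs]; field_simp; ring
  have hc''v : c'' = -1 / (2 * p - 1) := by
    have h2 : C.E (C.a 0) (C.a 1) = c'' := by linarith
    rw [h2] at s1
    have h3 : (p : ℚ) * c'' = - C.s / 2 := by linarith
    rw [hs] at h3
    have hp0 : (p : ℚ) ≠ 0 := by linarith
    field_simp at h3 ⊢
    linarith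
  intro γ hγ
  obtain ⟨⟨j, c⟩, rfl⟩ := C.φ.surjective γ
  obtain rfl | rfl : c = 0 ∨ c = 1 := by fin_cases c <;> simp
  · have hj : j ≠ 0 := by
      rintro rfl; exact hγ (C.φ_zero 0)
    rw [hc' j hj, hc'v]
  · by_cases hj : j = 0
    · subst hj
      rw [C.φ_zero]
      have h2 : C.E (C.a 0) (C.a 1) = c'' := by linarith
      rw [h2, hc''v]
    · rw [hc'' j hj, hc''v]

theorem caseC_trans (hE : ∀ γ, γ ≠ C.a 0 → C.E (C.a 0) γ = -1 / (2 * p - 1)) :
    ∀ β γ, β ≠ C.a 0 → γ ≠ C.a 0 → C.A β (C.a 0) γ = 1 := by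
  intro β γ hβ hγ
  have hp1 : (1 : ℚ) < p := by exact_mod_cast hp.out.one_lt
  obtain ⟨u, hu⟩ : ∃ u : ℚ, u = 1 / (2 * p - 1) := ⟨_, rfl⟩
  have hupos : 0 < u := by rw [hu]; apply div_pos one_pos; linarith
  have hE' : ∀ γ, γ ≠ C.a 0 → C.E (C.a 0) γ = -u := by
    intro γ hγ; rw [hE γ hγ, hu]; ring
  have hEd : ∀ δ, δ ≠ γ → C.E δ γ = -u := by
    intro δ hδ
    obtain ⟨g, hg, rfl⟩ := C.htr (C.a 0) δ
    have h1 : C.E (g (C.a 0)) γ = C.E (C.a 0) (g⁻¹ γ) := by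
      have := C.E_inv hg (C.a 0) (g⁻¹ γ)
      rw [← this]; simp
    rw [h1]
    apply hE'
    intro h2
    apply hδ
    rw [← h2]; simp
  have hME := C.ME (C.A_Inv β) (C.a 0) γ
  have hL : ∑ δ, C.A β (C.a 0) δ * C.E δ γ = C.A β (C.a 0) γ * (1 + u) - u * C.n β := by
    have : ∀ δ, C.A β (C.a 0) δ * C.E δ γ
        = (if δ = γ then C.A β (C.a 0) γ * (1 + u) else 0) - u * C.A β (C.a 0) δ := by
      intro δ
      by_cases hδ : δ = γ
      · subst hδ; rw [C.E_self]; simp; ring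
      · rw [hEd δ hδ]; simp [hδ]; ring
    simp_rw [this]
    rw [Finset.sum_sub_distrib, ← Finset.mul_sum, Finset.sum_ite_eq' Finset.univ γ]
    simp [n]
  rw [hL, ← C.E_mul_n, hE' β hβ, hE' γ hγ] at hME
  have hn := C.n_pos β
  have hA : C.A β (C.a 0) γ * (1 + u) = u * C.n β * (1 + u) := by linarith
  have hA2 : C.A β (C.a 0) γ = u * C.n β := by
    have h1u : (1 + u) ≠ 0 := by linarith
    exact mul_right_cancel₀ h1u hA
  rcases C.A_zero_or_one β (C.a 0) γ with h0 | h1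
  · rw [h0] at hA2
    have : 0 < u * C.n β := mul_pos hupos (by linarith)
    linarith
  · exact h1

end W2pCtx

end Cfsg.Agent.Helper12
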