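import Cfsg.Agent.Helper12.W2pAnalysis

/-!
# Wielandt's theorem on primitive groups of degree `2p`: the main case (`s = 2`).
-/

namespace Cfsg.Agent.Helper12

open Finset

namespace W2pCtx

variable {α : Type*} [Fintype α] [DecidableEq α] {p : ℕ} [hp : Fact p.Prime] (C : W2pCtx α p)
variable (ψ : AddChar (ZMod p) ℂ)

/-- The "trace" coefficients of the orbital of `(a 0, β)`. -/
noncomputable def m (β : α) (j : ZMod p) : ℚ :=
  C.A β (C.a 0) (C.φ (j, 0)) + C.A β (C.a 1) (C.φ (j, 1))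

theorem m_zero {β : α} (hβ : β ≠ C.a 0) : C.m β 0 = 0 := by
  simp [m, φ_zero, C.A_diag hβ]

theorem sum_m (β : α) : ∑ j : ZMod p, C.m β j = C.n β + C.rho (C.A β) := by
  unfold m
  rw [Finset.sum_add_distrib, (C.sum_split (C.A_Inv β) (C.n β) (C.A_row β) 0).1,
    (C.sum_split (C.A_Inv β) (C.n β) (C.A_row β) 1).2, C.v_a0, C.v_a1]
  ring

theorem hatE_trace_B (heps : ∀ j : ZMod p, j ≠ 0 → C.eps j = 0) (k : ZMod p) :
    (C.hat ψ C.E k).trace = 2 := by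
  rw [C.hatE_trace, Finset.sum_eq_single 0]
  · rw [C.eps_zero, mul_zero, AddChar.map_zero_eq_one]; norm_num
  · intro j _ hj; rw [heps j hj]; simp
  · intro h; exact absurd (Finset.mem_univ _) h

theorem half_idem (hs : C.s = 2) (k : ZMod p) :
    ((2⁻¹ : ℂ) • C.hat ψ C.E k) * ((2⁻¹ : ℂ) • C.hat ψ C.E k) = (2⁻¹ : ℂ) • C.hat ψ C.E k := by
  rw [Matrix.smul_mul, Matrix.mul_smul, C.hatE_sq, hs, smul_smul, smul_smul]
  congr 1
  push_cast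
  norm_num

theorem half_trace (heps : ∀ j : ZMod p, j ≠ 0 → C.eps j = 0) (k : ZMod p) :
    ((2⁻¹ : ℂ) • C.hat ψ C.E k).trace = 1 := by
  rw [Matrix.trace_smul, C.hatE_trace_B ψ heps]
  simp

theorem half_herm (k : ZMod p) :
    ((2⁻¹ : ℂ) • C.hat ψ C.E k).conjTranspose = (2⁻¹ : ℂ) • C.hat ψ C.E k := by
  rw [Matrix.conjTranspose_smul, C.hatE_herm]
  simp

theorem hatA_mul_E (β : α) (k : ZMod p) :
    C.hat ψ (C.A β) k * C.hat ψ C.E k = ((C.rho (C.A β) : ℚ) : ℂ) • C.hat ψ C.E k := by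
  rw [← C.hat_mul ψ (C.A β) C.E_Inv, ← C.hat_smul]
  congr 1
  funext γ δ
  exact C.ME (C.A_Inv β) γ δ

theorem hatE_mul_A (β : α) (k : ZMod p) :
    C.hat ψ C.E k * C.hat ψ (C.A β) k = ((C.rho (C.A β) : ℚ) : ℂ) • C.hat ψ C.E k := by
  rw [← C.hat_mul ψ C.E (C.A_Inv β), ← C.hat_smul]
  congr 1
  funext γ δ
  exact C.EM (C.A_Inv β) γ δ

theorem norm_k (hs : C.s = 2) (heps : ∀ j : ZMod p, j ≠ 0 → C.eps j = 0) (β : α) (k : ZMod p) :
    ∑ c, ∑ d, Complex.normSq (C.hat ψ (C.A β) k c d)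
      = ((C.rho (C.A β) : ℚ) : ℝ) ^ 2 +
        Complex.normSq ((C.hat ψ (C.A β) k).trace - (((C.rho (C.A β) : ℚ) : ℝ) : ℂ)) := by
  apply w2p_norm ((2⁻¹ : ℂ) • C.hat ψ C.E k) _ _ (C.half_idem ψ hs k) (C.half_trace ψ heps k)
    (C.half_herm ψ k)
  · rw [Matrix.mul_smul, C.hatA_mul_E, smul_comm]
    simp
  · rw [Matrix.smul_mul, C.hatE_mul_A, smul_comm]
    simp

theorem diamond (hψ : ψ.IsPrimitive) (hs : C.s = 2)
    (heps : ∀ j : ZMod p, j ≠ 0 → C.eps j = 0) {β : α} (hβ : β ≠ C.a 0) :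
    2 * C.n β = 2 * (C.rho (C.A β)) ^ 2 + ∑ j : ZMod p, (C.m β j) ^ 2 := by
  have hp0 : (p : ℝ) ≠ 0 := by exact_mod_cast hp.out.ne_zero
  obtain ⟨ρ, hρ⟩ : ∃ ρ : ℚ, ρ = C.rho (C.A β) := ⟨_, rfl⟩
  rw [← hρ]
  have hcd : ∀ c : Fin 2, ∑ d : Fin 2, ∑ j : ZMod p, ((C.A β (C.a c) (C.φ (j, d)) : ℚ) : ℝ) ^ 2
      = ((C.n β : ℚ) : ℝ) := by
    intro c
    rw [← C.A_row β (C.a c), C.sum_φ']
    push_cast
    refine Finset.sum_congr rfl fun d _ => Finset.sum_congr rfl fun j _ => ?_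
    rw [← Rat.cast_pow, C.A_sq]
  have hL : ∑ k : ZMod p, ∑ c, ∑ d, Complex.normSq (C.hat ψ (C.A β) k c d)
      = (p : ℝ) * (2 * ((C.n β : ℚ) : ℝ)) := by
    rw [Finset.sum_comm]
    have : ∀ c : Fin 2, ∑ k : ZMod p, ∑ d, Complex.normSq (C.hat ψ (C.A β) k c d)
        = (p : ℝ) * ((C.n β : ℚ) : ℝ) := by
      intro c
      rw [Finset.sum_comm, ← hcd c, Finset.mul_sum]
      exact Finset.sum_congr rfl fun d _ => C.hat_parseval ψ hψ (C.A β) c d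
    simp_rw [this]
    rw [Fin.sum_univ_two]
    ring
  obtain ⟨f, hf⟩ : ∃ f : ZMod p → ℚ, f = fun j => C.m β j - if j = 0 then ρ else 0 := ⟨_, rfl⟩
  have htr : ∀ k : ZMod p, (C.hat ψ (C.A β) k).trace - (((ρ : ℚ) : ℝ) : ℂ)
      = ∑ j : ZMod p, ((f j : ℚ) : ℂ) * ψ (k * j) := by
    intro k
    rw [C.hat_trace, hf]
    have h1 : ∀ j : ZMod p, (((C.m β j - if j = 0 then ρ else 0 : ℚ)) : ℂ) * ψ (k * j)
        = ((C.A β (C.a 0) (C.φ (j, 0)) + C.A β (C.a 1) (C.φ (j, 1)) : ℚ) : ℂ) * ψ (k * j)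
          - (if j = 0 then ((ρ : ℚ) : ℂ) * ψ (k * j) else 0) := by
      intro j
      unfold m
      split_ifs <;> push_cast <;> ring
    simp_rw [h1]
    rw [Finset.sum_sub_distrib, Finset.sum_ite_eq' Finset.univ (0 : ZMod p)]
    simp
  have hf2 : ∑ j : ZMod p, ((f j : ℚ) : ℝ) ^ 2 = ∑ j : ZMod p, ((C.m β j : ℚ) : ℝ) ^ 2 + (ρ : ℝ) ^ 2 := by
    have h1 : ∀ j : ZMod p, ((f j : ℚ) : ℝ) ^ 2
        = ((C.m β j : ℚ) : ℝ) ^ 2 + (if j = 0 then (ρ : ℝ) ^ 2 else 0) := by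
      intro j
      rw [hf]
      by_cases hj : j = 0
      · subst hj
        simp [C.m_zero hβ]
      · simp [hj]
    simp_rw [h1]
    rw [Finset.sum_add_distrib, Finset.sum_ite_eq' Finset.univ (0 : ZMod p)]
    simp
  have hR : ∑ k : ZMod p, ∑ c, ∑ d, Complex.normSq (C.hat ψ (C.A β) k c d)
      = (p : ℝ) * (ρ : ℝ) ^ 2 + (p : ℝ) * (∑ j : ZMod p, ((C.m β j : ℚ) : ℝ) ^ 2 + (ρ : ℝ) ^ 2) := by
    have : ∀ k : ZMod p, ∑ c, ∑ d, Complex.normSq (C.hat ψ (C.A β) k c d)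
        = (ρ : ℝ) ^ 2 + Complex.normSq (∑ j : ZMod p, ((f j : ℚ) : ℂ) * ψ (k * j)) := by
      intro k
      rw [C.norm_k ψ hs heps β k, ← hρ, htr k]
    simp_rw [this]
    rw [Finset.sum_add_distrib, w2p_parseval ψ hψ f, hf2, Finset.sum_const, Finset.card_univ,
      ZMod.card, nsmul_eq_mul]
  rw [hL] at hR
  have hfin : 2 * ((C.n β : ℚ) : ℝ) = 2 * (ρ : ℝ) ^ 2 + ∑ j : ZMod p, ((C.m β j : ℚ) : ℝ) ^ 2 := by
    have := mul_left_cancel₀ hp0 (hR.trans (by ring :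
      (p : ℝ) * (ρ : ℝ) ^ 2 + (p : ℝ) * (∑ j : ZMod p, ((C.m β j : ℚ) : ℝ) ^ 2 + (ρ : ℝ) ^ 2)
        = (p : ℝ) * (2 * (ρ : ℝ) ^ 2 + ∑ j : ZMod p, ((C.m β j : ℚ) : ℝ) ^ 2)))
    exact this
  exact_mod_cast hfin

theorem m_le_one (heps : ∀ j : ZMod p, j ≠ 0 → C.eps j = 0) {β : α} (hβ : β ≠ C.a 0)
    (hρ : C.rho (C.A β) ≠ 0) (j : ZMod p) : (C.m β j) ^ 2 = C.m β j := by
  unfold m
  rcases C.A_zero_or_one β (C.a 0) (C.φ (j, 0)) with h0 | h0 <;>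
    rcases C.A_zero_or_one β (C.a 1) (C.φ (j, 1)) with h1 | h1
  · rw [h0, h1]; norm_num
  · rw [h0, h1]; norm_num
  · rw [h0, h1]; norm_num
  · exfalso
    have hj : j ≠ 0 := by
      rintro rfl
      rw [C.φ_zero, C.A_diag hβ] at h0
      norm_num at h0
    have e0 := C.E_of_A h0
    have e1 := C.E_of_A h1
    have := heps j hj
    unfold eps at this
    rw [e0, e1] at this
    have hE : C.E (C.a 0) β = 0 := by linarith
    apply hρ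
    rw [← C.E_mul_n, hE, zero_mul]

theorem n_of_rho_ne (hψ : ψ.IsPrimitive) (hs : C.s = 2)
    (heps : ∀ j : ZMod p, j ≠ 0 → C.eps j = 0) {β : α} (hβ : β ≠ C.a 0)
    (hρ : C.rho (C.A β) ≠ 0) : C.n β = 2 * (C.rho (C.A β)) ^ 2 + C.rho (C.A β) := by
  have h1 := C.diamond ψ hψ hs heps hβ
  rw [Finset.sum_congr rfl (fun j _ => C.m_le_one heps hβ hρ j), C.sum_m] at h1
  linarith

theorem rho_int (β : α) : ∃ z : ℤ, C.rho (C.A β) = z := by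
  unfold rho
  have : ∀ γ, ∃ z : ℤ, C.A β (C.a 0) γ * C.v γ = z := by
    intro γ
    rcases C.A_zero_or_one β (C.a 0) γ with h | h
    · exact ⟨0, by rw [h]; simp⟩
    · rw [h]; unfold v; split_ifs
      · exact ⟨1, by simp⟩
      · exact ⟨-1, by simp⟩
  choose z hz using this
  exact ⟨∑ γ, z γ, by push_cast; exact Finset.sum_congr rfl fun γ _ => hz γ⟩

end W2pCtx

end Cfsg.Agent.Helper12
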