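import Cfsg.Agent.Helper12.W2pCaseB

/-!
# Wielandt's theorem on primitive groups of degree `2p`: every suborbit has `ρ ≠ 0`.
-/

namespace Cfsg.Agent.Helper12

open Finset

namespace W2pCtx

variable {α : Type*} [Fintype α] [DecidableEq α] {p : ℕ} [hp : Fact p.Prime] (C : W2pCtx α p)
variable (ψ : AddChar (ZMod p) ℂ)

theorem rho_ne {ζ : ℂ} (hζ : IsPrimitiveRoot ζ p) (hψζ : ∀ j : ZMod p, ψ j = ζ ^ j.val)
    (hψ : ψ.IsPrimitive) (hs : C.s = 2) (heps : ∀ j : ZMod p, j ≠ 0 → C.eps j = 0)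
    (hn1 : ∀ β, β ≠ C.a 0 → C.n β ≠ 1) {β : α} (hβ : β ≠ C.a 0) : C.rho (C.A β) ≠ 0 := by
  intro hρ
  have h1 : (1 : ZMod p) ≠ 0 := one_ne_zero
  have hd := C.diamond ψ hψ hs heps hβ
  have hsm := C.sum_m β
  rw [hρ] at hd hsm
  have ha : ∀ j : ZMod p, C.A β (C.a 0) (C.φ (j, 0)) = C.A β (C.a 1) (C.φ (j, 1)) := by
    have hz : ∑ j : ZMod p, C.m β j * (2 - C.m β j) = 0 := by
      have : ∀ j : ZMod p, C.m β j * (2 - C.m β j) = 2 * C.m β j - (C.m β j) ^ 2 := fun j => by ring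
      simp_rw [this]
      rw [Finset.sum_sub_distrib, ← Finset.mul_sum, hsm]
      linarith
    have hnn : ∀ j ∈ (Finset.univ : Finset (ZMod p)), 0 ≤ C.m β j * (2 - C.m β j) := by
      intro j _
      unfold m
      rcases C.A_zero_or_one β (C.a 0) (C.φ (j, 0)) with h0 | h0 <;>
        rcases C.A_zero_or_one β (C.a 1) (C.φ (j, 1)) with h1 | h1 <;> rw [h0, h1] <;> norm_num
    intro j
    have := (Finset.sum_eq_zero_iff_of_nonneg hnn).mp hz j (Finset.mem_univ j)
    unfold m at this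
    rcases C.A_zero_or_one β (C.a 0) (C.φ (j, 0)) with h0 | h0 <;>
      rcases C.A_zero_or_one β (C.a 1) (C.φ (j, 1)) with h1' | h1' <;>
      rw [h0, h1'] at this ⊢ <;> norm_num at this
  obtain ⟨e, he⟩ : ∃ e, e = (2⁻¹ : ℂ) • C.hat ψ C.E 1 := ⟨_, rfl⟩
  obtain ⟨Ah, hAh⟩ : ∃ Ah, Ah = C.hat ψ (C.A β) 1 := ⟨_, rfl⟩
  have het : e.trace = 1 := by rw [he]; exact C.half_trace ψ heps 1
  have hAe : Ah * e = (0 : ℂ) • e := by
    rw [he, hAh, Matrix.mul_smul, C.hatA_mul_E, hρ]; simp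
  have heA : e * Ah = (0 : ℂ) • e := by
    rw [he, hAh, Matrix.smul_mul, C.hatE_mul_A, hρ]; simp
  have hdec := w2p_rank_one e Ah 0 het hAe heA
  obtain ⟨t, ht⟩ : ∃ t, t = Ah.trace := ⟨_, rfl⟩
  rw [← ht] at hdec
  have hdiag : Ah 0 0 = Ah 1 1 := by
    rw [hAh, hat_apply, hat_apply]
    exact Finset.sum_congr rfl fun j _ => by rw [ha j]
  have h00 : Ah 0 0 = t * (1 - e 0 0) := by
    have := congrFun (congrFun hdec 0) 0
    simpa using this
  have h11 : Ah 1 1 = t * (1 - e 1 1) := by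
    have := congrFun (congrFun hdec 1) 1
    simpa using this
  rw [Matrix.trace_fin_two] at het
  have hprod : t * (e 1 1 - e 0 0) = 0 := by linear_combination hdiag - h00 + h11
  rcases mul_eq_zero.mp hprod with ht0 | hee
  · have hA0 : Ah = 0 := by rw [hdec, ht0]; simp
    have e00 : ∑ j : ZMod p, ((C.A β (C.a 0) (C.φ (j, 0)) : ℚ) : ℂ) * ψ (1 * j) = ((0 : ℚ) : ℂ) := by
      have := congrFun (congrFun hA0 0) 0
      rw [hAh, hat_apply] at this
      rw [this]; simp
    obtain ⟨c, hc, hc0⟩ := w2p_indep_char hζ ψ hψζ (fun j => C.A β (C.a 0) (C.φ (j, 0))) 0 1 h1 e00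
    simp only [φ_zero, C.A_diag hβ] at hc0
    have hc' : c = 0 := by linarith
    have hS := (C.sum_split (C.A_Inv β) (C.n β) (C.A_row β) 0).1
    rw [hρ, sum_const_off hc, hc'] at hS
    simp only [φ_zero, C.A_diag hβ] at hS
    have := C.n_pos β
    linarith
  · have he00 : e 0 0 = 2⁻¹ := by
      linear_combination (1 / 2 : ℂ) * het - (1 / 2 : ℂ) * hee
    have hE00 : C.hat ψ C.E 1 0 0 = 1 := by
      have h2 : e 0 0 = 2⁻¹ * C.hat ψ C.E 1 0 0 := by rw [he]; simp
      rw [h2] at he00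
      have h3 : (2⁻¹ : ℂ) ≠ 0 := by norm_num
      have : (2⁻¹ : ℂ) * C.hat ψ C.E 1 0 0 = 2⁻¹ * 1 := by rw [he00]; ring
      exact mul_left_cancel₀ h3 this
    have e00 : ∑ j : ZMod p, ((C.E (C.a 0) (C.φ (j, 0)) : ℚ) : ℂ) * ψ (1 * j) = ((1 : ℚ) : ℂ) := by
      rw [← hat_apply, hE00]; simp
    obtain ⟨c', hc', hc'0⟩ :=
      w2p_indep_char hζ ψ hψζ (fun j => C.E (C.a 0) (C.φ (j, 0))) 1 1 h1 e00
    simp only [φ_zero, E_self] at hc'0
    have hc'z : c' = 0 := by linarith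
    have hE0 : ∀ j : ZMod p, j ≠ 0 → C.E (C.a 0) (C.φ (j, 0)) = 0 := fun j hj => by
      rw [hc' j hj, hc'z]
    have hE1 : ∀ j : ZMod p, j ≠ 0 → C.E (C.a 1) (C.φ (j, 1)) = 0 := fun j hj => by
      have := heps j hj
      unfold eps at this
      rw [hE0 j hj] at this
      linarith
    have hall : ∀ γ, γ ≠ C.a 0 → C.E (C.a 0) γ = 0 := by
      intro γ hγ
      by_contra hne
      have hnpos := C.n_pos γ
      have hρ' : C.rho (C.A γ) ≠ 0 := by
        rw [← C.E_mul_n]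
        exact mul_ne_zero hne (by linarith)
      have hn := C.n_of_rho_ne ψ hψ hs heps hγ hρ'
      have hm0 : ∀ l : ZMod p, C.m γ l = 0 := by
        intro l
        unfold m
        have hA0 : C.A γ (C.a 0) (C.φ (l, 0)) = 0 := by
          rcases C.A_zero_or_one γ (C.a 0) (C.φ (l, 0)) with h | h
          · exact h
          · exfalso
            have hl : l ≠ 0 := by
              rintro rfl
              rw [C.φ_zero, C.A_diag hγ] at h
              norm_num at h
            exact hne ((C.E_of_A h).symm.trans (hE0 l hl))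
        have hA1 : C.A γ (C.a 1) (C.φ (l, 1)) = 0 := by
          rcases C.A_zero_or_one γ (C.a 1) (C.φ (l, 1)) with h | h
          · exact h
          · exfalso
            have hl : l ≠ 0 := by
              rintro rfl
              rw [C.φ_zero, C.A_diag hγ] at h
              norm_num at h
            exact hne ((C.E_of_A h).symm.trans (hE1 l hl))
        rw [hA0, hA1]; norm_num
      have hsm' := C.sum_m γ
      rw [Finset.sum_congr rfl (fun l _ => hm0 l)] at hsm'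
      simp only [Finset.sum_const_zero] at hsm'
      have hρn : C.rho (C.A γ) = - C.n γ := by linarith
      rw [hρn] at hn
      have : C.n γ = 1 := by
        have h2 : C.n γ * (C.n γ - 1) = 0 := by nlinarith
        rcases mul_eq_zero.mp h2 with h | h
        · linarith
        · linarith
      exact hn1 γ hγ this
    have hs1 : C.s = 1 := by
      rw [C.s_eq, Finset.sum_eq_single (C.a 0)]
      · rw [C.E_self]; norm_num
      · intro γ _ hγ; rw [hall γ hγ]; norm_num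
      · intro h; exact absurd (Finset.mem_univ _) h
    rw [hs1] at hs
    norm_num at hs

/-- The main conclusion in the case `s = 2`: every nontrivial suborbit has size `r (2r + 1)`
for a nonzero integer `r`, and `E` takes the value `1 / (2r + 1)` on it. -/
theorem main_B {ζ : ℂ} (hζ : IsPrimitiveRoot ζ p) (hψζ : ∀ j : ZMod p, ψ j = ζ ^ j.val)
    (hψ : ψ.IsPrimitive) (hs : C.s = 2) (heps : ∀ j : ZMod p, j ≠ 0 → C.eps j = 0)
    (hn1 : ∀ β, β ≠ C.a 0 → C.n β ≠ 1) {β : α} (hβ : β ≠ C.a 0) :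
    ∃ r : ℤ, r ≠ 0 ∧ C.n β = r * (2 * r + 1) ∧ C.E (C.a 0) β * (2 * r + 1) = 1 := by
  have hρ := C.rho_ne ψ hζ hψζ hψ hs heps hn1 hβ
  obtain ⟨r, hr⟩ := C.rho_int β
  have hn := C.n_of_rho_ne ψ hψ hs heps hβ hρ
  rw [hr] at hρ hn
  have hr0 : r ≠ 0 := by
    rintro rfl
    simp at hρ
  refine ⟨r, hr0, by rw [hn]; ring, ?_⟩
  have hE := C.E_mul_n β
  rw [hr, hn] at hE
  have hr0' : (r : ℚ) ≠ 0 := by exact_mod_cast hr0
  have : (C.E (C.a 0) β * (2 * r + 1) - 1) * r = 0 := by linear_combination hE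
  rcases mul_eq_zero.mp this with h | h
  · linarith
  · exact absurd h hr0'

end W2pCtx

end Cfsg.Agent.Helper12
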