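import Cfsg.Agent.Helper12.W2pCaseB2

/-!
# Wielandt's theorem on primitive groups of degree `2p`: the final count of suborbits.
-/

namespace Cfsg.Agent.Helper12

open Finset

namespace W2pCtx

variable {α : Type*} [Fintype α] [DecidableEq α] {p : ℕ} [hp : Fact p.Prime] (C : W2pCtx α p)

theorem A_orbit {β δ : α} (h : C.A β (C.a 0) δ = 1) (γ : α) :
    C.A δ (C.a 0) γ = C.A β (C.a 0) γ := by
  obtain ⟨g, hg, hg0, rfl⟩ := C.A_eq_one.mp h
  have hg0' : g⁻¹ (C.a 0) = C.a 0 := by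
    rw [Equiv.Perm.inv_eq_iff_eq]; exact hg0.symm
  by_cases h1 : C.A β (C.a 0) γ = 1
  · rw [h1]
    obtain ⟨g', hg', h0', rfl⟩ := C.A_eq_one.mp h1
    refine C.A_eq_one.mpr ⟨g' * g⁻¹, C.G.mul_mem hg' (C.G.inv_mem hg), ?_, ?_⟩
    · rw [Equiv.Perm.mul_apply, hg0', h0']
    · rw [Equiv.Perm.mul_apply]; simp
  · have h0 : C.A β (C.a 0) γ = 0 := (C.A_zero_or_one _ _ _).resolve_right h1
    rw [h0]
    refine (C.A_zero_or_one _ _ _).resolve_right fun h2 => h1 ?_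
    obtain ⟨g'', hg'', h0'', rfl⟩ := C.A_eq_one.mp h2
    exact C.A_eq_one.mpr ⟨g'' * g, C.G.mul_mem hg'' hg, by rw [Equiv.Perm.mul_apply, hg0, h0''],
      by rw [Equiv.Perm.mul_apply]⟩

theorem orbit_sum_sq (β : α) :
    ∑ δ, C.A β (C.a 0) δ * C.E (C.a 0) δ ^ 2 = C.n β * C.E (C.a 0) β ^ 2 := by
  unfold n
  rw [Finset.sum_mul]
  refine Finset.sum_congr rfl fun δ _ => ?_
  rcases C.A_zero_or_one β (C.a 0) δ with h | h
  · rw [h]; ring
  · rw [C.E_of_A h]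

theorem efacts (hn1 : ∀ β, β ≠ C.a 0 → C.n β ≠ 1)
    (H : ∀ β, β ≠ C.a 0 → ∃ r : ℤ, r ≠ 0 ∧ C.n β = r * (2 * r + 1) ∧
      C.E (C.a 0) β * (2 * r + 1) = 1) {β : α} (hβ : β ≠ C.a 0) :
    -(1 / 3 : ℚ) ≤ C.E (C.a 0) β ∧ C.E (C.a 0) β ≤ 1 / 3 ∧ C.E (C.a 0) β ≠ 0 ∧
      C.n β * C.E (C.a 0) β ^ 2 = (1 - C.E (C.a 0) β) / 2 := by
  obtain ⟨r, hr0, hn, he⟩ := H β hβ
  have hr1 : r ≠ -1 := by
    rintro rfl
    apply hn1 β hβ
    rw [hn]; norm_num
  obtain ⟨e, hedef⟩ : ∃ e : ℚ, e = C.E (C.a 0) β := ⟨_, rfl⟩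
  rw [← hedef] at he ⊢
  have hne : e ≠ 0 := by
    rintro rfl
    simp at he
  have h4 : C.n β * e ^ 2 = (1 - e) / 2 := by
    rw [hn]
    linear_combination ((r : ℚ) * e + 1 / 2) * he
  refine ⟨?_, ?_, hne, h4⟩
  · rcases lt_or_gt_of_ne hr0 with hneg | hpos
    · have hr2 : r ≤ -2 := by omega
      have hr2' : (r : ℚ) ≤ -2 := by exact_mod_cast hr2
      have hd : (2 * (r : ℚ) + 1) ≤ -3 := by linarith
      by_contra hlt
      push Not at hlt
      nlinarith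
    · have hr2 : (1 : ℤ) ≤ r := by omega
      have hr2' : (1 : ℚ) ≤ r := by exact_mod_cast hr2
      have hd : (3 : ℚ) ≤ 2 * (r : ℚ) + 1 := by linarith
      by_contra hlt
      push Not at hlt
      nlinarith
  · rcases lt_or_gt_of_ne hr0 with hneg | hpos
    · have hr2 : r ≤ -2 := by omega
      have hr2' : (r : ℚ) ≤ -2 := by exact_mod_cast hr2
      have hd : (2 * (r : ℚ) + 1) ≤ -3 := by linarith
      by_contra hlt
      push Not at hlt
      nlinarith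
    · have hr2 : (1 : ℤ) ≤ r := by omega
      have hr2' : (1 : ℚ) ≤ r := by exact_mod_cast hr2
      have hd : (3 : ℚ) ≤ 2 * (r : ℚ) + 1 := by linarith
      by_contra hlt
      push Not at hlt
      nlinarith

theorem count_main (hs : C.s = 2) (hn1 : ∀ β, β ≠ C.a 0 → C.n β ≠ 1)
    (H : ∀ β, β ≠ C.a 0 → ∃ r : ℤ, r ≠ 0 ∧ C.n β = r * (2 * r + 1) ∧
      C.E (C.a 0) β * (2 * r + 1) = 1) :
    ∃ (a : ℕ) (βp βm : α), 0 < a ∧ p = 2 * a ^ 2 + 2 * a + 1 ∧ βp ≠ C.a 0 ∧ βm ≠ C.a 0 ∧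
      C.n βp = a * (2 * a + 1) ∧ C.n βm = (a + 1) * (2 * a + 1) ∧ C.A βp (C.a 0) βm = 0 ∧
      ∀ γ, γ ≠ C.a 0 → C.A βp (C.a 0) γ = 1 ∨ C.A βm (C.a 0) γ = 1 := by
  have hS : ∑ δ, C.E (C.a 0) δ ^ 2 = 2 := by rw [← C.s_eq, hs]
  have hR : ∑ δ, C.E (C.a 0) δ = 0 := C.E_row _
  have hF := fun β hβ => C.efacts hn1 H (β := β) hβ
  -- a point with negative value
  obtain ⟨βm, hβm, hem⟩ : ∃ βm, βm ≠ C.a 0 ∧ C.E (C.a 0) βm < 0 := by
    by_contra hcon
    push Not at hcon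
    have h1 : C.E (C.a 0) (C.a 0) ≤ ∑ δ, C.E (C.a 0) δ :=
      Finset.single_le_sum (f := fun δ => C.E (C.a 0) δ) (fun δ _ => by
        by_cases hδ : δ = C.a 0
        · rw [hδ, C.E_self]; norm_num
        · exact hcon δ hδ) (Finset.mem_univ _)
    rw [C.E_self, hR] at h1
    norm_num at h1
  -- a point with positive value
  obtain ⟨βp, hβp, hep⟩ : ∃ βp, βp ≠ C.a 0 ∧ 0 < C.E (C.a 0) βp := by
    by_contra hcon
    push Not at hcon
    have hT : ∑ δ, (C.E (C.a 0) δ ^ 2 + C.E (C.a 0) δ) = 2 := by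
      rw [Finset.sum_add_distrib, hS, hR]; norm_num
    rw [← Finset.add_sum_erase Finset.univ _ (Finset.mem_univ (C.a 0)), C.E_self] at hT
    have hmem : βm ∈ Finset.univ.erase (C.a 0) := Finset.mem_erase.mpr ⟨hβm, Finset.mem_univ _⟩
    rw [← Finset.add_sum_erase _ _ hmem] at hT
    have hrest : ∑ δ ∈ (Finset.univ.erase (C.a 0)).erase βm,
        (C.E (C.a 0) δ ^ 2 + C.E (C.a 0) δ) ≤ 0 := by
      apply Finset.sum_nonpos
      intro δ hδ
      have hδ0 : δ ≠ C.a 0 := (Finset.mem_erase.mp (Finset.mem_erase.mp hδ).2).1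
      have h1 := hcon δ hδ0
      have h2 := (hF δ hδ0).1
      nlinarith
    have h3 := (hF βm hβm).1
    have h4 : C.E (C.a 0) βm * (C.E (C.a 0) βm + 1) < 0 :=
      mul_neg_of_neg_of_pos hem (by linarith)
    nlinarith
  have hpm : C.A βp (C.a 0) βm = 0 := by
    rcases C.A_zero_or_one βp (C.a 0) βm with h | h
    · exact h
    · have := C.E_of_A h
      linarith
  have hdis : ∀ β₁ β₂ δ : α, C.A β₁ (C.a 0) β₂ = 0 → C.A β₁ (C.a 0) δ = 1 →
      C.A β₂ (C.a 0) δ = 1 → False := by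
    intro β₁ β₂ δ h0 h1 h2
    have e1 := C.A_orbit h1 β₂
    have e2 := C.A_orbit h2 β₂
    rw [C.A_self] at e2
    rw [e2, h0] at e1
    norm_num at e1
  have hcover : ∀ γ, γ ≠ C.a 0 → C.A βp (C.a 0) γ = 1 ∨ C.A βm (C.a 0) γ = 1 := by
    intro γ hγ
    by_contra hcon
    push Not at hcon
    have hg1 : C.A βp (C.a 0) γ = 0 := (C.A_zero_or_one _ _ _).resolve_right hcon.1
    have hg2 : C.A βm (C.a 0) γ = 0 := (C.A_zero_or_one _ _ _).resolve_right hcon.2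
    have hpt : ∀ δ, (if δ = C.a 0 then (1 : ℚ) else 0) +
        (C.A βp (C.a 0) δ + C.A βm (C.a 0) δ + C.A γ (C.a 0) δ) * C.E (C.a 0) δ ^ 2
          ≤ C.E (C.a 0) δ ^ 2 := by
      intro δ
      by_cases hδ : δ = C.a 0
      · subst hδ
        rw [C.A_diag hβp, C.A_diag hβm, C.A_diag hγ, C.E_self]
        norm_num
      · rw [if_neg hδ]
        have hsq := sq_nonneg (C.E (C.a 0) δ)
        rcases C.A_zero_or_one βp (C.a 0) δ with h1 | h1 <;>
          rcases C.A_zero_or_one βm (C.a 0) δ with h2 | h2 <;>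
          rcases C.A_zero_or_one γ (C.a 0) δ with h3 | h3
        · rw [h1, h2, h3]; linarith
        · rw [h1, h2, h3]; linarith
        · rw [h1, h2, h3]; linarith
        · exact (hdis βm γ δ hg2 h2 h3).elim
        · rw [h1, h2, h3]; linarith
        · exact (hdis βp γ δ hg1 h1 h3).elim
        · exact (hdis βp βm δ hpm h1 h2).elim
        · exact (hdis βp βm δ hpm h1 h2).elim
    have hsum := Finset.sum_le_sum (fun δ (_ : δ ∈ Finset.univ) => hpt δ)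
    rw [hS, Finset.sum_add_distrib, Finset.sum_ite_eq' Finset.univ (C.a 0)] at hsum
    simp only [Finset.mem_univ, if_true, add_mul] at hsum
    rw [Finset.sum_add_distrib, Finset.sum_add_distrib, C.orbit_sum_sq, C.orbit_sum_sq,
      C.orbit_sum_sq, (hF βp hβp).2.2.2, (hF βm hβm).2.2.2, (hF γ hγ).2.2.2] at hsum
    have h1 := (hF βp hβp).2.1
    have h2 := (hF γ hγ).2.1
    linarith
  have hex : ∀ δ, δ ≠ C.a 0 → C.A βp (C.a 0) δ + C.A βm (C.a 0) δ = 1 := by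
    intro δ hδ
    rcases C.A_zero_or_one βp (C.a 0) δ with h1 | h1 <;>
      rcases C.A_zero_or_one βm (C.a 0) δ with h2 | h2
    · rcases hcover δ hδ with h | h
      · rw [h1] at h; norm_num at h
      · rw [h2] at h; norm_num at h
    · rw [h1, h2]; norm_num
    · rw [h1, h2]; norm_num
    · exact (hdis βp βm δ hpm h1 h2).elim
  have hpt2 : ∀ δ, C.E (C.a 0) δ ^ 2 = (if δ = C.a 0 then (1 : ℚ) else 0) +
      (C.A βp (C.a 0) δ + C.A βm (C.a 0) δ) * C.E (C.a 0) δ ^ 2 := by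
    intro δ
    by_cases hδ : δ = C.a 0
    · subst hδ
      rw [C.A_diag hβp, C.A_diag hβm, C.E_self]
      norm_num
    · rw [if_neg hδ, hex δ hδ]; ring
  have hpt3 : ∀ δ, (1 : ℚ) = (if δ = C.a 0 then (1 : ℚ) else 0) +
      (C.A βp (C.a 0) δ + C.A βm (C.a 0) δ) := by
    intro δ
    by_cases hδ : δ = C.a 0
    · subst hδ
      rw [C.A_diag hβp, C.A_diag hβm]
      norm_num
    · rw [if_neg hδ, hex δ hδ]; ring
  have hsumE : C.E (C.a 0) βp + C.E (C.a 0) βm = 0 := by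
    have h1 := hS
    rw [Finset.sum_congr rfl (fun δ _ => hpt2 δ), Finset.sum_add_distrib,
      Finset.sum_ite_eq' Finset.univ (C.a 0)] at h1
    simp only [Finset.mem_univ, if_true, add_mul] at h1
    rw [Finset.sum_add_distrib, C.orbit_sum_sq, C.orbit_sum_sq, (hF βp hβp).2.2.2,
      (hF βm hβm).2.2.2] at h1
    linarith
  have hcard : (Fintype.card α : ℚ) = 1 + C.n βp + C.n βm := by
    have h1 : ∑ δ : α, (1 : ℚ) = (Fintype.card α : ℚ) := by simp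
    rw [← h1, Finset.sum_congr rfl (fun δ _ => hpt3 δ), Finset.sum_add_distrib,
      Finset.sum_ite_eq' Finset.univ (C.a 0), Finset.sum_add_distrib]
    simp only [Finset.mem_univ, if_true]
    unfold n
    ring
  obtain ⟨rp, hrp0, hnp, hep'⟩ := H βp hβp
  obtain ⟨rm, hrm0, hnm, hem'⟩ := H βm hβm
  have hem2 : C.E (C.a 0) βm = - C.E (C.a 0) βp := by linarith
  rw [hem2] at hem'
  have hrel : (rp : ℚ) + rm + 1 = 0 := by
    have h1 : C.E (C.a 0) βp * (2 * ((rp : ℚ) + rm + 1)) = 0 := by linear_combination hep' - hem'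
    rcases mul_eq_zero.mp h1 with h | h
    · exact absurd h hep.ne'
    · linarith
  have hrel' : rm = -rp - 1 := by
    have : (rp : ℤ) + rm + 1 = 0 := by exact_mod_cast hrel
    linarith
  have hrp_pos : 0 < rp := by
    have h1 : (0 : ℚ) < 2 * (rp : ℚ) + 1 := by
      by_contra hle
      push Not at hle
      nlinarith
    have h2 : (0 : ℤ) < 2 * rp + 1 := by exact_mod_cast h1
    omega
  obtain ⟨a, ha⟩ : ∃ a : ℕ, (a : ℤ) = rp := ⟨rp.toNat, Int.toNat_of_nonneg hrp_pos.le⟩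
  have hrpa : (rp : ℚ) = (a : ℚ) := by rw [← ha]; simp
  have hrma : (rm : ℚ) = -(a : ℚ) - 1 := by rw [hrel', ← ha]; push_cast; ring
  refine ⟨a, βp, βm, by omega, ?_, hβp, hβm, ?_, ?_, hpm, hcover⟩
  · have h1 : ((2 * p : ℕ) : ℚ) = 1 + C.n βp + C.n βm := by rw [← C.card_eq]; exact hcard
    rw [hnp, hnm, hrpa, hrma] at h1
    have h2 : (p : ℚ) = 2 * (a : ℚ) ^ 2 + 2 * a + 1 := by
      push_cast at h1
      linarith
    exact_mod_cast h2
  · rw [hnp, hrpa]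
  · rw [hnm, hrma]; ring

end W2pCtx

end Cfsg.Agent.Helper12
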