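import Mathlib

/-!
# Wielandt's theorem on primitive groups of degree `2p`: Fourier lemmas on `ZMod p`
and lemmas on `2 × 2` complex matrices.
-/

namespace Cfsg.Agent.Helper12

open Finset Polynomial

/-- Parseval on `ZMod p` for rational sequences. -/
theorem w2p_parseval {p : ℕ} [NeZero p] (ψ : AddChar (ZMod p) ℂ) (hψ : ψ.IsPrimitive)
    (f : ZMod p → ℚ) :
    ∑ k : ZMod p, Complex.normSq (∑ j : ZMod p, (f j : ℂ) * ψ (k * j))
      = (p : ℝ) * ∑ j : ZMod p, ((f j : ℚ) : ℝ) ^ 2 := by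
  apply Complex.ofReal_injective
  push_cast
  have h1 : ∀ k : ZMod p,
      ((Complex.normSq (∑ j : ZMod p, (f j : ℂ) * ψ (k * j)) : ℝ) : ℂ)
        = ∑ j : ZMod p, ∑ j' : ZMod p, (f j : ℂ) * (f j' : ℂ) * ψ ((j - j') * k) := by
    intro k
    rw [← Complex.mul_conj, map_sum, Finset.sum_mul_sum]
    refine Finset.sum_congr rfl fun j _ => Finset.sum_congr rfl fun j' _ => ?_
    have hc : (starRingEnd ℂ) ((f j' : ℂ) * ψ (k * j')) = (f j' : ℂ) * ψ (-(k * j')) := by
      rw [(starRingEnd ℂ).map_mul, map_ratCast, ← AddChar.map_neg_eq_conj]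
    have : (j - j') * k = k * j + -(k * j') := by ring
    rw [hc, this, AddChar.map_add_eq_mul]
    ring
  simp_rw [h1]
  rw [Finset.sum_comm]
  have h2 : ∀ j : ZMod p, ∑ k : ZMod p, ∑ j' : ZMod p, (f j : ℂ) * (f j' : ℂ) * ψ ((j - j') * k)
      = (p : ℂ) * (f j : ℂ) ^ 2 := by
    intro j
    rw [Finset.sum_comm]
    have h3 : ∀ j' : ZMod p, ∑ k : ZMod p, (f j : ℂ) * (f j' : ℂ) * ψ ((j - j') * k)
        = if j' = j then (p : ℂ) * (f j : ℂ) ^ 2 else 0 := by
      intro j'
      rw [← Finset.mul_sum]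
      have h4 : ∑ k : ZMod p, ψ ((j - j') * k) = if j - j' = 0 then (Fintype.card (ZMod p) : ℂ) else 0 := by
        have := AddChar.sum_mulShift (ψ := ψ) (j - j') hψ
        simp_rw [mul_comm _ (j - j')] at this
        exact_mod_cast this
      rw [h4]
      by_cases hj : j' = j
      · subst hj
        simp [ZMod.card]
        ring
      · have : j - j' ≠ 0 := fun h => hj (sub_eq_zero.mp h).symm
        simp [hj, this]
    simp_rw [h3]
    simp
  simp_rw [h2]
  rw [← Finset.mul_sum]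

/-- Rational independence of the powers of a primitive `p`-th root of unity. -/
theorem w2p_indep {p : ℕ} [hp : Fact p.Prime] {ζ : ℂ} (hζ : IsPrimitiveRoot ζ p) (h : ℕ → ℚ)
    (q : ℚ) (hs : ∑ i ∈ range p, (h i : ℂ) * ζ ^ i = q) :
    (∀ i, 1 ≤ i → i < p → h i = h (p - 1)) ∧ h 0 - h (p - 1) = q := by
  have hp2 : 2 ≤ p := hp.out.two_le
  obtain ⟨m, rfl⟩ : ∃ m, p = m + 1 := ⟨p - 1, by omega⟩
  simp only [Nat.add_sub_cancel]
  set P : ℚ[X] := ∑ i ∈ range m, C (h i - h m) * X ^ i - C q with hP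
  have hgeom : ∑ i ∈ range (m + 1), ζ ^ i = 0 := hζ.geom_sum_eq_zero (by omega)
  have hev : aeval ζ P = 0 := by
    rw [hP]
    simp only [map_sub, map_sum, map_mul, aeval_C, map_pow, aeval_X]
    rw [Finset.sum_range_succ] at hs hgeom
    have e1 : ∑ i ∈ range m, (algebraMap ℚ ℂ (h i) - algebraMap ℚ ℂ (h m)) * ζ ^ i
        = ∑ i ∈ range m, (h i : ℂ) * ζ ^ i - (h m : ℂ) * ∑ i ∈ range m, ζ ^ i := by
      rw [Finset.mul_sum, ← Finset.sum_sub_distrib]
      refine Finset.sum_congr rfl fun i _ => ?_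
      simp only [eq_ratCast]
      ring
    rw [e1]
    simp only [eq_ratCast]
    linear_combination hs - (h m : ℂ) * hgeom
  have hP0 : P = 0 := by
    by_contra hne
    have hdeg := minpoly.degree_le_of_ne_zero ℚ ζ hne hev
    rw [← cyclotomic_eq_minpoly_rat hζ (by omega), degree_cyclotomic, Nat.totient_prime hp.out] at hdeg
    have hdeg2 : P.degree < (m : WithBot ℕ) := by
      rw [hP]
      refine lt_of_le_of_lt (degree_sub_le _ _) (max_lt ?_ ?_)
      · refine lt_of_le_of_lt (degree_sum_le _ _) ?_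
        rw [Finset.sup_lt_iff (by exact WithBot.bot_lt_coe m)]
        intro i hi
        refine lt_of_le_of_lt (degree_C_mul_X_pow_le i _) ?_
        exact_mod_cast Finset.mem_range.mp hi
      · refine lt_of_le_of_lt degree_C_le ?_
        have : 0 < m := by omega
        exact_mod_cast this
    simp only [Nat.add_sub_cancel] at hdeg
    exact absurd (lt_of_le_of_lt hdeg hdeg2) (lt_irrefl _)
  have hcoeff : ∀ i, P.coeff i = (if i < m then h i - h m else 0) - (if i = 0 then q else 0) := by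
    intro i
    rw [hP, coeff_sub, finsetSum_coeff, coeff_C]
    congr 1
    · simp only [coeff_C_mul_X_pow]
      by_cases hi : i < m
      · rw [Finset.sum_eq_single i]
        · simp [hi]
        · intro b _ hb; simp [Ne.symm hb]
        · intro hni; exact absurd (Finset.mem_range.mpr hi) hni
      · rw [if_neg hi]
        refine Finset.sum_eq_zero fun b hb => ?_
        have : b < m := Finset.mem_range.mp hb
        have : i ≠ b := by omega
        simp [this]
  constructor
  · intro i hi1 hi2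
    by_cases hi : i = m
    · rw [hi]
    · have := hcoeff i
      rw [hP0, coeff_zero, if_pos (by omega), if_neg (by omega)] at this
      linarith
  · have := hcoeff 0
    rw [hP0, coeff_zero, if_pos (by omega), if_pos rfl] at this
    linarith

/-- Version of `w2p_indep` with sums over `ZMod p` and an additive character. -/
theorem w2p_indep_zmod {p : ℕ} [hp : Fact p.Prime] {ζ : ℂ} (hζ : IsPrimitiveRoot ζ p)
    (f : ZMod p → ℚ) (q : ℚ)
    (hs : ∑ j : ZMod p, (f j : ℂ) * ζ ^ j.val = q) :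
    (∀ j : ZMod p, j ≠ 0 → f j = f (-1)) ∧ f 0 - f (-1) = q := by
  have hp2 : 2 ≤ p := hp.out.two_le
  have key := w2p_indep hζ (fun i => f (i : ZMod p)) q (by
    rw [← hs]
    have : ∑ j : ZMod p, (f j : ℂ) * ζ ^ j.val
        = ∑ i ∈ range p, (f ((i : ℕ) : ZMod p) : ℂ) * ζ ^ i := by
      symm
      refine Finset.sum_bij (fun i _ => ((i : ℕ) : ZMod p)) (fun _ _ => Finset.mem_univ _) ?_ ?_ ?_
      · intro i hi i' hi' hii
        have h1 := congrArg ZMod.val hii
        rwa [ZMod.val_natCast, ZMod.val_natCast, Nat.mod_eq_of_lt (Finset.mem_range.mp hi),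
          Nat.mod_eq_of_lt (Finset.mem_range.mp hi')] at h1
      · intro j _
        exact ⟨j.val, Finset.mem_range.mpr (ZMod.val_lt j), ZMod.natCast_zmod_val j⟩
      · intro i hi
        rw [ZMod.val_natCast, Nat.mod_eq_of_lt (Finset.mem_range.mp hi)]
    rw [this])
  have hm1 : (((p - 1 : ℕ) : ℕ) : ZMod p) = -1 := by
    rw [Nat.cast_sub (by omega)]
    simp
  simp only [hm1, Nat.cast_zero] at key
  refine ⟨fun j hj => ?_, key.2⟩
  have := key.1 j.val (by
    have : j.val ≠ 0 := fun h => hj ((ZMod.val_eq_zero j).mp h)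
    omega) (ZMod.val_lt j)
  rwa [ZMod.natCast_zmod_val] at this

/-- Version of `w2p_indep` for an additive character twisted by `k ≠ 0`. -/
theorem w2p_indep_char {p : ℕ} [hp : Fact p.Prime] {ζ : ℂ} (hζ : IsPrimitiveRoot ζ p)
    (ψ : AddChar (ZMod p) ℂ) (hψζ : ∀ j : ZMod p, ψ j = ζ ^ j.val)
    (f : ZMod p → ℚ) (q : ℚ) (k : ZMod p) (hk : k ≠ 0)
    (hs : ∑ j : ZMod p, (f j : ℂ) * ψ (k * j) = q) :
    ∃ c : ℚ, (∀ j : ZMod p, j ≠ 0 → f j = c) ∧ f 0 - c = q := by
  have key := w2p_indep_zmod hζ (fun j => f (k⁻¹ * j)) q (by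
    rw [← hs]
    have := Equiv.sum_comp (Equiv.mulLeft₀ k hk) (fun j => (f (k⁻¹ * j) : ℂ) * ψ j)
    simp only [Equiv.mulLeft₀_apply, inv_mul_cancel_left₀ hk] at this
    rw [this]
    exact Finset.sum_congr rfl fun j _ => by rw [hψζ])
  refine ⟨f (k⁻¹ * -1), fun j hj => ?_, ?_⟩
  · have := key.1 (k * j) (mul_ne_zero hk hj)
    simpa [inv_mul_cancel_left₀ hk] using this
  · have := key.2
    simpa using this

/-- The three kinds of idempotent `2 × 2` matrices. -/
theorem w2p_idem_cases (e : Matrix (Fin 2) (Fin 2) ℂ) (he : e * e = e) :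
    e = 0 ∨ e.trace = 1 ∨ e = 1 := by
  have hCH : e * e = e.trace • e - e.det • (1 : Matrix (Fin 2) (Fin 2) ℂ) := by
    ext i j
    fin_cases i <;> fin_cases j <;>
      simp [Matrix.mul_apply, Fin.sum_univ_two, Matrix.trace_fin_two, Matrix.det_fin_two] <;> ring
  have hdet : e.det * e.det = e.det := by rw [← Matrix.det_mul, he]
  have hd : e.det = 0 ∨ e.det = 1 := by
    have : e.det * (e.det - 1) = 0 := by linear_combination hdet
    rcases mul_eq_zero.mp this with h | h
    · exact Or.inl h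
    · exact Or.inr (by linear_combination h)
  rcases hd with hd | hd
  · rw [he, hd, zero_smul, sub_zero] at hCH
    have h2 : (e.trace - 1) • e = 0 := by rw [sub_smul, one_smul, ← hCH, sub_self]
    rcases smul_eq_zero.mp h2 with h | h
    · exact Or.inr (Or.inl (by linear_combination h))
    · exact Or.inl h
  · right; right
    have hu : IsUnit e.det := by rw [hd]; exact isUnit_one
    calc e = e⁻¹ * (e * e) := by rw [← Matrix.mul_assoc, Matrix.nonsing_inv_mul e hu, Matrix.one_mul]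
      _ = e⁻¹ * e := by rw [he]
      _ = 1 := Matrix.nonsing_inv_mul e hu

/-- Decomposition of a matrix having a trace-one matrix `e` as two-sided eigen-matrix. -/
theorem w2p_rank_one (e A : Matrix (Fin 2) (Fin 2) ℂ) (ρ : ℂ) (ht : e.trace = 1)
    (h1 : A * e = ρ • e) (h2 : e * A = ρ • e) :
    A = ρ • e + (A.trace - ρ) • (1 - e) := by
  have a00 := congrFun (congrFun h1 0) 0
  have a01 := congrFun (congrFun h1 0) 1
  have a10 := congrFun (congrFun h1 1) 0
  have a11 := congrFun (congrFun h1 1) 1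
  have b00 := congrFun (congrFun h2 0) 0
  have b01 := congrFun (congrFun h2 0) 1
  have b10 := congrFun (congrFun h2 1) 0
  have b11 := congrFun (congrFun h2 1) 1
  simp only [Matrix.mul_apply, Fin.sum_univ_two, Matrix.smul_apply, smul_eq_mul] at a00 a01 a10 a11 b00 b01 b10 b11
  rw [Matrix.trace_fin_two] at ht
  ext i j
  fin_cases i <;> fin_cases j <;> simp [Matrix.trace_fin_two]
  · linear_combination a00 - b11 + (A 1 1 - ρ) * ht
  · linear_combination a01 + b01 - (A 0 1) * ht
  · linear_combination a10 + b10 - (A 1 0) * ht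
  · linear_combination a11 - b00 + (A 0 0 - ρ) * ht

/-- The Frobenius norm of a matrix decomposed along a hermitian trace-one idempotent. -/
theorem w2p_norm (e A : Matrix (Fin 2) (Fin 2) ℂ) (ρ : ℝ) (he : e * e = e) (ht : e.trace = 1)
    (hH : e.conjTranspose = e) (h1 : A * e = (ρ : ℂ) • e) (h2 : e * A = (ρ : ℂ) • e) :
    ∑ c, ∑ d, Complex.normSq (A c d) = ρ ^ 2 + Complex.normSq (A.trace - ρ) := by
  have hA := w2p_rank_one e A ρ ht h1 h2
  obtain ⟨θ, hθ⟩ : ∃ θ : ℂ, θ = A.trace - ρ := ⟨_, rfl⟩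
  rw [← hθ] at hA ⊢
  obtain ⟨q, hq⟩ : ∃ q : Matrix (Fin 2) (Fin 2) ℂ, q = 1 - e := ⟨_, rfl⟩
  rw [← hq] at hA
  have hqq : q * q = q := by rw [hq]; simp [Matrix.mul_sub, Matrix.sub_mul, he]
  have heq : e * q = 0 := by rw [hq]; simp [Matrix.mul_sub, he]
  have hqe : q * e = 0 := by rw [hq]; simp [Matrix.sub_mul, he]
  have hqH : q.conjTranspose = q := by rw [hq]; simp [Matrix.conjTranspose_sub, hH]
  have hAH : A.conjTranspose = (ρ : ℂ) • e + (starRingEnd ℂ θ) • q := by
    rw [hA]; simp [Matrix.conjTranspose_add, Matrix.conjTranspose_smul, hH, hqH]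
  have hprod : A * A.conjTranspose = ((ρ : ℂ) ^ 2) • e + (θ * starRingEnd ℂ θ) • q := by
    rw [hAH]; nth_rewrite 1 [hA]
    simp only [Matrix.add_mul, Matrix.mul_add, Matrix.smul_mul, Matrix.mul_smul, he, heq, hqe, hqq,
      smul_zero, add_zero, zero_add, smul_smul]
    congr 1
    · ring_nf
    · rw [mul_comm]
  have htq : q.trace = 1 := by
    rw [hq, Matrix.trace_sub, Matrix.trace_one, ht]; simp; norm_num
  apply Complex.ofReal_injective
  have hsum : ((∑ c, ∑ d, Complex.normSq (A c d) : ℝ) : ℂ) = (A * A.conjTranspose).trace := by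
    simp [Matrix.trace, Matrix.mul_apply, Complex.mul_conj]
  rw [hsum, hprod, Matrix.trace_add, Matrix.trace_smul, Matrix.trace_smul, ht, htq, Complex.mul_conj]
  push_cast
  simp

end Cfsg.Agent.Helper12
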