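import Cfsg.Agent.Helper12.W2pCount

/-!
# Wielandt's theorem on primitive groups of degree `2p`: the group-theoretic part.
-/

namespace Cfsg.Agent.Helper12

open Finset MulAction

section W2pGroup

variable {α : Type*} [Fintype α] [DecidableEq α] {p : ℕ}

/-- Cauchy: a transitive group of degree `2p` has an element of order `p`. -/
theorem w2p_exists_order (hp : p.Prime) (hα : Fintype.card α = 2 * p)
    (G : Subgroup (Equiv.Perm α)) [IsPretransitive G α] (a₀ : α) :
    ∃ x ∈ G, orderOf x = p := by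
  haveI : Fact p.Prime := ⟨hp⟩
  have h1 : (stabilizer G a₀).index = Nat.card α := MulAction.index_stabilizer_of_transitive G a₀
  have h2 : p ∣ Nat.card G := by
    have h3 : (stabilizer G a₀).index ∣ Nat.card G := Subgroup.index_dvd_card _
    rw [h1, Nat.card_eq_fintype_card, hα] at h3
    exact (Dvd.intro_left 2 rfl).trans h3
  obtain ⟨x, hx⟩ := exists_prime_orderOf_dvd_card' p h2
  exact ⟨x.1, x.2, by rw [← hx]; exact (Subgroup.orderOf_coe x)⟩

/-- If the element of order `p` has a fixed point, Jordan's theorem gives double transitivity. -/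
theorem w2p_fixed_two (hp : p.Prime) (hα : Fintype.card α = 2 * p)
    (G : Subgroup (Equiv.Perm α)) (hG : IsPreprimitive G α) {x : Equiv.Perm α} (hx : x ∈ G)
    (hxo : orderOf x = p) {ω : α} (hω : x ω = ω) : IsMultiplyPretransitive G α 2 := by
  have hpo : (orderOf x).Prime := by rw [hxo]; exact hp
  obtain ⟨n, hn⟩ := Equiv.Perm.cycleType_prime_order hpo
  have hsum := Equiv.Perm.sum_cycleType x
  rw [hn, Multiset.sum_replicate, hxo, smul_eq_mul] at hsum
  have hlt : x.support.card < Fintype.card α :=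
    Finset.card_lt_univ_of_notMem (x := ω) (by simp [hω])
  have hn0 : n = 0 := by
    rw [← hsum, hα] at hlt
    have : n + 1 < 2 := lt_of_mul_lt_mul_right hlt (Nat.zero_le _)
    omega
  subst hn0
  have hc : x.IsCycle := by
    rw [← Equiv.Perm.card_cycleType_eq_one, hn]; simp
  have hcard : x.support.card = p := by rw [← hsum]; simp
  have h2 : 2 ≤ p := hp.two_le
  have hsn : ((x.support : Set α)ᶜ).ncard = (p - 1) + 1 := by
    have := Set.ncard_add_ncard_compl (x.support : Set α)
    rw [Set.ncard_coe_finset, hcard, Nat.card_eq_fintype_card, hα] at this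
    omega
  have hsn' : (p - 1) + 2 < Nat.card α := by
    rw [Nat.card_eq_fintype_card, hα]; omega
  exact hG.is_two_pretransitive hsn hsn' (Equiv.Perm.isPretransitive_of_isCycle_mem hc hx)

/-- A fixed-point-free element of prime order is semiregular. -/
theorem w2p_semireg (hp : p.Prime) {x : Equiv.Perm α} (hxo : orderOf x = p)
    (hfix : ∀ ω, x ω ≠ ω) (n : ℕ) (ω : α) (h : (x ^ n) ω = ω) : p ∣ n := by
  by_contra hdvd
  have hcop : Nat.Coprime n (orderOf x) := by
    rw [hxo]; exact (Nat.Coprime.symm ((Nat.Prime.coprime_iff_not_dvd hp).mpr hdvd))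
  obtain ⟨m, hm⟩ := exists_pow_eq_self_of_coprime hcop
  have h2 : ((x ^ n) ^ m) ω = ω := by
    clear hm
    induction m with
    | zero => simp
    | succ k ih => rw [pow_succ, Equiv.Perm.mul_apply, h, ih]
  rw [hm] at h2
  exact hfix ω h2

/-- Building the context from a semiregular element of order `p`. -/
theorem w2p_ctx [Fact p.Prime] (hα : Fintype.card α = 2 * p)
    (G : Subgroup (Equiv.Perm α)) [IsPretransitive G α] {x : Equiv.Perm α} (hx : x ∈ G)
    (hxo : orderOf x = p) (hfix : ∀ ω, x ω ≠ ω) (a₀ : α) :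
    ∃ C : W2pCtx α p, C.G = G ∧ C.a 0 = a₀ := by
  have hp : p.Prime := Fact.out
  have hxp : x ^ p = 1 := by rw [← hxo]; exact pow_orderOf_eq_one x
  have hsr := w2p_semireg hp hxo hfix
  obtain ⟨q, hq⟩ : ∃ q, p = q + 1 := ⟨p - 1, by have := hp.pos; omega⟩
  have key : ∀ (m m' : ℕ) (ω ω' : α), (x ^ m) ω = (x ^ m') ω' → (x ^ (m' * q + m)) ω = ω' := by
    intro m m' ω ω' h
    rw [pow_add, Equiv.Perm.mul_apply, h, ← Equiv.Perm.mul_apply, ← pow_add]
    have : m' * q + m' = p * m' := by rw [hq]; ring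
    rw [this, pow_mul, hxp, one_pow, Equiv.Perm.one_apply]
  obtain ⟨b, hb⟩ : ∃ b, ∀ n : ℕ, (x ^ n) a₀ ≠ b := by
    by_contra hcon
    push Not at hcon
    have hsurj : Function.Surjective (fun j : ZMod p => (x ^ j.val) a₀) := by
      intro b
      obtain ⟨n, hn⟩ := hcon b
      refine ⟨(n : ZMod p), ?_⟩
      show (x ^ ((n : ZMod p).val)) a₀ = b
      rw [ZMod.val_natCast, ← pow_eq_pow_mod n hxp, hn]
    have := Fintype.card_le_of_surjective _ hsurj
    rw [hα, ZMod.card] at this
    have := hp.pos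
    omega
  have hinj : Function.Injective
      (fun jc : ZMod p × Fin 2 => (x ^ jc.1.val) (![a₀, b] jc.2)) := by
    rintro ⟨j, c⟩ ⟨j', c'⟩ h
    simp only at h
    have h1 := key _ _ _ _ h
    by_cases hc : c = c'
    · subst hc
      have h2 := hsr _ _ h1
      have h3 : ((j'.val * q + j.val : ℕ) : ZMod p) = 0 := (ZMod.natCast_eq_zero_iff _ _).mpr h2
      have hq' : (q : ZMod p) = -1 := by
        have : ((q + 1 : ℕ) : ZMod p) = 0 := by rw [← hq]; exact ZMod.natCast_self p
        push_cast at this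
        exact eq_neg_of_add_eq_zero_left this
      push_cast at h3
      rw [ZMod.natCast_zmod_val, ZMod.natCast_zmod_val, hq'] at h3
      have : j = j' := by linear_combination h3
      rw [this]
    · exfalso
      obtain rfl | rfl : c = 0 ∨ c = 1 := by fin_cases c <;> simp
      · obtain rfl : c' = 1 := by fin_cases c' <;> simp at hc ⊢
        exact hb _ h1
      · obtain rfl : c' = 0 := by fin_cases c' <;> simp at hc ⊢
        have h' := key _ _ _ _ h.symm
        exact hb _ h'
  have hbij : Function.Bijective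
      (fun jc : ZMod p × Fin 2 => (x ^ jc.1.val) (![a₀, b] jc.2)) := by
    rw [Fintype.bijective_iff_injective_and_card]
    refine ⟨hinj, ?_⟩
    rw [Fintype.card_prod, ZMod.card, Fintype.card_fin, hα, mul_comm]
  refine ⟨⟨G, x, ![a₀, b], hx, hxp, hbij, fun β γ => ?_⟩, rfl, rfl⟩
  obtain ⟨g, hg⟩ := MulAction.exists_smul_eq G β γ
  exact ⟨g.1, g.2, hg⟩

end W2pGroup

namespace W2pCtx

variable {α : Type*} [Fintype α] [DecidableEq α] {p : ℕ} [hp : Fact p.Prime] (C : W2pCtx α p)

theorem mem_orbit_iff (β δ : α) :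
    δ ∈ MulAction.orbit (MulAction.stabilizer C.G (C.a 0)) β ↔ C.A β (C.a 0) δ = 1 := by
  rw [C.A_eq_one]
  constructor
  · rintro ⟨⟨g, hg⟩, rfl⟩
    exact ⟨g.1, g.2, hg, rfl⟩
  · rintro ⟨g, hg, h0, rfl⟩
    exact ⟨⟨⟨g, hg⟩, h0⟩, rfl⟩

theorem card_orbit (β : α) :
    (Nat.card (MulAction.orbit (MulAction.stabilizer C.G (C.a 0)) β) : ℚ) = C.n β := by
  classical
  have h1 : (MulAction.orbit (MulAction.stabilizer C.G (C.a 0)) β : Set α) =
      ((Finset.univ.filter (fun δ => C.A β (C.a 0) δ = 1) : Finset α) : Set α) := by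
    ext δ
    rw [C.mem_orbit_iff]; simp
  rw [Nat.card_coe_set_eq, h1, Set.ncard_coe_finset]
  unfold n
  rw [Finset.card_filter]
  push_cast
  refine Finset.sum_congr rfl fun δ _ => ?_
  rcases C.A_zero_or_one β (C.a 0) δ with h | h <;> simp [h]

/-- In a primitive group there is no suborbit of length one besides the trivial one. -/
theorem n_ne_one (hprim : IsPreprimitive C.G α) {β : α} (hβ : β ≠ C.a 0) : C.n β ≠ 1 := by
  intro hn
  have hfixβ : ∀ g ∈ C.G, g (C.a 0) = C.a 0 → g β = β := by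
    intro g hg h0
    by_contra hne
    have h1 : C.A β (C.a 0) (g β) = 1 := C.A_eq_one.mpr ⟨g, hg, h0, rfl⟩
    have h2 : C.A β (C.a 0) β = 1 := C.A_self β
    have h3 : C.A β (C.a 0) β + C.A β (C.a 0) (g β) ≤ C.n β := by
      unfold n
      rw [← Finset.sum_pair (f := fun δ => C.A β (C.a 0) δ) (Ne.symm hne)]
      apply Finset.sum_le_sum_of_subset_of_nonneg (Finset.subset_univ _)
      intro δ _ _
      rcases C.A_zero_or_one β (C.a 0) δ with h | h <;> rw [h] <;> norm_num
    rw [h1, h2, hn] at h3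
    norm_num at h3
  haveI : Nontrivial α := ⟨⟨β, C.a 0, hβ⟩⟩
  haveI := hprim
  have hK : IsCoatom (stabilizer C.G (C.a 0)) :=
    IsPreprimitive.isCoatom_stabilizer_of_isPreprimitive (G := C.G) (C.a 0)
  have hKβ : IsCoatom (stabilizer C.G β) :=
    IsPreprimitive.isCoatom_stabilizer_of_isPreprimitive (G := C.G) β
  have hle : stabilizer C.G (C.a 0) ≤ stabilizer C.G β := by
    intro g hg
    exact hfixβ g.1 g.2 hg
  have heq : stabilizer C.G (C.a 0) = stabilizer C.G β := by
    rcases eq_or_lt_of_le hle with h | h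
    · exact h
    · exact absurd (hK.2 _ h) hKβ.1
  obtain ⟨g, hg⟩ := MulAction.exists_smul_eq C.G (C.a 0) β
  have hconj : ∀ k : C.G, k ∈ stabilizer C.G (C.a 0) →
      g * k * g⁻¹ ∈ stabilizer C.G (C.a 0) := by
    intro k hk
    rw [heq, mem_stabilizer_iff, ← hg, mul_smul, mul_smul, inv_smul_smul]
    rw [mem_stabilizer_iff] at hk
    rw [hk]
  have hconj' : ∀ k : C.G, g * k * g⁻¹ ∈ stabilizer C.G (C.a 0) →
      k ∈ stabilizer C.G (C.a 0) := by
    intro k hk
    rw [heq, mem_stabilizer_iff, ← hg, mul_smul, mul_smul, inv_smul_smul] at hk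
    rw [mem_stabilizer_iff]
    exact MulAction.injective g hk
  have hgN : g ∈ Subgroup.normalizer (stabilizer C.G (C.a 0) : Set C.G) := by
    rw [Subgroup.mem_normalizer_iff]
    exact fun k => ⟨hconj k, hconj' k⟩
  have hgK : g ∉ stabilizer C.G (C.a 0) := by
    rw [mem_stabilizer_iff, hg]; exact hβ
  have hlt : stabilizer C.G (C.a 0) <
      Subgroup.normalizer (stabilizer C.G (C.a 0) : Set C.G) :=
    lt_of_le_of_ne Subgroup.le_normalizer (fun h => hgK (h ▸ hgN))
  have hnorm : (stabilizer C.G (C.a 0)).Normal := Subgroup.normalizer_eq_top_iff.mp (hK.2 _ hlt)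
  have hKbot : stabilizer C.G (C.a 0) = ⊥ := by
    rw [Subgroup.eq_bot_iff_forall]
    intro k hk
    apply Subtype.ext
    apply Equiv.ext
    intro γ
    obtain ⟨h, rfl⟩ := MulAction.exists_smul_eq C.G (C.a 0) γ
    have h1 : h⁻¹ * k * h ∈ stabilizer C.G (C.a 0) := by
      have := hnorm.conj_mem k hk h⁻¹
      simpa using this
    rw [mem_stabilizer_iff, mul_smul, mul_smul] at h1
    have h2 : k • h • C.a 0 = h • C.a 0 := by
      rw [inv_smul_eq_iff] at h1
      exact h1
    exact h2
  have hx1 : (⟨C.x, C.hx⟩ : C.G) ≠ 1 := by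
    intro h
    have h1 : C.x = 1 := congrArg Subtype.val h
    have h2 := C.x_φ 0 0
    rw [h1, Equiv.Perm.one_apply] at h2
    have h3 := C.φ.injective h2
    simp at h3
  have hZ : Subgroup.zpowers (⟨C.x, C.hx⟩ : C.G) = ⊤ := by
    rw [hKbot] at hK
    apply hK.2
    rw [bot_lt_iff_ne_bot]
    intro h
    exact hx1 (Subgroup.zpowers_eq_bot.mp h)
  obtain ⟨g', hg'⟩ := MulAction.exists_smul_eq C.G (C.a 0) (C.a 1)
  have hmem : g' ∈ Subgroup.zpowers (⟨C.x, C.hx⟩ : C.G) := by rw [hZ]; trivial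
  rw [← mem_powers_iff_mem_zpowers] at hmem
  obtain ⟨n, hn'⟩ := hmem
  have h5 : (C.x ^ n) (C.a 0) = C.a 1 := by
    rw [← hg', ← hn']; rfl
  have h6 := C.v_xpow n (C.a 0)
  rw [h5, C.v_a0, C.v_a1] at h6
  norm_num at h6

/-- Wielandt's theorem for a context. -/
theorem final (hprim : IsPreprimitive C.G α) :
    IsMultiplyPretransitive C.G α 2 ∨
      (Nat.card (orbitRel.Quotient (stabilizer C.G (C.a 0)) α) = 3 ∧
        ∃ a : ℕ, 0 < a ∧ p = 2 * a ^ 2 + 2 * a + 1 ∧ ∀ b : α, b ≠ C.a 0 →
          Nat.card (orbit (stabilizer C.G (C.a 0)) b) = a * (2 * a + 1) ∨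
          Nat.card (orbit (stabilizer C.G (C.a 0)) b) = (a + 1) * (2 * a + 1)) := by
  haveI : NeZero p := ⟨hp.out.ne_zero⟩
  have hζ : IsPrimitiveRoot (Complex.exp (2 * Real.pi * Complex.I / p)) p :=
    Complex.isPrimitiveRoot_exp p hp.out.ne_zero
  have hζp := hζ.pow_eq_one
  have hψζ : ∀ j : ZMod p, AddChar.zmodChar p hζp j = _ ^ j.val :=
    fun j => AddChar.zmodChar_apply hζp j
  have hψ : (AddChar.zmodChar p hζp).IsPrimitive :=
    AddChar.zmodChar_primitive_of_primitive_root p hζ
  rcases C.tri (AddChar.zmodChar p hζp) hζ hψζ with hA | ⟨hs, heps⟩ | hC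
  · -- the kernel `E` defines a nontrivial block system: impossible
    exfalso
    let B : Set α := {γ | ∀ g ∈ C.G, C.v (g γ) = C.v (g (C.a 0))}
    have key : ∀ (g : C.G) (γ : α), γ ∈ B → g • γ ∈ B → ∀ δ ∈ B, g • δ ∈ B := by
      intro g γ hγ hgγ δ hδ h hh
      have e1 : C.v (h (g • δ)) = C.v ((h * g.1) δ) := rfl
      have e2 := hδ (h * g.1) (C.G.mul_mem hh g.2)
      have e3 := hγ (h * g.1) (C.G.mul_mem hh g.2)
      have e4 := hgγ h hh
      rw [e1, e2, ← e3]
      exact e4
    have hB : IsBlock C.G B := by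
      rw [isBlock_iff_smul_eq_of_mem]
      intro g γ hγ hgγ
      apply Set.Subset.antisymm
      · rintro _ ⟨δ, hδ, rfl⟩
        exact key g γ hγ hgγ δ hδ
      · intro δ hδ
        refine ⟨g⁻¹ • δ, key g⁻¹ (g • γ) hgγ (by rw [inv_smul_smul]; exact hγ) δ hδ,
          smul_inv_smul g δ⟩
    have h0 : C.a 0 ∈ B := fun g _ => rfl
    have h1 : C.x (C.a 0) ∈ B := fun g hg => (C.E_eq_one hA hg).symm
    have h2 : C.a 1 ∉ B := by
      intro h
      have := h 1 C.G.one_mem
      simp only [Equiv.Perm.one_apply] at this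
      rw [C.v_a0, C.v_a1] at this
      norm_num at this
    rcases hprim.isTrivialBlock_of_isBlock hB with h | h
    · have h3 := h h0 h1
      have h4 := C.x_φ 0 0
      rw [C.φ_zero, ← h3, ← C.φ_zero 0] at h4
      have h5 := C.φ.injective h4
      simp at h5
    · rw [h] at h2; exact h2 (Set.mem_univ _)
  · -- rank three
    right
    have hn1 : ∀ β, β ≠ C.a 0 → C.n β ≠ 1 := fun β hβ => C.n_ne_one hprim hβ
    have H := fun β (hβ : β ≠ C.a 0) => C.main_B _ hζ hψζ hψ hs heps hn1 hβ
    obtain ⟨a, βp, βm, ha, hpa, hβp, hβm, hnp, hnm, hA0, hcov⟩ := C.count_main hs hn1 H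
    refine ⟨?_, a, ha, hpa, ?_⟩
    · classical
      haveI : Fintype (orbitRel.Quotient (stabilizer C.G (C.a 0)) α) := Fintype.ofFinite _
      rw [Nat.card_eq_fintype_card, ← Finset.card_univ, Finset.card_eq_three]
      refine ⟨Quotient.mk'' (C.a 0), Quotient.mk'' βp, Quotient.mk'' βm, ?_, ?_, ?_, ?_⟩
      · intro h
        rw [Quotient.eq'', orbitRel_apply, C.mem_orbit_iff, C.A_diag hβp] at h
        norm_num at h
      · intro h
        rw [Quotient.eq'', orbitRel_apply, C.mem_orbit_iff, C.A_diag hβm] at h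
        norm_num at h
      · intro h
        have h' := h.symm
        rw [Quotient.eq'', orbitRel_apply, C.mem_orbit_iff, hA0] at h'
        norm_num at h'
      · ext q
        simp only [Finset.mem_univ, true_iff, Finset.mem_insert, Finset.mem_singleton]
        induction q using Quotient.inductionOn' with
        | h γ =>
          by_cases hγ : γ = C.a 0
          · left; rw [hγ]
          · rcases hcov γ hγ with h | h
            · right; left
              rw [Quotient.eq'', orbitRel_apply, C.mem_orbit_iff]; exact h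
            · right; right
              rw [Quotient.eq'', orbitRel_apply, C.mem_orbit_iff]; exact h
    · intro b hb
      rcases hcov b hb with h | h
      · left
        have h1 := C.card_orbit b
        have h2 : C.n b = C.n βp := by
          unfold n
          exact Finset.sum_congr rfl fun γ _ => C.A_orbit h γ
        rw [h2, hnp] at h1
        exact_mod_cast h1
      · right
        have h1 := C.card_orbit b
        have h2 : C.n b = C.n βm := by
          unfold n
          exact Finset.sum_congr rfl fun γ _ => C.A_orbit h γ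
        rw [h2, hnm] at h1
        exact_mod_cast h1
  · -- doubly transitive
    left
    have hE := C.caseC _ hζ hψζ hC
    have hT := C.caseC_trans hE
    rw [is_two_pretransitive_iff]
    intro a b c d hab hcd
    obtain ⟨g₁, hg₁, h1⟩ := C.htr a (C.a 0)
    obtain ⟨g₂, hg₂, h2⟩ := C.htr c (C.a 0)
    have hb : g₁ b ≠ C.a 0 := by rw [← h1]; exact fun h => hab (g₁.injective h).symm
    have hd : g₂ d ≠ C.a 0 := by rw [← h2]; exact fun h => hcd (g₂.injective h).symm
    obtain ⟨h, hh, h3, h4⟩ := C.A_eq_one.mp (hT _ _ hb hd)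
    refine ⟨⟨g₂⁻¹ * h * g₁, C.G.mul_mem (C.G.mul_mem (C.G.inv_mem hg₂) hh) hg₁⟩, ?_, ?_⟩
    · show (g₂⁻¹ * h * g₁) a = c
      rw [Equiv.Perm.mul_apply, Equiv.Perm.mul_apply, h1, h3, ← h2]
      exact g₂.symm_apply_apply c
    · show (g₂⁻¹ * h * g₁) b = d
      rw [Equiv.Perm.mul_apply, Equiv.Perm.mul_apply, h4]
      exact g₂.symm_apply_apply d

end W2pCtx

end Cfsg.Agent.Helper12
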