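import Cfsg.Agent.Helper12.W2pKernel

/-!
# Wielandt's theorem on primitive groups of degree `2p`: the `2 × 2` Fourier reduction.
-/

namespace Cfsg.Agent.Helper12

open Finset

namespace W2pCtx

variable {α : Type*} [Fintype α] [DecidableEq α] {p : ℕ} [hp : Fact p.Prime] (C : W2pCtx α p)

theorem sum_φ' {R : Type*} [AddCommMonoid R] (F : α → R) :
    ∑ ω, F ω = ∑ e : Fin 2, ∑ l : ZMod p, F (C.φ (l, e)) := by
  rw [← Equiv.sum_comp C.φ F, Fintype.sum_prod_type_right]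

/-- The `2 × 2` Fourier reduction of an `x`-invariant kernel at the character `ψ (k * ·)`. -/
noncomputable def hat (ψ : AddChar (ZMod p) ℂ) (M : α → α → ℚ) (k : ZMod p) :
    Matrix (Fin 2) (Fin 2) ℂ :=
  Matrix.of fun c d => ∑ j : ZMod p, (M (C.a c) (C.φ (j, d)) : ℂ) * ψ (k * j)

theorem hat_apply (ψ : AddChar (ZMod p) ℂ) (M : α → α → ℚ) (k : ZMod p) (c d : Fin 2) :
    C.hat ψ M k c d = ∑ j : ZMod p, (M (C.a c) (C.φ (j, d)) : ℂ) * ψ (k * j) := rfl

theorem Inv.shift {N : α → α → ℚ} (hN : C.Inv N) (l j : ZMod p) (e d : Fin 2) :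
    N (C.φ (l, e)) (C.φ (j, d)) = N (C.a e) (C.φ (j - l, d)) := by
  have := Inv.xpow C hN l.val (C.a e) (C.φ (j - l, d))
  rw [C.xpow_φ, ZMod.natCast_zmod_val, sub_add_cancel] at this
  rw [← this, ← C.φ_apply]

theorem hat_mul (ψ : AddChar (ZMod p) ℂ) (M : α → α → ℚ) {N : α → α → ℚ} (hN : C.Inv N)
    (k : ZMod p) : C.hat ψ (kmul M N) k = C.hat ψ M k * C.hat ψ N k := by
  ext c d
  simp only [hat_apply, Matrix.mul_apply, kmul]
  have key : ∀ j : ZMod p, (((∑ γ, M (C.a c) γ * N γ (C.φ (j, d)) : ℚ)) : ℂ) * ψ (k * j)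
      = ∑ e : Fin 2, ∑ l : ZMod p, ((M (C.a c) (C.φ (l, e)) : ℂ) * ψ (k * l)) *
          ((N (C.a e) (C.φ (j - l, d)) : ℂ) * ψ (k * (j - l))) := by
    intro j
    rw [C.sum_φ']
    push_cast
    rw [Finset.sum_mul]
    refine Finset.sum_congr rfl fun e _ => ?_
    rw [Finset.sum_mul]
    refine Finset.sum_congr rfl fun l _ => ?_
    have h2 : ψ (k * j) = ψ (k * l) * ψ (k * (j - l)) := by
      rw [← AddChar.map_add_eq_mul]; congr 1; ring
    rw [hN.shift, h2]; ring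
  simp_rw [key]
  rw [Finset.sum_comm]
  refine Finset.sum_congr rfl fun e _ => ?_
  rw [Finset.sum_comm, Finset.sum_mul]
  refine Finset.sum_congr rfl fun l _ => ?_
  rw [← Finset.mul_sum]
  congr 1
  exact Equiv.sum_comp (Equiv.subRight l) (fun j => (N (C.a e) (C.φ (j, d)) : ℂ) * ψ (k * j))

theorem hat_smul (ψ : AddChar (ZMod p) ℂ) (M : α → α → ℚ) (r : ℚ) (k : ZMod p) :
    C.hat ψ (fun β γ => r * M β γ) k = (r : ℂ) • C.hat ψ M k := by
  ext c d
  simp only [hat_apply, Matrix.smul_apply, smul_eq_mul, Finset.mul_sum]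
  refine Finset.sum_congr rfl fun j _ => ?_
  push_cast; ring

theorem hat_herm (ψ : AddChar (ZMod p) ℂ) {M : α → α → ℚ} (hM : C.Inv M)
    (hsym : ∀ β γ, M β γ = M γ β) (k : ZMod p) :
    (C.hat ψ M k).conjTranspose = C.hat ψ M k := by
  ext c d
  simp only [Matrix.conjTranspose_apply, hat_apply, star_sum, star_mul']
  rw [← Equiv.sum_comp (Equiv.neg (ZMod p))]
  refine Finset.sum_congr rfl fun j _ => ?_
  simp only [Equiv.neg_apply]
  have h1 : M (C.a d) (C.φ (-j, c)) = M (C.a c) (C.φ (j, d)) := by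
    rw [hsym, ← C.φ_zero d, hM.shift]
    congr 2
    simp
  have h2 : star (ψ (k * -j)) = ψ (k * j) := by
    have : k * -j = -(k * j) := by ring
    rw [this, AddChar.map_neg_eq_conj]
    simp
  rw [h2, h1]
  simp

theorem hat_trace (ψ : AddChar (ZMod p) ℂ) (M : α → α → ℚ) (k : ZMod p) :
    (C.hat ψ M k).trace
      = ∑ j : ZMod p, ((M (C.a 0) (C.φ (j, 0)) + M (C.a 1) (C.φ (j, 1)) : ℚ) : ℂ) * ψ (k * j) := by
  rw [Matrix.trace_fin_two, hat_apply, hat_apply, ← Finset.sum_add_distrib]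
  refine Finset.sum_congr rfl fun j _ => ?_
  push_cast; ring

theorem hat_parseval (ψ : AddChar (ZMod p) ℂ) (hψ : ψ.IsPrimitive) (M : α → α → ℚ)
    (c d : Fin 2) :
    ∑ k : ZMod p, Complex.normSq (C.hat ψ M k c d)
      = (p : ℝ) * ∑ j : ZMod p, ((M (C.a c) (C.φ (j, d)) : ℚ) : ℝ) ^ 2 := by
  simp only [hat_apply]
  exact w2p_parseval ψ hψ (fun j => M (C.a c) (C.φ (j, d)))

end W2pCtx

end Cfsg.Agent.Helper12
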