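import Cfsg.Agent.Helper12.W2pFourier

/-!
# Wielandt's theorem on primitive groups of degree `2p`: the invariant kernel `E`.
-/

namespace Cfsg.Agent.Helper12

open Finset

/-- Context: a transitive group `G` on `2p` points containing a semiregular element `x`
of order `p`, with base points `a 0`, `a 1` of the two `⟨x⟩`-orbits. -/
structure W2pCtx (α : Type*) [Fintype α] [DecidableEq α] (p : ℕ) [Fact p.Prime] where
  G : Subgroup (Equiv.Perm α)
  x : Equiv.Perm α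
  a : Fin 2 → α
  hx : x ∈ G
  hxp : x ^ p = 1
  hbij : Function.Bijective (fun jc : ZMod p × Fin 2 => (x ^ jc.1.val) (a jc.2))
  htr : ∀ β γ : α, ∃ g ∈ G, g β = γ

namespace W2pCtx

variable {α : Type*} [Fintype α] [DecidableEq α] {p : ℕ} [hp : Fact p.Prime] (C : W2pCtx α p)

/-- Coordinates on `α`. -/
noncomputable def φ : ZMod p × Fin 2 ≃ α := Equiv.ofBijective _ C.hbij

theorem φ_apply (j : ZMod p) (c : Fin 2) : C.φ (j, c) = (C.x ^ j.val) (C.a c) := rfl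

theorem pow_val (n : ℕ) : C.x ^ ((n : ZMod p).val) = C.x ^ n := by
  rw [ZMod.val_natCast, ← pow_eq_pow_mod n C.hxp]

theorem xpow_φ (n : ℕ) (j : ZMod p) (c : Fin 2) : (C.x ^ n) (C.φ (j, c)) = C.φ (j + n, c) := by
  rw [φ_apply, φ_apply, ← Equiv.Perm.mul_apply, ← pow_add]
  have : j + (n : ZMod p) = ((n + j.val : ℕ) : ZMod p) := by
    push_cast; rw [ZMod.natCast_zmod_val]; ring
  rw [this, pow_val]

theorem x_φ (j : ZMod p) (c : Fin 2) : C.x (C.φ (j, c)) = C.φ (j + 1, c) := by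
  have := C.xpow_φ 1 j c
  simpa using this

theorem φ_zero (c : Fin 2) : C.φ (0, c) = C.a c := by
  rw [φ_apply]; simp

/-- The sign vector: `1` on the first `⟨x⟩`-orbit and `-1` on the second. -/
noncomputable def v (ω : α) : ℚ := if (C.φ.symm ω).2 = 0 then 1 else -1

theorem v_φ (j : ZMod p) (c : Fin 2) : C.v (C.φ (j, c)) = if c = 0 then 1 else -1 := by
  simp [v]

theorem v_sq (ω : α) : C.v ω * C.v ω = 1 := by
  unfold v; split_ifs <;> norm_num

theorem v_a0 : C.v (C.a 0) = 1 := by rw [← C.φ_zero 0, v_φ]; simp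

theorem v_a1 : C.v (C.a 1) = -1 := by rw [← C.φ_zero 1, v_φ]; simp

theorem v_xpow (n : ℕ) (ω : α) : C.v ((C.x ^ n) ω) = C.v ω := by
  obtain ⟨⟨j, c⟩, rfl⟩ := C.φ.surjective ω
  rw [xpow_φ, v_φ, v_φ]

theorem v_x (ω : α) : C.v (C.x ω) = C.v ω := by
  have := C.v_xpow 1 ω
  simpa using this

theorem v_eq {ω ω' : α} (h : C.v ω = C.v ω') : ∃ n : ℕ, (C.x ^ n) ω = ω' := by
  obtain ⟨⟨j, c⟩, rfl⟩ := C.φ.surjective ω
  obtain ⟨⟨j', c'⟩, rfl⟩ := C.φ.surjective ω'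
  rw [v_φ, v_φ] at h
  have hc : c = c' := by
    fin_cases c <;> fin_cases c' <;> simp at h ⊢ <;> norm_num at h
  subst hc
  refine ⟨(j' - j).val, ?_⟩
  rw [xpow_φ, ZMod.natCast_zmod_val]
  congr 2
  ring

theorem sum_φ {R : Type*} [AddCommMonoid R] (F : α → R) :
    ∑ ω, F ω = ∑ j : ZMod p, (F (C.φ (j, 0)) + F (C.φ (j, 1))) := by
  rw [← Equiv.sum_comp C.φ F, Fintype.sum_prod_type]
  refine Finset.sum_congr rfl fun j _ => ?_
  rw [Fin.sum_univ_two]

theorem sum_v : ∑ ω, C.v ω = 0 := by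
  rw [C.sum_φ]
  simp [v_φ]

include C in
theorem card_eq : Fintype.card α = 2 * p := by
  rw [← Fintype.card_congr C.φ, Fintype.card_prod, ZMod.card, Fintype.card_fin, mul_comm]

theorem sum_vv : ∑ ω, C.v ω * C.v ω = (Fintype.card α : ℚ) := by
  simp [v_sq]

/-- The elements of `G` as a finset. -/
noncomputable def GS : Finset (Equiv.Perm α) := by
  classical exact Finset.univ.filter (· ∈ C.G)

theorem mem_GS {g : Equiv.Perm α} : g ∈ C.GS ↔ g ∈ C.G := by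
  classical simp [GS]

theorem GS_card_ne : (C.GS.card : ℚ) ≠ 0 := by
  have : C.GS.Nonempty := ⟨1, C.mem_GS.mpr C.G.one_mem⟩
  exact_mod_cast this.card_pos.ne'

theorem sum_GS_mul {g₀ : Equiv.Perm α} (hg : g₀ ∈ C.G) (F : Equiv.Perm α → ℚ) :
    ∑ g ∈ C.GS, F (g * g₀) = ∑ g ∈ C.GS, F g := by
  refine Finset.sum_equiv (Equiv.mulRight g₀) ?_ ?_
  · intro g
    rw [mem_GS, mem_GS]
    simp [Subgroup.mul_mem_cancel_right _ hg]
  · intro g _
    rfl

/-- The averaged kernel `E = |G|⁻¹ ∑_g (g v)(g v)ᵀ`. -/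
noncomputable def E (β γ : α) : ℚ := (∑ g ∈ C.GS, C.v (g β) * C.v (g γ)) / C.GS.card

theorem E_symm (β γ : α) : C.E β γ = C.E γ β := by
  unfold E
  congr 1
  exact Finset.sum_congr rfl fun g _ => mul_comm _ _

theorem E_inv {g₀ : Equiv.Perm α} (hg : g₀ ∈ C.G) (β γ : α) : C.E (g₀ β) (g₀ γ) = C.E β γ := by
  unfold E
  congr 1
  exact C.sum_GS_mul hg (fun g => C.v (g β) * C.v (g γ))

theorem E_self (β : α) : C.E β β = 1 := by
  unfold E
  simp only [v_sq]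
  rw [Finset.sum_const, nsmul_eq_mul, mul_one]
  exact div_self C.GS_card_ne

theorem E_row (β : α) : ∑ γ, C.E β γ = 0 := by
  unfold E
  rw [← Finset.sum_div, Finset.sum_comm]
  have : ∀ g ∈ C.GS, ∑ γ, C.v (g β) * C.v (g γ) = 0 := by
    intro g _
    rw [← Finset.mul_sum, Equiv.sum_comp g C.v, C.sum_v, mul_zero]
  rw [Finset.sum_eq_zero this, zero_div]

theorem vv_le (ω ω' : α) : C.v ω * C.v ω' ≤ 1 := by
  unfold v; split_ifs <;> norm_num

theorem E_le_one (β γ : α) : C.E β γ ≤ 1 := by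
  unfold E
  rw [div_le_one (lt_of_le_of_ne (Nat.cast_nonneg _) (Ne.symm C.GS_card_ne))]
  calc ∑ g ∈ C.GS, C.v (g β) * C.v (g γ) ≤ ∑ g ∈ C.GS, (1 : ℚ) :=
        Finset.sum_le_sum fun g _ => C.vv_le _ _
    _ = C.GS.card := by simp

theorem E_eq_one {β γ : α} (h : C.E β γ = 1) {g : Equiv.Perm α} (hg : g ∈ C.G) :
    C.v (g β) = C.v (g γ) := by
  unfold E at h
  rw [div_eq_one_iff_eq C.GS_card_ne] at h
  have h0 : ∑ g ∈ C.GS, (1 - C.v (g β) * C.v (g γ)) = 0 := by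
    rw [Finset.sum_sub_distrib, h]; simp
  have h1 := (Finset.sum_eq_zero_iff_of_nonneg (fun g _ => sub_nonneg.mpr (C.vv_le _ _))).mp h0 g
    (C.mem_GS.mpr hg)
  have h2 : C.v (g β) * C.v (g γ) = 1 := by linarith
  calc C.v (g β) = C.v (g β) * (C.v (g γ) * C.v (g γ)) := by rw [v_sq, mul_one]
    _ = (C.v (g β) * C.v (g γ)) * C.v (g γ) := by ring
    _ = C.v (g γ) := by rw [h2, one_mul]

/-- `G`-invariant kernels. -/
def Inv (M : α → α → ℚ) : Prop := ∀ g ∈ C.G, ∀ β γ, M (g β) (g γ) = M β γ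

theorem E_Inv : C.Inv C.E := fun _ hg β γ => C.E_inv hg β γ

/-- The eigenvalue of an invariant kernel on the sign vector. -/
noncomputable def rho (M : α → α → ℚ) : ℚ := ∑ γ, M (C.a 0) γ * C.v γ

theorem Inv.xpow {M : α → α → ℚ} (hM : C.Inv M) (n : ℕ) (β γ : α) :
    M ((C.x ^ n) β) ((C.x ^ n) γ) = M β γ :=
  hM _ (C.G.pow_mem C.hx n) β γ

theorem eigen {M : α → α → ℚ} (hM : C.Inv M) (β : α) :
    ∑ γ, M β γ * C.v γ = C.rho M * C.v β := by
  set f : α → ℚ := fun β => ∑ γ, M β γ * C.v γ with hf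
  have h1 : ∀ (n : ℕ) (β : α), f ((C.x ^ n) β) = f β := by
    intro n β
    simp only [hf]
    rw [← Equiv.sum_comp (C.x ^ n) (fun γ => M ((C.x ^ n) β) γ * C.v γ)]
    refine Finset.sum_congr rfl fun γ _ => ?_
    rw [hM.xpow, C.v_xpow]
  have h2 : ∀ β β' : α, C.v β = C.v β' → f β = f β' := by
    intro β β' h
    obtain ⟨n, rfl⟩ := C.v_eq h
    exact (h1 n β).symm
  have h3 : ∀ γ : α, ∑ β, M β γ = ∑ β, M β (C.a 0) := by
    intro γ
    obtain ⟨g, hg, rfl⟩ := C.htr (C.a 0) γ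
    rw [← Equiv.sum_comp g (fun β => M β (g (C.a 0)))]
    exact Finset.sum_congr rfl fun β _ => hM g hg β _
  have h4 : ∑ β, f β = 0 := by
    simp only [hf]
    rw [Finset.sum_comm]
    simp_rw [← Finset.sum_mul, h3]
    rw [← Finset.mul_sum, C.sum_v, mul_zero]
  have h5 : ∀ j : ZMod p, f (C.φ (j, 0)) = f (C.a 0) := fun j =>
    h2 _ _ (by rw [v_φ, v_a0]; simp)
  have h6 : ∀ j : ZMod p, f (C.φ (j, 1)) = f (C.a 1) := fun j =>
    h2 _ _ (by rw [v_φ, v_a1]; simp)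
  rw [C.sum_φ] at h4
  simp only [h5, h6] at h4
  rw [Finset.sum_const, Finset.card_univ, ZMod.card, nsmul_eq_mul] at h4
  have hp0 : (p : ℚ) ≠ 0 := by exact_mod_cast hp.out.ne_zero
  have h7 : f (C.a 1) = - f (C.a 0) := by
    have := (mul_eq_zero.mp h4).resolve_left hp0
    linarith
  have h8 : C.rho M = f (C.a 0) := rfl
  rw [h8]
  change f β = _
  obtain ⟨⟨j, c⟩, rfl⟩ := C.φ.surjective β
  obtain rfl | rfl : c = 0 ∨ c = 1 := by fin_cases c <;> simp
  · rw [h5 j, v_φ]; simp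
  · rw [h6 j, v_φ, h7]; simp

/-- Product of kernels. -/
def kmul (M N : α → α → ℚ) : α → α → ℚ := fun β δ => ∑ γ, M β γ * N γ δ

theorem ME {M : α → α → ℚ} (hM : C.Inv M) (β δ : α) :
    ∑ γ, M β γ * C.E γ δ = C.rho M * C.E β δ := by
  unfold E
  simp_rw [mul_div_assoc', Finset.mul_sum]
  rw [← Finset.sum_div, Finset.sum_comm]
  congr 1
  refine Finset.sum_congr rfl fun g hg => ?_
  have hg' := C.mem_GS.mp hg
  have : ∑ γ, M β γ * (C.v (g γ) * C.v (g δ)) = (∑ γ, M (g β) γ * C.v γ) * C.v (g δ) := by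
    rw [← Equiv.sum_comp g (fun γ => M (g β) γ * C.v γ), Finset.sum_mul]
    refine Finset.sum_congr rfl fun γ _ => ?_
    rw [hM g hg']
    ring
  rw [this, C.eigen hM]
  ring

theorem rho_transpose {M : α → α → ℚ} (hM : C.Inv M) (hMt : C.Inv (fun β γ => M γ β)) :
    C.rho (fun β γ => M γ β) = C.rho M := by
  have h1 : ∑ β, C.v β * ∑ γ, M β γ * C.v γ = C.rho M * Fintype.card α := by
    simp_rw [C.eigen hM]
    rw [← C.sum_vv, Finset.mul_sum]
    exact Finset.sum_congr rfl fun β _ => by ring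
  have h2 : ∑ γ, C.v γ * ∑ β, M β γ * C.v β = C.rho (fun β γ => M γ β) * Fintype.card α := by
    have := fun γ => C.eigen hMt γ
    simp_rw [this]
    rw [← C.sum_vv, Finset.mul_sum]
    exact Finset.sum_congr rfl fun β _ => by ring
  have h3 : ∑ β, C.v β * ∑ γ, M β γ * C.v γ = ∑ γ, C.v γ * ∑ β, M β γ * C.v β := by
    simp_rw [Finset.mul_sum]
    rw [Finset.sum_comm]
    exact Finset.sum_congr rfl fun γ _ => Finset.sum_congr rfl fun β _ => by ring
  have hc : (Fintype.card α : ℚ) ≠ 0 := by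
    rw [C.card_eq]
    have := hp.out.pos
    positivity
  have := h2.symm.trans (h3.symm.trans h1)
  exact mul_right_cancel₀ hc this

theorem Inv.transpose {M : α → α → ℚ} (hM : C.Inv M) : C.Inv (fun β γ => M γ β) :=
  fun g hg β γ => hM g hg γ β

theorem EM {M : α → α → ℚ} (hM : C.Inv M) (β δ : α) :
    ∑ γ, C.E β γ * M γ δ = C.rho M * C.E β δ := by
  have h := C.ME hM.transpose δ β
  rw [C.rho_transpose hM hM.transpose, C.E_symm δ β] at h
  rw [← h]
  refine Finset.sum_congr rfl fun γ _ => ?_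
  rw [C.E_symm β γ, mul_comm]

/-- The eigenvalue `s` of `E` on the sign vector. -/
noncomputable def s : ℚ := C.rho C.E

theorem EE (β δ : α) : ∑ γ, C.E β γ * C.E γ δ = C.s * C.E β δ := C.ME C.E_Inv β δ

theorem s_eq : C.s = ∑ γ, C.E (C.a 0) γ ^ 2 := by
  have := C.EE (C.a 0) (C.a 0)
  rw [C.E_self, mul_one] at this
  rw [← this]
  refine Finset.sum_congr rfl fun γ _ => ?_
  rw [C.E_symm γ, sq]

theorem s_pos : 0 < C.s := by
  rw [C.s_eq]
  have h1 : C.E (C.a 0) (C.a 0) ^ 2 ≤ ∑ γ, C.E (C.a 0) γ ^ 2 :=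
    Finset.single_le_sum (f := fun γ => C.E (C.a 0) γ ^ 2) (fun γ _ => sq_nonneg _)
      (Finset.mem_univ (C.a 0))
  rw [C.E_self] at h1
  linarith

open Classical in
/-- The orbital of the pair `(a 0, β)` as a `0/1` kernel. -/
noncomputable def A (β : α) : α → α → ℚ := fun γ δ =>
  if ∃ g ∈ C.G, g (C.a 0) = γ ∧ g β = δ then 1 else 0

theorem A_eq_one {β γ δ : α} : C.A β γ δ = 1 ↔ ∃ g ∈ C.G, g (C.a 0) = γ ∧ g β = δ := by
  unfold A
  split_ifs with h
  · simp [h]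
  · simp [h]

theorem A_zero_or_one (β γ δ : α) : C.A β γ δ = 0 ∨ C.A β γ δ = 1 := by
  unfold A
  split_ifs <;> simp

theorem A_sq (β γ δ : α) : C.A β γ δ ^ 2 = C.A β γ δ := by
  rcases C.A_zero_or_one β γ δ with h | h <;> rw [h] <;> norm_num

theorem A_Inv (β : α) : C.Inv (C.A β) := by
  intro g₀ hg₀ γ δ
  have hiff : (∃ g ∈ C.G, g (C.a 0) = g₀ γ ∧ g β = g₀ δ) ↔ ∃ g ∈ C.G, g (C.a 0) = γ ∧ g β = δ := by
    constructor
    · rintro ⟨g, hg, h1, h2⟩
      refine ⟨g₀⁻¹ * g, C.G.mul_mem (C.G.inv_mem hg₀) hg, ?_, ?_⟩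
      · rw [Equiv.Perm.mul_apply, h1]; simp
      · rw [Equiv.Perm.mul_apply, h2]; simp
    · rintro ⟨g, hg, h1, h2⟩
      exact ⟨g₀ * g, C.G.mul_mem hg₀ hg, by rw [Equiv.Perm.mul_apply, h1],
        by rw [Equiv.Perm.mul_apply, h2]⟩
  by_cases h : C.A β γ δ = 1
  · rw [h]
    exact C.A_eq_one.mpr (hiff.mpr (C.A_eq_one.mp h))
  · have h0 : C.A β γ δ = 0 := (C.A_zero_or_one β γ δ).resolve_right h
    rw [h0]
    refine (C.A_zero_or_one β _ _).resolve_right fun h1 => h ?_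
    exact C.A_eq_one.mpr (hiff.mp (C.A_eq_one.mp h1))

theorem A_diag {β : α} (hβ : β ≠ C.a 0) (γ : α) : C.A β γ γ = 0 := by
  rcases C.A_zero_or_one β γ γ with h | h
  · exact h
  · obtain ⟨g, _, h1, h2⟩ := C.A_eq_one.mp h
    exact absurd (g.injective (h2.trans h1.symm)) hβ

/-- The subdegree of the orbital of `(a 0, β)`. -/
noncomputable def n (β : α) : ℚ := ∑ δ, C.A β (C.a 0) δ

theorem A_row (β γ : α) : ∑ δ, C.A β γ δ = C.n β := by
  obtain ⟨g, hg, rfl⟩ := C.htr (C.a 0) γ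
  unfold n
  rw [← Equiv.sum_comp g (fun δ => C.A β (g (C.a 0)) δ)]
  exact Finset.sum_congr rfl fun δ _ => C.A_Inv β g hg _ _

theorem E_of_A {β γ δ : α} (h : C.A β γ δ = 1) : C.E γ δ = C.E (C.a 0) β := by
  obtain ⟨g, hg, rfl, rfl⟩ := C.A_eq_one.mp h
  exact C.E_inv hg _ _

theorem A_self (β : α) : C.A β (C.a 0) β = 1 :=
  C.A_eq_one.mpr ⟨1, C.G.one_mem, rfl, rfl⟩

theorem n_pos (β : α) : 1 ≤ C.n β := by
  unfold n
  have := Finset.single_le_sum (f := fun δ => C.A β (C.a 0) δ)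
    (fun δ _ => by rcases C.A_zero_or_one β (C.a 0) δ with h | h <;> rw [h] <;> norm_num)
    (Finset.mem_univ β)
  rwa [C.A_self] at this

theorem E_mul_n (β : α) : C.E (C.a 0) β * C.n β = C.rho (C.A β) := by
  have h := C.ME (C.A_Inv β) (C.a 0) (C.a 0)
  rw [C.E_self, mul_one] at h
  rw [← h, ← C.A_row β (C.a 0), Finset.mul_sum]
  refine Finset.sum_congr rfl fun γ _ => ?_
  rcases C.A_zero_or_one β (C.a 0) γ with h0 | h1
  · rw [h0]; ring
  · rw [C.E_symm γ, C.E_of_A h1, h1]; ring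

end W2pCtx

end Cfsg.Agent.Helper12
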